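import Mathlib
import Cfsg.Agent.Lib.Helper65.MonoDefs

/-!
# S5634, piece STEPA (helper32 for helper65)

A non-monomial element of `X` with a monomial column yields a root element.
-/

set_option autoImplicit false

namespace Cfsg.Agent.Lib.Helper65.Mono

open Matrix

variable {F : Type*} [Field F] {κ : Type} [Fintype κ] [DecidableEq κ]

/-- a monomial matrix of determinant `1` moving the `k'`-th coordinate to the `k`-th one -/
theorem stepA_exists_w (k k' : κ) :
    ∃ w : GL κ F, (w : Matrix κ κ F).det = 1 ∧ IsMono (w : Matrix κ κ F) ∧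
      ∀ (v : κ → F), (∀ i, i ≠ k' → v i = 0) → ∀ i, i ≠ k →
        ∑ l, (w : Matrix κ κ F) i l * v l = 0 := by
  classical
  by_cases hkk : k = k'
  · subst hkk
    refine ⟨1, by simp, ?_, ?_⟩
    · rw [Units.val_one]
      exact isMono_one
    · intro v hv i hi
      rw [Units.val_one]
      apply Finset.sum_eq_zero
      intro l _
      by_cases hl : l = k
      · subst hl
        rw [Matrix.one_apply_ne hi, zero_mul]
      · rw [hv l hl, mul_zero]
  · set σ : Equiv.Perm κ := Equiv.swap k k' with hσ
    set d : κ → F := fun j => if j = k then -1 else 1 with hd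
    set A : Matrix κ κ F := σ.permMatrix F * Matrix.diagonal d with hA
    have hdetA : A.det = 1 := by
      rw [hA, Matrix.det_mul, Matrix.det_permutation, Matrix.det_diagonal, hσ,
        Equiv.Perm.sign_swap hkk]
      have : ∏ j, d j = -1 := by
        rw [hd]
        rw [Finset.prod_ite_eq' Finset.univ k (fun _ => (-1 : F))]
        simp
      rw [this]
      simp
    have hAapp : ∀ i j, A i j = if σ i = j then d j else 0 := by
      intro i j
      rw [hA, Matrix.mul_diagonal, Equiv.Perm.permMatrix, PEquiv.toMatrix_apply]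
      simp only [Equiv.toPEquiv_apply, Option.mem_def, Option.some.injEq]
      split_ifs <;> simp
    refine ⟨Matrix.GeneralLinearGroup.mkOfDetNeZero A (by rw [hdetA]; exact one_ne_zero),
      hdetA, ?_, ?_⟩
    · intro j
      refine ⟨σ.symm j, fun i' h => ?_⟩
      have h' : A i' j ≠ 0 := h
      rw [hAapp] at h'
      by_contra hne
      apply h'
      rw [if_neg]
      intro h2
      apply hne
      rw [← h2, Equiv.symm_apply_apply]
    · intro v hv i hi
      apply Finset.sum_eq_zero
      intro l _
      have : (Matrix.GeneralLinearGroup.mkOfDetNeZero A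
          (by rw [hdetA]; exact one_ne_zero) : Matrix κ κ F) i l = A i l := rfl
      rw [this, hAapp]
      by_cases hl : σ i = l
      · have hlk : l ≠ k' := by
          intro h
          apply hi
          have h3 : σ i = σ k := by rw [hl, h, hσ, Equiv.swap_apply_left]
          exact σ.injective h3
        rw [hv l hlk, mul_zero]
      · rw [if_neg hl, zero_mul]

/-- STEPA -/
theorem stepA [Fintype F] (hq : 5 ≤ Fintype.card F) (hn : 7 ≤ Fintype.card κ)
    {X : Subgroup (GL κ F)} (hX : MonIn X) (hdet : ∀ g ∈ X, (g : Matrix κ κ F).det = 1)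
    (hA1 : A1P X) (hLL : LLP X) (hQG : QGP X) (x : GL κ F) (hx : x ∈ X)
    (hnm : ¬ IsMono (x : Matrix κ κ F)) (k k' : κ)
    (hcol : ∀ i, i ≠ k' → (x : Matrix κ κ F) i k = 0) : RootIn X := by
  classical
  obtain ⟨w, hwdet, hwm, hw⟩ := stepA_exists_w (F := F) k k'
  have hwX : w ∈ X := hX w hwdet hwm
  have hx1X : w * x ∈ X := X.mul_mem hwX hx
  have hx1col : ∀ i, i ≠ k → ((w * x : GL κ F) : Matrix κ κ F) i k = 0 := by
    intro i hi
    rw [Units.val_mul, Matrix.mul_apply]
    exact hw (fun l => (x : Matrix κ κ F) l k) hcol i hi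
  have hx1nm : ¬ IsMono ((w * x : GL κ F) : Matrix κ κ F) := by
    intro h
    apply hnm
    have h2 : x = w⁻¹ * (w * x) := by rw [inv_mul_cancel_left]
    rw [h2, Units.val_mul]
    exact (isMono_inv w hwm).mul h
  generalize w * x = x1 at hx1X hx1col hx1nm
  have hJne : ({k} : Finset κ).Nonempty := Finset.singleton_nonempty k
  have hS : 3 ≤ Fintype.card {i // i ∉ ({k} : Finset κ)} := by
    have h1 : Fintype.card {i // i ∉ ({k} : Finset κ)} = Fintype.card κ - 1 := by
      rw [Fintype.card_subtype_compl]
      simp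
    omega
  have hstab : StabJ ({k} : Finset κ) (x1 : Matrix κ κ F) := by
    intro i j hi hj
    rw [Finset.mem_singleton] at hi hj
    rw [hj]
    exact hx1col i hi
  by_cases hb : IsMono (blk ({k} : Finset κ) (x1 : Matrix κ κ F))
  · -- the block-diagonal part of `x1`
    set m : Matrix κ κ F :=
      fun i j => if (i = k ↔ j = k) then (x1 : Matrix κ κ F) i j else 0 with hm
    have hmkk : ∀ i j, (i = k ↔ j = k) → m i j = (x1 : Matrix κ κ F) i j := by
      intro i j h
      rw [hm]
      simp only
      rw [if_pos h]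
    have hm0 : ∀ i j, ¬ (i = k ↔ j = k) → m i j = 0 := by
      intro i j h
      rw [hm]
      simp only
      rw [if_neg h]
    have hmdet : m.det = 1 := by
      have h1 := Matrix.twoBlockTriangular_det (x1 : Matrix κ κ F) (fun i => i = k)
        (fun i hi j hj => by rw [hj]; exact hx1col i hi)
      have h2 := Matrix.twoBlockTriangular_det m (fun i => i = k)
        (fun i hi j hj => hm0 i j (by simp [hi, hj]))
      have e1 : Matrix.toSquareBlockProp m (fun i => i = k) =
          Matrix.toSquareBlockProp (x1 : Matrix κ κ F) (fun i => i = k) := by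
        ext ⟨i, hi⟩ ⟨j, hj⟩
        exact hmkk i j (by simp [hi, hj])
      have e2 : Matrix.toSquareBlockProp m (fun i => ¬ i = k) =
          Matrix.toSquareBlockProp (x1 : Matrix κ κ F) (fun i => ¬ i = k) := by
        ext ⟨i, hi⟩ ⟨j, hj⟩
        exact hmkk i j (by simp [hi, hj])
      rw [h2, e1, e2, ← h1]
      exact hdet x1 hx1X
    have hmmono : IsMono m := by
      intro j
      by_cases hj : j = k
      · refine ⟨k, fun i' h => ?_⟩
        by_contra hne
        exact h (hm0 i' j (by simp [hne, hj]))
      · have hjJ : j ∉ ({k} : Finset κ) := by simp [hj]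
        obtain ⟨i0, hi0⟩ := hb ⟨j, hjJ⟩
        refine ⟨i0.1, fun i' h => ?_⟩
        have hi'k : i' ≠ k := by
          intro h2
          exact h (hm0 i' j (by simp [h2, hj]))
        have hi'J : i' ∉ ({k} : Finset κ) := by simp [hi'k]
        have h2 : blk ({k} : Finset κ) (x1 : Matrix κ κ F) ⟨i', hi'J⟩ ⟨j, hjJ⟩ ≠ 0 := by
          intro h0
          apply h
          rw [hmkk i' j (by simp [hi'k, hj])]
          exact h0
        exact congrArg Subtype.val (hi0 ⟨i', hi'J⟩ h2)
    have hmne : m.det ≠ 0 := by rw [hmdet]; exact one_ne_zero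
    have hmGval : (Matrix.GeneralLinearGroup.mkOfDetNeZero m hmne : Matrix κ κ F) = m := rfl
    generalize Matrix.GeneralLinearGroup.mkOfDetNeZero m hmne = mG at hmGval
    have hmGX : mG ∈ X := hX mG (by rw [hmGval]; exact hmdet) (by rw [hmGval]; exact hmmono)
    have hgX : x1 * mG⁻¹ ∈ X := X.mul_mem hx1X (X.inv_mem hmGX)
    have hmstab : StabJ ({k} : Finset κ) (mG : Matrix κ κ F) := by
      intro i j hi hj
      rw [Finset.mem_singleton] at hi hj
      rw [hmGval]
      exact hm0 i j (by simp [hi, hj])
    have hminv := stabJ_inv mG hmstab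
    have hN : ∀ i l, i ≠ k → (x1 : Matrix κ κ F) i l = m i l := by
      intro i l hi
      by_cases hl : l = k
      · rw [hl, hx1col i hi, hm0 i k (by simp [hi])]
      · rw [hmkk i l (by simp [hi, hl])]
    have hNk : (x1 : Matrix κ κ F) k k = m k k := (hmkk k k (by simp)).symm
    have hUJ : UJ ({k} : Finset κ) ((x1 * mG⁻¹ : GL κ F) : Matrix κ κ F) := by
      intro i j hne
      by_contra hcon
      apply hne
      have hij : i ≠ k ∨ j = k := by
        by_contra h
        push Not at h
        exact hcon ⟨by simp [h.1], by simp [h.2]⟩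
      rw [Units.val_mul, Matrix.mul_apply]
      have hone : ∑ l, m i l * ((mG⁻¹ : GL κ F) : Matrix κ κ F) l j =
          (1 : Matrix κ κ F) i j := by
        have h3 := gl_mul_inv_apply mG i j
        rw [hmGval] at h3
        rw [h3, Matrix.one_apply]
      rw [← hone]
      apply Finset.sum_congr rfl
      intro l _
      rcases hij with hi | hj
      · rw [hN i l hi]
      · by_cases hl : l = k
        · by_cases hi : i = k
          · rw [hl, hi, hNk]
          · rw [hN i l hi]
        · have h4 : ((mG⁻¹ : GL κ F) : Matrix κ κ F) l j = 0 :=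
            hminv l j (by simp [hl]) (by simp [hj])
          rw [h4, mul_zero, mul_zero]
    have hg1 : x1 * mG⁻¹ ≠ 1 := by
      intro h
      apply hx1nm
      have h2 : x1 = mG := by
        have h3 : x1 = (x1 * mG⁻¹) * mG := by rw [inv_mul_cancel_right]
        rw [h3, h, one_mul]
      rw [h2, hmGval]
      exact hmmono
    exact hA1 ({k} : Finset κ) hS (x1 * mG⁻¹) hgX hUJ hg1
  · obtain ⟨z, hz, hzs, hk⟩ := hQG ({k} : Finset κ) hJne hS x1 hx1X hstab hb
    exact hLL ({k} : Finset κ) hJne hS z hz hzs hk

end Cfsg.Agent.Lib.Helper65.Mono
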