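import Mathlib

/-!
# Self-orthogonal binary codes of length 24

A self-orthogonal code in `(ZMod 2)^24` has dimension at most 12; if its dimension is 12 it is
its own dual.
-/

set_option autoImplicit false

namespace Cfsg.Agent.Lib.Helper32.LCB5

open Matrix

/-- The dot product, restricted to a subspace in the second variable. -/
noncomputable def dotRes (C : Submodule (ZMod 2) (Fin 24 → ZMod 2)) :
    (Fin 24 → ZMod 2) →ₗ[ZMod 2] Module.Dual (ZMod 2) C :=
  C.subtype.dualMap ∘ₗ (dotProductBilin (ZMod 2) (ZMod 2))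

theorem dotRes_apply (C : Submodule (ZMod 2) (Fin 24 → ZMod 2)) (t : Fin 24 → ZMod 2) (c : C) :
    dotRes C t c = ∑ i, t i * (c : Fin 24 → ZMod 2) i := rfl

theorem dotRes_surjective (C : Submodule (ZMod 2) (Fin 24 → ZMod 2)) :
    Function.Surjective (dotRes C) := by
  have h1 : Function.Surjective (C.subtype.dualMap) :=
    LinearMap.dualMap_surjective_of_injective C.subtype_injective
  have h2 : Function.Injective
      (dotProductBilin (ZMod 2) (ZMod 2) :
        (Fin 24 → ZMod 2) →ₗ[ZMod 2] (Fin 24 → ZMod 2) →ₗ[ZMod 2] ZMod 2) := by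
    rw [← LinearMap.ker_eq_bot, LinearMap.ker_eq_bot']
    intro t ht
    funext i
    have := congrArg (fun f => f (Pi.single i 1)) ht
    simpa using this
  have h3 : Function.Surjective
      (dotProductBilin (ZMod 2) (ZMod 2) :
        (Fin 24 → ZMod 2) →ₗ[ZMod 2] (Fin 24 → ZMod 2) →ₗ[ZMod 2] ZMod 2) :=
    (LinearMap.injective_iff_surjective_of_finrank_eq_finrank
      (Subspace.dual_finrank_eq).symm).mp h2
  exact h1.comp h3

theorem finrank_ker_dotRes (C : Submodule (ZMod 2) (Fin 24 → ZMod 2)) :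
    Module.finrank (ZMod 2) C + Module.finrank (ZMod 2) (LinearMap.ker (dotRes C)) = 24 := by
  have h := LinearMap.finrank_range_add_finrank_ker (dotRes C)
  rw [LinearMap.range_eq_top.mpr (dotRes_surjective C), finrank_top, Subspace.dual_finrank_eq,
    Module.finrank_fin_fun] at h
  exact h

theorem le_ker_dotRes (C : Submodule (ZMod 2) (Fin 24 → ZMod 2))
    (horth : ∀ v ∈ C, ∀ w ∈ C, ∑ i, v i * w i = 0) : C ≤ LinearMap.ker (dotRes C) := by
  intro t ht
  rw [LinearMap.mem_ker]
  ext c
  rw [dotRes_apply, LinearMap.zero_apply]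
  exact horth t ht c.1 c.2

theorem code_dim_le (C : Submodule (ZMod 2) (Fin 24 → ZMod 2))
    (horth : ∀ v ∈ C, ∀ w ∈ C, ∑ i, v i * w i = 0) : Module.finrank (ZMod 2) C ≤ 12 := by
  have h1 := finrank_ker_dotRes C
  have h2 := Submodule.finrank_mono (le_ker_dotRes C horth)
  omega

theorem code_self_dual (C : Submodule (ZMod 2) (Fin 24 → ZMod 2))
    (horth : ∀ v ∈ C, ∀ w ∈ C, ∑ i, v i * w i = 0) (hdim : Module.finrank (ZMod 2) C = 12)
    (t : Fin 24 → ZMod 2) (ht : ∀ c ∈ C, ∑ i, c i * t i = 0) : t ∈ C := by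
  have h1 := finrank_ker_dotRes C
  have h2 : C = LinearMap.ker (dotRes C) :=
    Submodule.eq_of_le_of_finrank_eq (le_ker_dotRes C horth) (by omega)
  rw [h2, LinearMap.mem_ker]
  ext c
  rw [dotRes_apply, LinearMap.zero_apply]
  have := ht c.1 c.2
  rw [← this]
  exact Finset.sum_congr rfl fun i _ => mul_comm _ _

end Cfsg.Agent.Lib.Helper32.LCB5
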