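import Mathlib
import Cfsg.Agent.Lib.Helper61.TT5Defs

/-!
# Coxeter presentation of `S₅` (piece P7 of S5365)
-/

set_option autoImplicit false

namespace Cfsg.Agent.Lib.Helper32.TT5

open Cfsg.Agent.Lib.Helper61.TT5
open scoped Pointwise

/-- one step of the coset argument -/
theorem cox_step {K : Type*} [Group K] [DecidableEq K] (A B U V : Finset K)
    (hA : ∀ w ∈ A, ∀ u ∈ U, w * u ∈ A)
    (hB : ∀ t ∈ B, ∀ s ∈ V, ∃ u ∈ U, ∃ t' ∈ B, t * s = u * t') :
    ∀ x ∈ A * B, ∀ s ∈ insert 1 V, x * s ∈ A * B := by
  intro x hx s hs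
  rcases Finset.mem_insert.mp hs with rfl | hs
  · rwa [mul_one]
  obtain ⟨w, hw, t, ht, rfl⟩ := Finset.mem_mul.mp hx
  obtain ⟨u, hu, t', ht', e⟩ := hB t ht s hs
  rw [mul_assoc, e, ← mul_assoc]
  exact Finset.mul_mem_mul (hA w hw u hu) ht'

/-- a group generated by four involutions with the `A₄` Coxeter relations has at most 120
elements -/
theorem cox_bound {K : Type*} [Group K] (a b c d : K)
    (haa : a * a = 1) (hbb : b * b = 1) (hcc : c * c = 1) (hdd : d * d = 1)
    (hab : a * b * a = b * a * b) (hbc : b * c * b = c * b * c) (hcd : c * d * c = d * c * d)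
    (hac : a * c = c * a) (had : a * d = d * a) (hbd : b * d = d * b) :
    ∃ S : Finset K, S.card ≤ 120 ∧ ∀ g ∈ Subgroup.closure ({a, b, c, d} : Set K), g ∈ S := by
  classical
  -- rewriting rules (right-associated, with and without a tail)
  have a1 : ∀ x, a * (a * x) = x := fun x => by rw [← mul_assoc, haa, one_mul]
  have b1 : ∀ x, b * (b * x) = x := fun x => by rw [← mul_assoc, hbb, one_mul]
  have c1 : ∀ x, c * (c * x) = x := fun x => by rw [← mul_assoc, hcc, one_mul]
  have d1 : ∀ x, d * (d * x) = x := fun x => by rw [← mul_assoc, hdd, one_mul]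
  have ca : c * a = a * c := hac.symm
  have ca1 : ∀ x, c * (a * x) = a * (c * x) := fun x => by
    rw [← mul_assoc, ca, mul_assoc]
  have da : d * a = a * d := had.symm
  have da1 : ∀ x, d * (a * x) = a * (d * x) := fun x => by
    rw [← mul_assoc, da, mul_assoc]
  have db : d * b = b * d := hbd.symm
  have db1 : ∀ x, d * (b * x) = b * (d * x) := fun x => by
    rw [← mul_assoc, db, mul_assoc]
  have bab : b * (a * b) = a * (b * a) := by rw [← mul_assoc, ← hab, mul_assoc]
  have bab1 : ∀ x, b * (a * (b * x)) = a * (b * (a * x)) := fun x => by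
    rw [← mul_assoc, ← mul_assoc, mul_assoc b a b, bab]; simp only [mul_assoc]
  have cbc : c * (b * c) = b * (c * b) := by rw [← mul_assoc, ← hbc, mul_assoc]
  have cbc1 : ∀ x, c * (b * (c * x)) = b * (c * (b * x)) := fun x => by
    rw [← mul_assoc, ← mul_assoc, mul_assoc c b c, cbc]; simp only [mul_assoc]
  have dcd : d * (c * d) = c * (d * c) := by rw [← mul_assoc, ← hcd, mul_assoc]
  have dcd1 : ∀ x, d * (c * (d * x)) = c * (d * (c * x)) := fun x => by
    rw [← mul_assoc, ← mul_assoc, mul_assoc d c d, dcd]; simp only [mul_assoc]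
  have cbac : c * (b * (a * c)) = b * (c * (b * a)) := by
    rw [← ca, ← cbc1]
  have cbac1 : ∀ x, c * (b * (a * (c * x))) = b * (c * (b * (a * x))) := fun x => by
    rw [← ca1, ← cbc1]
  have dcbd : d * (c * (b * d)) = c * (d * (c * b)) := by
    rw [← db, ← dcd1]
  have dcbd1 : ∀ x, d * (c * (b * (d * x))) = c * (d * (c * (b * x))) := fun x => by
    rw [← db1, ← dcd1]
  have dcbad : d * (c * (b * (a * d))) = c * (d * (c * (b * a))) := by
    rw [← da, ← dcbd1]
  have dcbad1 : ∀ x, d * (c * (b * (a * (d * x)))) = c * (d * (c * (b * (a * x)))) :=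
    fun x => by rw [← da1, ← dcbd1]
  -- level 1
  have L1 : ∀ w ∈ ({1, a} : Finset K), ∀ u ∈ ({1, a} : Finset K), w * u ∈ ({1, a} : Finset K) := by
    intro w hw u hu
    simp only [Finset.mem_insert, Finset.mem_singleton] at hw hu ⊢
    rcases hw with hw | hw <;> rcases hu with hu | hu <;> rw [hw, hu] <;> simp [haa]
  -- level 2
  have B2 : ∀ t ∈ ({1, b, b * a} : Finset K), ∀ s ∈ ({a, b} : Finset K),
      ∃ u ∈ ({1, a} : Finset K), ∃ t' ∈ ({1, b, b * a} : Finset K), t * s = u * t' := by
    intro t ht s hs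
    simp only [Finset.mem_insert, Finset.mem_singleton] at ht hs
    rcases ht with ht | ht | ht <;> rcases hs with hs | hs <;> rw [ht, hs]
    · exact ⟨a, by simp, 1, by simp, by simp only [mul_one, one_mul]⟩
    · exact ⟨1, by simp, b, by simp, by simp only [mul_one, one_mul]⟩
    · exact ⟨1, by simp, b * a, by simp, by simp only [mul_one, one_mul]⟩
    · exact ⟨1, by simp, 1, by simp, by simp only [mul_one, one_mul, hbb]⟩
    · exact ⟨1, by simp, b, by simp, by simp only [mul_assoc, mul_one, one_mul, haa]⟩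
    · exact ⟨a, by simp, b * a, by simp, by simp only [mul_assoc, bab]⟩
  have L2 := cox_step ({1, a} : Finset K) {1, b, b * a} {1, a} {a, b} L1 B2
  -- level 3
  have B3 : ∀ t ∈ ({1, c, c * b, c * b * a} : Finset K), ∀ s ∈ ({a, b, c} : Finset K),
      ∃ u ∈ (insert 1 ({a, b} : Finset K)), ∃ t' ∈ ({1, c, c * b, c * b * a} : Finset K),
        t * s = u * t' := by
    intro t ht s hs
    simp only [Finset.mem_insert, Finset.mem_singleton] at ht hs
    rcases ht with ht | ht | ht | ht <;> rcases hs with hs | hs | hs <;> rw [ht, hs]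
    · exact ⟨a, by simp, 1, by simp, by simp only [mul_one, one_mul]⟩
    · exact ⟨b, by simp, 1, by simp, by simp only [mul_one, one_mul]⟩
    · exact ⟨1, by simp, c, by simp, by simp only [mul_one, one_mul]⟩
    · exact ⟨a, by simp, c, by simp, ca⟩
    · exact ⟨1, by simp, c * b, by simp, by simp only [one_mul]⟩
    · exact ⟨1, by simp, 1, by simp, by simp only [mul_one, hcc]⟩
    · exact ⟨1, by simp, c * b * a, by simp, by simp only [one_mul]⟩
    · exact ⟨1, by simp, c, by simp, by simp only [mul_assoc, one_mul, hbb, mul_one]⟩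
    · exact ⟨b, by simp, c * b, by simp, by simp only [mul_assoc, cbc]⟩
    · exact ⟨1, by simp, c * b, by simp, by simp only [mul_assoc, one_mul, haa, mul_one]⟩
    · exact ⟨a, by simp, c * b * a, by simp, by simp only [mul_assoc, bab, ca1]⟩
    · exact ⟨b, by simp, c * b * a, by simp, by simp only [mul_assoc, cbac]⟩
  have L3 := cox_step (({1, a} : Finset K) * {1, b, b * a}) {1, c, c * b, c * b * a}
    (insert 1 ({a, b} : Finset K)) {a, b, c} L2 B3
  -- level 4
  have B4 : ∀ t ∈ ({1, d, d * c, d * c * b, d * c * b * a} : Finset K),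
      ∀ s ∈ ({a, b, c, d} : Finset K),
      ∃ u ∈ (insert 1 ({a, b, c} : Finset K)),
        ∃ t' ∈ ({1, d, d * c, d * c * b, d * c * b * a} : Finset K), t * s = u * t' := by
    intro t ht s hs
    simp only [Finset.mem_insert, Finset.mem_singleton] at ht hs
    rcases ht with ht | ht | ht | ht | ht <;> rcases hs with hs | hs | hs | hs <;> rw [ht, hs]
    · exact ⟨a, by simp, 1, by simp, by simp only [mul_one, one_mul]⟩
    · exact ⟨b, by simp, 1, by simp, by simp only [mul_one, one_mul]⟩
    · exact ⟨c, by simp, 1, by simp, by simp only [mul_one, one_mul]⟩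
    · exact ⟨1, by simp, d, by simp, by simp only [mul_one, one_mul]⟩
    · exact ⟨a, by simp, d, by simp, da⟩
    · exact ⟨b, by simp, d, by simp, db⟩
    · exact ⟨1, by simp, d * c, by simp, by simp only [one_mul]⟩
    · exact ⟨1, by simp, 1, by simp, by simp only [mul_one, hdd]⟩
    · exact ⟨a, by simp, d * c, by simp, by simp only [mul_assoc, ca, da1]⟩
    · exact ⟨1, by simp, d * c * b, by simp, by simp only [one_mul]⟩
    · exact ⟨1, by simp, d, by simp, by simp only [mul_assoc, one_mul, hcc, mul_one]⟩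
    · exact ⟨c, by simp, d * c, by simp, by simp only [mul_assoc, dcd]⟩
    · exact ⟨1, by simp, d * c * b * a, by simp, by simp only [one_mul]⟩
    · exact ⟨1, by simp, d * c, by simp, by simp only [mul_assoc, one_mul, hbb, mul_one]⟩
    · exact ⟨b, by simp, d * c * b, by simp, by simp only [mul_assoc, cbc, db1]⟩
    · exact ⟨c, by simp, d * c * b, by simp, by simp only [mul_assoc, dcbd]⟩
    · exact ⟨1, by simp, d * c * b, by simp, by simp only [mul_assoc, one_mul, haa, mul_one]⟩
    · exact ⟨a, by simp, d * c * b * a, by simp, by simp only [mul_assoc, bab, ca1, da1]⟩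
    · exact ⟨b, by simp, d * c * b * a, by simp, by simp only [mul_assoc, cbac, db1]⟩
    · exact ⟨c, by simp, d * c * b * a, by simp, by simp only [mul_assoc, dcbad]⟩
  have L4 := cox_step (({1, a} : Finset K) * {1, b, b * a} * {1, c, c * b, c * b * a})
    {1, d, d * c, d * c * b, d * c * b * a} (insert 1 ({a, b, c} : Finset K)) {a, b, c, d} L3 B4
  refine ⟨({1, a} : Finset K) * {1, b, b * a} * {1, c, c * b, c * b * a} *
    {1, d, d * c, d * c * b, d * c * b * a}, ?_, ?_⟩
  · calc _ ≤ (({1, a} : Finset K) * {1, b, b * a} * {1, c, c * b, c * b * a}).card *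
          ({1, d, d * c, d * c * b, d * c * b * a} : Finset K).card := Finset.card_mul_le
      _ ≤ ((({1, a} : Finset K) * {1, b, b * a}).card *
          ({1, c, c * b, c * b * a} : Finset K).card) * 5 :=
          Nat.mul_le_mul Finset.card_mul_le Finset.card_le_five
      _ ≤ ((({1, a} : Finset K).card * ({1, b, b * a} : Finset K).card) * 4) * 5 :=
          Nat.mul_le_mul_right _ (Nat.mul_le_mul Finset.card_mul_le Finset.card_le_four)
      _ ≤ ((2 * 3) * 4) * 5 :=
          Nat.mul_le_mul_right _ (Nat.mul_le_mul_right _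
            (Nat.mul_le_mul Finset.card_le_two Finset.card_le_three))
      _ = 120 := by norm_num
  · intro g hg
    induction hg using Subgroup.closure_induction_right with
    | one =>
      have h1 : (1 : K) = 1 * 1 * 1 * 1 := by simp
      rw [h1]
      exact Finset.mul_mem_mul (Finset.mul_mem_mul (Finset.mul_mem_mul (by simp) (by simp))
        (by simp)) (by simp)
    | mul_right x hx y hy ih =>
      apply L4 x ih y
      simp only [Set.mem_insert_iff, Set.mem_singleton_iff] at hy
      simp only [Finset.mem_insert, Finset.mem_singleton]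
      tauto
    | mul_inv_cancel x hx y hy ih =>
      have hy' : y⁻¹ = y := by
        simp only [Set.mem_insert_iff, Set.mem_singleton_iff] at hy
        rcases hy with hy | hy | hy | hy <;> rw [hy]
        · exact inv_eq_of_mul_eq_one_left haa
        · exact inv_eq_of_mul_eq_one_left hbb
        · exact inv_eq_of_mul_eq_one_left hcc
        · exact inv_eq_of_mul_eq_one_left hdd
      rw [hy']
      apply L4 x ih y
      simp only [Set.mem_insert_iff, Set.mem_singleton_iff] at hy
      simp only [Finset.mem_insert, Finset.mem_singleton]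
      tauto

/-- the ten relators of the Coxeter presentation of type `A₄` -/
def coxRels : Set (FreeGroup (Fin 4)) :=
  {FreeGroup.of 0 * FreeGroup.of 0, FreeGroup.of 1 * FreeGroup.of 1,
   FreeGroup.of 2 * FreeGroup.of 2, FreeGroup.of 3 * FreeGroup.of 3,
   (FreeGroup.of 0 * FreeGroup.of 1 * FreeGroup.of 0) *
     (FreeGroup.of 1 * FreeGroup.of 0 * FreeGroup.of 1)⁻¹,
   (FreeGroup.of 1 * FreeGroup.of 2 * FreeGroup.of 1) *
     (FreeGroup.of 2 * FreeGroup.of 1 * FreeGroup.of 2)⁻¹,
   (FreeGroup.of 2 * FreeGroup.of 3 * FreeGroup.of 2) *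
     (FreeGroup.of 3 * FreeGroup.of 2 * FreeGroup.of 3)⁻¹,
   (FreeGroup.of 0 * FreeGroup.of 2) * (FreeGroup.of 2 * FreeGroup.of 0)⁻¹,
   (FreeGroup.of 0 * FreeGroup.of 3) * (FreeGroup.of 3 * FreeGroup.of 0)⁻¹,
   (FreeGroup.of 1 * FreeGroup.of 3) * (FreeGroup.of 3 * FreeGroup.of 1)⁻¹}

/-- four elements satisfying the relations kill the relators -/
theorem coxRels_lift {K : Type*} [Group K] (a b c d : K)
    (haa : a * a = 1) (hbb : b * b = 1) (hcc : c * c = 1) (hdd : d * d = 1)
    (hab : a * b * a = b * a * b) (hbc : b * c * b = c * b * c) (hcd : c * d * c = d * c * d)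
    (hac : a * c = c * a) (had : a * d = d * a) (hbd : b * d = d * b) :
    ∀ r ∈ coxRels, FreeGroup.lift ![a, b, c, d] r = 1 := by
  intro r hr
  simp only [coxRels, Set.mem_insert_iff, Set.mem_singleton_iff] at hr
  rcases hr with rfl | rfl | rfl | rfl | rfl | rfl | rfl | rfl | rfl | rfl
  · simpa using haa
  · simpa using hbb
  · simpa using hcc
  · simpa using hdd
  · rw [map_mul, map_inv, mul_inv_eq_one]
    simpa using hab
  · rw [map_mul, map_inv, mul_inv_eq_one]
    simpa using hbc
  · rw [map_mul, map_inv, mul_inv_eq_one]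
    simpa using hcd
  · rw [map_mul, map_inv, mul_inv_eq_one]
    simpa using hac
  · rw [map_mul, map_inv, mul_inv_eq_one]
    simpa using had
  · rw [map_mul, map_inv, mul_inv_eq_one]
    simpa using hbd

/-- the presented group has at most 120 elements -/
theorem coxRels_finite : ∃ S : Finset (PresentedGroup coxRels), S.card ≤ 120 ∧ ∀ g, g ∈ S := by
  have hm : ∀ i : Fin 4, (PresentedGroup.of i : PresentedGroup coxRels) =
      PresentedGroup.mk coxRels (FreeGroup.of i) := fun i => rfl
  have key : ∀ r ∈ coxRels, PresentedGroup.mk coxRels r = 1 := fun r hr =>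
    PresentedGroup.one_of_mem hr
  obtain ⟨S, hS, hmem⟩ := cox_bound (PresentedGroup.of 0 : PresentedGroup coxRels)
    (PresentedGroup.of 1) (PresentedGroup.of 2) (PresentedGroup.of 3)
    (by
      have := key (FreeGroup.of 0 * FreeGroup.of 0) (by simp [coxRels])
      simpa [hm] using this)
    (by
      have := key (FreeGroup.of 1 * FreeGroup.of 1) (by simp [coxRels])
      simpa [hm] using this)
    (by
      have := key (FreeGroup.of 2 * FreeGroup.of 2) (by simp [coxRels])
      simpa [hm] using this)
    (by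
      have := key (FreeGroup.of 3 * FreeGroup.of 3) (by simp [coxRels])
      simpa [hm] using this)
    (by
      have := key ((FreeGroup.of 0 * FreeGroup.of 1 * FreeGroup.of 0) *
        (FreeGroup.of 1 * FreeGroup.of 0 * FreeGroup.of 1)⁻¹) (by simp [coxRels])
      rw [map_mul, map_inv, mul_inv_eq_one] at this
      simpa [hm] using this)
    (by
      have := key ((FreeGroup.of 1 * FreeGroup.of 2 * FreeGroup.of 1) *
        (FreeGroup.of 2 * FreeGroup.of 1 * FreeGroup.of 2)⁻¹) (by simp [coxRels])
      rw [map_mul, map_inv, mul_inv_eq_one] at this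
      simpa [hm] using this)
    (by
      have := key ((FreeGroup.of 2 * FreeGroup.of 3 * FreeGroup.of 2) *
        (FreeGroup.of 3 * FreeGroup.of 2 * FreeGroup.of 3)⁻¹) (by simp [coxRels])
      rw [map_mul, map_inv, mul_inv_eq_one] at this
      simpa [hm] using this)
    (by
      have := key ((FreeGroup.of 0 * FreeGroup.of 2) *
        (FreeGroup.of 2 * FreeGroup.of 0)⁻¹) (by simp [coxRels])
      rw [map_mul, map_inv, mul_inv_eq_one] at this
      simpa [hm] using this)
    (by
      have := key ((FreeGroup.of 0 * FreeGroup.of 3) *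
        (FreeGroup.of 3 * FreeGroup.of 0)⁻¹) (by simp [coxRels])
      rw [map_mul, map_inv, mul_inv_eq_one] at this
      simpa [hm] using this)
    (by
      have := key ((FreeGroup.of 1 * FreeGroup.of 3) *
        (FreeGroup.of 3 * FreeGroup.of 1)⁻¹) (by simp [coxRels])
      rw [map_mul, map_inv, mul_inv_eq_one] at this
      simpa [hm] using this)
  refine ⟨S, hS, fun g => hmem g ?_⟩
  have hr : Set.range (PresentedGroup.of : Fin 4 → PresentedGroup coxRels) =
      {PresentedGroup.of 0, PresentedGroup.of 1, PresentedGroup.of 2, PresentedGroup.of 3} := by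
    ext x
    simp only [Set.mem_range, Set.mem_insert_iff, Set.mem_singleton_iff]
    constructor
    · rintro ⟨i, rfl⟩
      fin_cases i <;> simp
    · rintro (rfl | rfl | rfl | rfl) <;> exact ⟨_, rfl⟩
  rw [← hr, PresentedGroup.closure_range_of]
  exact Subgroup.mem_top g

/-- the adjacent transpositions of `Fin 5` satisfy the relations -/
theorem coxRels_perm : ∀ r ∈ coxRels, FreeGroup.lift
    ![(Equiv.swap 0 1 : Equiv.Perm (Fin 5)), Equiv.swap 1 2, Equiv.swap 2 3, Equiv.swap 3 4] r
      = 1 :=
  coxRels_lift _ _ _ _ (by decide) (by decide) (by decide) (by decide) (by decide) (by decide)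
    (by decide) (by decide) (by decide) (by decide)

/-- the comparison map from the presented group onto `S₅` is bijective -/
theorem coxRels_bij : Function.Bijective (PresentedGroup.toGroup coxRels_perm) := by
  obtain ⟨S, hS, hmem⟩ := coxRels_finite
  have hfin : Finite (PresentedGroup coxRels) :=
    Finite.of_injective (fun g => (⟨g, hmem g⟩ : S)) (fun x y h => by simpa using h)
  have hsurj : Function.Surjective (PresentedGroup.toGroup coxRels_perm) := by
    rw [← MonoidHom.mrange_eq_top]
    apply top_unique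
    rw [← Equiv.Perm.mclosure_swap_castSucc_succ 4, Submonoid.closure_le]
    rintro _ ⟨i, rfl⟩
    refine ⟨PresentedGroup.of i, ?_⟩
    rw [PresentedGroup.toGroup.of]
    fin_cases i <;> rfl
  apply hsurj.bijective_of_nat_card_le
  have h1 : Nat.card (PresentedGroup coxRels) ≤ 120 := by
    classical
    have := Fintype.ofFinite (PresentedGroup coxRels)
    rw [Nat.card_eq_fintype_card]
    calc Fintype.card (PresentedGroup coxRels) = (Finset.univ : Finset _).card := rfl
      _ ≤ S.card := Finset.card_le_card (fun x _ => hmem x)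
      _ ≤ 120 := hS
  have h2 : Nat.card (Equiv.Perm (Fin 5)) = 120 := by
    rw [Nat.card_eq_fintype_card, Fintype.card_perm, Fintype.card_fin]
    rfl
  omega

/-- **Coxeter presentation of `S₅`** -/
theorem cox {G : Type*} [Group G] : CoxProp G := by
  intro s1 s2 s3 s4 h11 h22 h33 h44 h12 h23 h34 h13 h14 h24 hne
  have hlift := coxRels_lift s1 s2 s3 s4 h11 h22 h33 h44 h12 h23 h34 h13 h14 h24
  let e : PresentedGroup coxRels ≃* Equiv.Perm (Fin 5) :=
    MulEquiv.ofBijective (PresentedGroup.toGroup coxRels_perm) coxRels_bij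
  let ψ : PresentedGroup coxRels →* G := PresentedGroup.toGroup hlift
  let f : Equiv.Perm (Fin 5) →* G := ψ.comp e.symm.toMonoidHom
  have he : ∀ i : Fin 4, e (PresentedGroup.of i) =
      ![(Equiv.swap 0 1 : Equiv.Perm (Fin 5)), Equiv.swap 1 2, Equiv.swap 2 3, Equiv.swap 3 4] i :=
    fun i => PresentedGroup.toGroup.of coxRels_perm
  have hf : ∀ i : Fin 4, f (![(Equiv.swap 0 1 : Equiv.Perm (Fin 5)), Equiv.swap 1 2,
      Equiv.swap 2 3, Equiv.swap 3 4] i) = ![s1, s2, s3, s4] i := by
    intro i
    rw [← he i]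
    show ψ (e.symm (e (PresentedGroup.of i))) = _
    rw [MulEquiv.symm_apply_apply]
    exact PresentedGroup.toGroup.of hlift
  have f1 : f (Equiv.swap 0 1) = s1 := hf 0
  have f2 : f (Equiv.swap 1 2) = s2 := hf 1
  have f3 : f (Equiv.swap 2 3) = s3 := hf 2
  have f4 : f (Equiv.swap 3 4) = s4 := hf 3
  refine ⟨f, ?_, f1, f2, f3, f4⟩
  rw [← MonoidHom.ker_eq_bot_iff]
  by_contra hker
  have hnt : Nontrivial f.ker := (Subgroup.nontrivial_iff_ne_bot _).mpr hker
  have hle := Equiv.Perm.alternatingGroup_le_of_normal (α := Fin 5) (by simp) hnt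
  have hmem : (Equiv.swap 0 1 * Equiv.swap 2 3 : Equiv.Perm (Fin 5)) ∈ alternatingGroup (Fin 5) := by
    rw [Equiv.Perm.mem_alternatingGroup]
    decide
  have h1 := hle hmem
  rw [MonoidHom.mem_ker, map_mul, f1, f3] at h1
  apply hne
  calc s1 = s1 * (s3 * s3) := by rw [h33, mul_one]
    _ = s3 := by rw [← mul_assoc, h1, one_mul]

end Cfsg.Agent.Lib.Helper32.TT5
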