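import Cfsg.Agent.Lib.Helper98.T73Defs

/-!
# Project T73 (S5973), piece TYPC (helper32 for helper98)

For an isometry `g` of odd prime order `r ≠ p` of a nondegenerate quadratic space of dimension
`2k+2` and type `ε`: the fixed space `ker (g - 1)` has even dimension, is nondegenerate of type
`ε * tauSign u`, and `range (g - 1)` is nondegenerate (of type `tauSign u`).
-/

set_option autoImplicit false

namespace Cfsg.Agent.Lib.Helper98.T73

open Cfsg.Agent.Lib.Helper47 Module Polynomial

universe u

variable {F : Type u} [Field F] [Fintype F] {V : Type u} [AddCommGroup V] [Module F V]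
  [FiniteDimensional F V] {Q : V → F} {B : V → V → F}

omit [Fintype F] in
/-- TYPC aux: the fixed space of an isometry of order prime to the characteristic is
nondegenerate. -/
theorem typc_nondeg_ker (hB : IsSForm (RingHom.id F) 1 B) (hnd : Nondeg B)
    (g : Module.End F V) (hgi : ∀ x y, B (g x) (g y) = B x y) (r : ℕ) (hrF : (r : F) ≠ 0)
    (hg : g ^ r = 1) : Nondeg (resForm B (LinearMap.ker (g - 1))) := by
  intro x hx
  apply Subtype.ext
  apply hnd
  intro y
  obtain ⟨k, w, hk, hw, rfl⟩ := exists_fix_decomp g r hrF hg y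
  rw [hB.add_right]
  have hxfix : g (x : V) = x := (mem_ker_sub_one g x).mp x.2
  have h1 : B (x : V) w = 0 := fix_orth_range hB g hgi x hxfix w hw
  have h2 : B (x : V) k = 0 := hx ⟨k, (mem_ker_sub_one g k).mpr hk⟩
  rw [h1, h2, add_zero]

omit [Fintype F] [FiniteDimensional F V] in
/-- TYPC aux: `Q` is additive on `ker (g - 1) ⊕ range (g - 1)`. -/
theorem typc_Q_add (hQ : IsQuad Q B) (g : Module.End F V)
    (hgi : ∀ x y, B (g x) (g y) = B x y) (c : V) (hc : g c = c) (w : V)
    (hw : w ∈ LinearMap.range (g - 1)) : Q (c + w) = Q c + Q w := by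
  rw [hQ.polar, fix_orth_range hQ.form g hgi c hc w hw, add_zero]

/-- TYPC -/
theorem typc (hf : QFacts F) (hQ : IsQuad Q B) (hnd : Nondeg B) (k : ℕ)
    (hdim : finrank F V = 2 * k + 2) (ε : ℤ) (htyp : IsTyp Q k ε)
    (p : ℕ) [Fact p.Prime] [CharP F p] (r : ℕ) (hr : r.Prime) (hr2 : r ≠ 2) (hrp : r ≠ p)
    (g : Module.End F V) (hgQ : QI Q g) (hg : g ^ r = 1)
    (u : Multiset F[X]) (hu : ∀ f ∈ u, IsCycFactor r f)
    (hdual : u.map (dualP (RingHom.id F)) = u) (hu0 : u ≠ 0)
    (hch : g.charpoly = (X - 1) ^ finrank F (LinearMap.ker (g - 1)) * u.prod) :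
    Even (finrank F (LinearMap.ker (g - 1))) ∧
      Nondeg (resForm B (LinearMap.range (g - 1))) ∧
      (∀ e : ℕ, finrank F (LinearMap.ker (g - 1)) = 2 * e + 2 →
        SubTyp Q B (LinearMap.ker (g - 1)) e (ε * tauSign u)) ∧
      (finrank F (LinearMap.ker (g - 1)) = 0 → tauSign u = ε) := by
  have hrF : (r : F) ≠ 0 := by
    intro h0
    rw [CharP.cast_eq_zero_iff F p] at h0
    exact hrp ((Nat.prime_dvd_prime_iff_eq Fact.out hr).mp h0).symm
  have hB := hQ.form
  have hgi : ∀ x y, B (g x) (g y) = B x y := hQ.isometry hQ g hgQ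
  have hndR := nondeg_res_range hB hnd g hgi r hrF hg
  have hndC := typc_nondeg_ker hB hnd g hgi r hrF hg
  have hcompl := isCompl_ker_range g r hrF hg
  have hsum := Submodule.finrank_add_eq_of_isCompl hcompl
  have hcR : (resInv g (range_sub_one_invt g)).charpoly = u.prod := by
    have h1 := charpoly_eq_ker_range g r hrF hg
    rw [hch] at h1
    have hX : ((X - 1 : F[X]) ^ finrank F (LinearMap.ker (g - 1))) ≠ 0 := by
      apply pow_ne_zero
      have h2 := X_sub_C_ne_zero (1 : F)
      rwa [map_one] at h2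
    exact (mul_left_cancel₀ hX h1).symm
  have hgR : (resInv g (range_sub_one_invt g)) ^ r = 1 := by
    apply LinearMap.ext
    intro x
    apply Subtype.ext
    rw [resInv_pow_apply, hg, Module.End.one_apply, Module.End.one_apply]
  obtain ⟨j, hj, hjtyp⟩ := Cfsg.Agent.Lib.Helper34.QuadNEC.quad_type_of_no_fix hf
    (hQ.res (LinearMap.range (g - 1))) hndR p (resInv g (range_sub_one_invt g)) r hr hr2 hrp hgR
    (fun v => hgQ (v : V)) u hu hu0 hdual hcR
  have : Finite V := Module.finite_of_finite F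
  refine ⟨⟨k - j, by omega⟩, hndR, ?_, ?_⟩
  · intro e he
    refine ⟨hndC, he, ?_⟩
    obtain ⟨η, -, hηtyp⟩ := Cfsg.Agent.Lib.Helper29.QuadCONJ.typ_sign hf e
      (LinearMap.ker (g - 1)) (fun w => Q (w : V)) (resForm B _) (hQ.res _) hndC he
    have hprod := hf.typ_prod (fun w : LinearMap.ker (g - 1) => Q (w : V))
      (fun w : LinearMap.range (g - 1) => Q (w : V)) hηtyp hjtyp
    have hV : IsTyp Q (e + j + 1) (η * tauSign u) :=
      IsTyp.of_equiv (Submodule.prodEquivOfIsCompl _ _ hcompl).toEquiv (fun v => by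
        rw [LinearEquiv.coe_toEquiv, Submodule.coe_prodEquivOfIsCompl']
        exact typc_Q_add hQ g hgi _ ((mem_ker_sub_one g _).mp v.1.2) _ v.2.2) hprod
    have hk : k = e + j + 1 := by omega
    rw [hk] at htyp
    have hε : ε = η * tauSign u := IsTyp.unique htyp hV
    have hη : ε * tauSign u = η := by
      rw [hε]
      rcases tauSign_sq u with h | h <;> rw [h] <;> ring
    rw [hη]
    exact hηtyp
  · intro h0
    have hRdim : finrank F (LinearMap.range (g - 1)) = finrank F V := by omega
    have hRtop : LinearMap.range (g - 1) = ⊤ := Submodule.eq_top_of_finrank_eq hRdim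
    have hV : IsTyp Q j (tauSign u) :=
      IsTyp.of_equiv (LinearEquiv.ofTop _ hRtop).toEquiv (fun v => rfl) hjtyp
    have hk : k = j := by omega
    rw [hk] at htyp
    exact IsTyp.unique hV htyp

end Cfsg.Agent.Lib.Helper98.T73
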