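import Cfsg.Agent.Lib.Helper32.Carter

set_option autoImplicit false
open scoped Pointwise
open scoped commutatorElement

namespace Cfsg.Agent.Lib.Helper32

universe u

theorem card_lt_of_ne_top {G : Type*} [Group G] [Finite G] {K : Subgroup G} (hK : K ≠ ⊤) :
    Nat.card K < Nat.card G := by
  by_contra hlt
  rw [not_lt] at hlt
  apply hK
  have h1 : Nat.card (⊤ : Subgroup G) ≤ Nat.card K := by rw [Subgroup.card_top]; exact hlt
  exact Subgroup.eq_of_le_of_card_ge le_top h1

theorem card_quotient_lt {G : Type*} [Group G] [Finite G] {N : Subgroup G} [N.Normal]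
    (hN : N ≠ ⊥) : Nat.card (G ⧸ N) < Nat.card G := by
  rw [Subgroup.card_eq_card_quotient_mul_card_subgroup N]
  have h1 : 0 < Nat.card (G ⧸ N) := Nat.card_pos
  have h2 : 1 < Nat.card N := by
    rw [Subgroup.one_lt_card_iff_ne_bot]
    exact hN
  nlinarith

/-- A maximal subgroup containing a normal subgroup with nilpotent quotient is normal. -/
theorem coatom_normal_of_quotient_nilpotent {G : Type*} [Group G] (A : Subgroup G) [A.Normal]
    (hQ : Group.IsNilpotent (G ⧸ A)) {M : Subgroup G} (hM : IsCoatom M) (hAM : A ≤ M) :
    M.Normal := by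
  have hπs : Function.Surjective (QuotientGroup.mk' A) := QuotientGroup.mk'_surjective A
  have hcomap : (M.map (QuotientGroup.mk' A)).comap (QuotientGroup.mk' A) = M := by
    rw [Subgroup.comap_map_eq, QuotientGroup.ker_mk']
    exact sup_eq_left.mpr hAM
  have hne : M.map (QuotientGroup.mk' A) ≠ ⊤ := by
    intro h
    rw [h, Subgroup.comap_top] at hcomap
    exact hM.1 hcomap.symm
  have hlt := Group.normalizerCondition_of_isNilpotent (G := G ⧸ A) _ (lt_top_iff_ne_top.mpr hne)
  have hnorm : Subgroup.normalizer (M : Set G) ≠ M := by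
    intro h
    have h1 := Subgroup.comap_normalizer_eq_of_surjective
      (M.map (QuotientGroup.mk' A)) hπs
    rw [hcomap, h] at h1
    have h2 : Subgroup.normalizer ((M.map (QuotientGroup.mk' A) : Subgroup (G ⧸ A)) : Set (G ⧸ A))
        = M.map (QuotientGroup.mk' A) := by
      apply Subgroup.comap_injective hπs
      rw [h1, hcomap]
    rw [h2] at hlt
    exact lt_irrefl _ hlt
  have h3 : Subgroup.normalizer (M : Set G) = ⊤ :=
    hM.2 _ (lt_of_le_of_ne Subgroup.le_normalizer (Ne.symm hnorm))
  exact Subgroup.normalizer_eq_top_iff.mp h3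

theorem carter_aux : ∀ (n : ℕ) (G : Type u) [Group G] [Finite G] [Group.IsSolvable G],
    Nat.card G = n → (∃ C : Subgroup G, IsCarter C) ∧ CarterConj G := by
  intro n
  induction n using Nat.strong_induction_on with
  | _ n ih =>
    intro G _ _ _ hcard
    by_cases hnt : Nontrivial G
    swap
    · rw [not_nontrivial_iff_subsingleton] at hnt
      refine ⟨⟨⊤, inferInstance, Subsingleton.elim _ _⟩, ?_⟩
      intro C D _ _
      exact ⟨1, Subsingleton.elim _ _⟩
    have htop : (⊤ : Subgroup G) ≠ ⊥ := top_ne_bot
    obtain ⟨A, -, hAmin⟩ :=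
      Cfsg.Agent.Lib.Helper12.exists_isMinNormal_le _ (⊤ : Subgroup G) rfl Subgroup.normal_top htop
    have hAn : A.Normal := hAmin.1
    have hA1 : A ≠ ⊥ := hAmin.2.1
    have hAcomm : ⁅A, A⁆ = ⊥ := by
      by_contra hne
      have h1 : ⁅A, A⁆ = A := hAmin.2.2 _ inferInstance (Subgroup.commutator_le_self A) hne
      have h2 := Group.IsSolvable.commutator_lt_of_ne_bot hA1
      rw [h1] at h2
      exact lt_irrefl _ h2
    have hAab : ∀ a ∈ A, ∀ b ∈ A, a * b = b * a := by
      intro a ha b hb
      have h1 : ⁅a, b⁆ ∈ ⁅A, A⁆ := Subgroup.commutator_mem_commutator ha hb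
      rw [hAcomm, Subgroup.mem_bot, commutatorElement_eq_one_iff_mul_comm] at h1
      exact h1
    have ihK : ∀ K : Subgroup G, K ≠ ⊤ → (∃ C : Subgroup K, IsCarter C) ∧ CarterConj K := by
      intro K hK
      have hlt : Nat.card K < n := by rw [← hcard]; exact card_lt_of_ne_top hK
      exact ih _ hlt K rfl
    have ihQ : ∀ (N : Subgroup G) [N.Normal], N ≠ ⊥ →
        (∃ C : Subgroup (G ⧸ N), IsCarter C) ∧ CarterConj (G ⧸ N) := by
      intro N _ hN
      have hlt : Nat.card (G ⧸ N) < n := by rw [← hcard]; exact card_quotient_lt hN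
      exact ih _ hlt (G ⧸ N) rfl
    have hconjK : ∀ K : Subgroup G, K ≠ ⊤ → CarterConj K := fun K hK => (ihK K hK).2
    have hπs : Function.Surjective (QuotientGroup.mk' A) := QuotientGroup.mk'_surjective A
    constructor
    · -- existence
      obtain ⟨Cbar, hCbar⟩ := (ihQ A hA1).1
      have hAK : A ≤ Cbar.comap (QuotientGroup.mk' A) := by
        intro a ha
        rw [Subgroup.mem_comap]
        have : (QuotientGroup.mk' A) a = 1 := (QuotientGroup.eq_one_iff a).mpr ha
        rw [this]; exact Cbar.one_mem
      have hKmap : (Cbar.comap (QuotientGroup.mk' A)).map (QuotientGroup.mk' A) = Cbar :=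
        Subgroup.map_comap_eq_self_of_surjective hπs Cbar
      have hKN : Subgroup.normalizer ((Cbar.comap (QuotientGroup.mk' A) : Subgroup G) : Set G) =
          Cbar.comap (QuotientGroup.mk' A) := by
        rw [← Subgroup.comap_normalizer_eq_of_surjective _ hπs, hCbar.2]
      by_cases hKtop : Cbar.comap (QuotientGroup.mk' A) = ⊤
      · have hQnil : Group.IsNilpotent (G ⧸ A) := by
          have h1 : Cbar = ⊤ := by
            rw [← hKmap, hKtop]; exact Subgroup.map_top_of_surjective _ hπs
          have h2 := hCbar.1
          rw [h1] at h2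
          exact Group.nilpotent_of_mulEquiv Subgroup.topEquiv
        by_cases hGnil : Group.IsNilpotent G
        · refine ⟨⊤, Group.nilpotent_of_mulEquiv Subgroup.topEquiv.symm, ?_⟩
          exact le_antisymm le_top Subgroup.le_normalizer
        · have h13 : Group.IsNilpotent G ↔ ∀ H : Subgroup G, IsCoatom H → H.Normal :=
            (Group.isNilpotent_of_finite_tfae (G := G)).out 0 2
          rw [h13] at hGnil
          push Not at hGnil
          obtain ⟨M, hMco, hMnn⟩ := hGnil
          have hAM : ¬ A ≤ M := fun h => hMnn (coatom_normal_of_quotient_nilpotent A hQnil hMco h)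
          have hMA : M ⊔ A = ⊤ :=
            hMco.2 _ (lt_of_le_of_ne le_sup_left (fun h => hAM (h ▸ le_sup_right)))
          have hinf : M ⊓ A = ⊥ := by
            by_contra hne
            have hn : (M ⊓ A).Normal := inf_normal_of_sup_top hAab hMA
            have h1 : M ⊓ A = A := hAmin.2.2 _ hn inf_le_right hne
            exact hAM (inf_eq_right.mp h1)
          refine ⟨M, ?_, ?_⟩
          · -- `M` embeds in `G ⧸ A`
            have hinj : Function.Injective ((QuotientGroup.mk' A).comp M.subtype) := by
              rw [← MonoidHom.ker_eq_bot_iff, eq_bot_iff]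
              intro m hm
              rw [MonoidHom.mem_ker, MonoidHom.comp_apply] at hm
              have h1 : (m : G) ∈ A := (QuotientGroup.eq_one_iff _).mp hm
              have h2 : (m : G) ∈ M ⊓ A := ⟨m.2, h1⟩
              rw [hinf, Subgroup.mem_bot] at h2
              rw [Subgroup.mem_bot]
              exact Subtype.ext h2
            exact Group.nilpotent_of_mulEquiv (MonoidHom.ofInjective hinj).symm
          · have hne : Subgroup.normalizer (M : Set G) ≠ ⊤ :=
              fun h => hMnn (Subgroup.normalizer_eq_top_iff.mp h)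
            by_contra hne2
            exact hne (hMco.2 _ (lt_of_le_of_ne Subgroup.le_normalizer (Ne.symm hne2)))
      · obtain ⟨⟨C', hC'⟩, -⟩ := ihK _ hKtop
        obtain ⟨hCnil, hCN⟩ := hC'.of_subgroup
        have hCK : C'.map (Subgroup.subtype _) ≤ Cbar.comap (QuotientGroup.mk' A) :=
          Subgroup.map_subtype_le C'
        have hCA : C'.map (Subgroup.subtype _) ⊔ A = Cbar.comap (QuotientGroup.mk' A) := by
          have hnilT : Group.IsNilpotent
              ↥((Cbar.comap (QuotientGroup.mk' A)).map (QuotientGroup.mk' A)) := by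
            rw [hKmap]; exact hCbar.1
          have hf := MonoidHom.subgroupMap_surjective (QuotientGroup.mk' A)
            (Cbar.comap (QuotientGroup.mk' A))
          have hconj' : ∀ L : Subgroup ↥(Cbar.comap (QuotientGroup.mk' A)), L ≠ ⊤ →
              CarterConj L := by
            intro L hL
            have hlt : Nat.card L < n := by
              have h1 := card_lt_of_ne_top hL
              have h2 := card_lt_of_ne_top hKtop
              omega
            exact (ih _ hlt L rfl).2
          have himg := IsCarter.map _ hf hconj' hC'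
          have htop' := carter_eq_top_of_nilpotent himg.2
          have h1 : C' ⊔ ((QuotientGroup.mk' A).subgroupMap
              (Cbar.comap (QuotientGroup.mk' A))).ker = ⊤ := by
            rw [← Subgroup.comap_map_eq, htop', Subgroup.comap_top]
          have hker : ((QuotientGroup.mk' A).subgroupMap
              (Cbar.comap (QuotientGroup.mk' A))).ker =
              A.subgroupOf (Cbar.comap (QuotientGroup.mk' A)) := by
            ext k
            rw [MonoidHom.mem_ker, Subgroup.mem_subgroupOf, ← QuotientGroup.eq_one_iff]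
            constructor
            · intro h
              exact congrArg Subtype.val h
            · intro h
              exact Subtype.ext h
          have h2 := congrArg (Subgroup.map (Subgroup.subtype _)) h1
          rw [Subgroup.map_sup, hker, Subgroup.map_subgroupOf_eq_of_le hAK,
            ← MonoidHom.range_eq_map, Subgroup.range_subtype] at h2
          exact h2
        refine ⟨C'.map (Subgroup.subtype _), hCnil, ?_⟩
        apply le_antisymm _ Subgroup.le_normalizer
        intro x hx
        have hxK : x ∈ Cbar.comap (QuotientGroup.mk' A) := by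
          rw [← hKN, ← hCA, ← cj_eq_self_iff]
          unfold cj
          rw [Subgroup.map_sup]
          have h1 : (C'.map (Subgroup.subtype _)).map (MulAut.conj x).toMonoidHom =
              C'.map (Subgroup.subtype _) := cj_eq_self_iff.mpr hx
          have h2 : A.map (MulAut.conj x).toMonoidHom = A := by
            apply cj_eq_self_iff.mpr
            rw [Subgroup.normalizer_eq_top_iff.mpr hAn]; trivial
          rw [h1, h2]
        rw [← hCN]
        exact ⟨hx, hxK⟩
    · -- conjugacy
      intro C D hC hD
      obtain ⟨g, hg⟩ := exists_cj_sup_eq A (ihQ A hA1).2 hconjK hC hD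
      have hC₁ : IsCarter (cj g C) := hC.conj g
      suffices ∃ h, cj h (cj g C) = D by
        obtain ⟨h, hh⟩ := this
        exact ⟨h * g, by rw [cj_mul]; exact hh⟩
      by_cases hKtop : cj g C ⊔ A = ⊤
      · exact carter_conj_top hconjK (fun N _ hN => (ihQ N hN).2) A hAmin hAab _ D hC₁ hD hKtop
          (hg ▸ hKtop)
      · have hDK : D ≤ cj g C ⊔ A := by rw [hg]; exact le_sup_left
        obtain ⟨k, _, hk⟩ := carterConj_subgroup (hconjK _ hKtop) le_sup_left hDK hC₁.1
          (by rw [hC₁.2]; exact inf_eq_left.mpr le_sup_left) hD.1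
          (by rw [hD.2]; exact inf_eq_left.mpr hDK)
        exact ⟨k, hk⟩

/-- Carter subgroups exist and are conjugate in a finite solvable group. -/
theorem carter {G : Type u} [Group G] [Finite G] [Group.IsSolvable G] :
    (∃ C : Subgroup G, Group.IsNilpotent C ∧ Subgroup.normalizer (C : Set G) = C) ∧
    ∀ C D : Subgroup G, Group.IsNilpotent C → Subgroup.normalizer (C : Set G) = C →
      Group.IsNilpotent D → Subgroup.normalizer (D : Set G) = D →
      ∃ g : G, MulAut.conj g • C = D := by
  obtain ⟨⟨C, hC⟩, hconj⟩ := carter_aux _ G rfl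
  exact ⟨⟨C, hC.1, hC.2⟩, fun C D h1 h2 h3 h4 => hconj C D ⟨h1, h2⟩ ⟨h3, h4⟩⟩

end Cfsg.Agent.Lib.Helper32
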