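import Mathlib

/-!
# Rational values of `cos (2π/n)` (Niven)
-/

set_option autoImplicit false

namespace Cfsg.Agent.Lib.Helper32

theorem cos_two_pi_div_rational (n : ℕ) (hn : 0 < n)
    (h : ∃ q : ℚ, Real.cos (2 * Real.pi / n) = q) : n ∈ ({1, 2, 3, 4, 6} : Set ℕ) := by
  by_cases h1 : n = 1
  · rw [h1]; simp
  have hn2 : 2 ≤ n := by omega
  have hnq : (0 : ℚ) < (n : ℚ) := by exact_mod_cast hn
  have hnq2 : (2 : ℚ) ≤ (n : ℚ) := by exact_mod_cast hn2
  have hcos : ∃ q : ℚ, Real.cos (((2 / n : ℚ) : ℝ) * Real.pi) = q := by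
    obtain ⟨q, hq⟩ := h
    refine ⟨q, ?_⟩
    rw [← hq]
    congr 1
    push_cast
    ring
  have hbnd : (2 / n : ℚ) ∈ Set.Icc (0 : ℚ) 1 := by
    constructor
    · positivity
    · rw [div_le_one hnq]; exact hnq2
  have hr := niven_angle_div_pi_eq hcos hbnd
  simp only [Set.mem_insert_iff, Set.mem_singleton_iff] at hr ⊢
  have hne : (n : ℚ) ≠ 0 := ne_of_gt hnq
  rcases hr with hr | hr | hr | hr | hr
  · exfalso
    rw [div_eq_zero_iff] at hr
    rcases hr with hr | hr
    · norm_num at hr
    · exact hne hr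
  · right; right; right; right
    have : (n : ℚ) = 6 := by field_simp at hr; linarith
    exact_mod_cast this
  · right; right; right; left
    have : (n : ℚ) = 4 := by field_simp at hr; linarith
    exact_mod_cast this
  · right; right; left
    have : (n : ℚ) = 3 := by field_simp at hr; linarith
    exact_mod_cast this
  · right; left
    have : (n : ℚ) = 2 := by field_simp at hr; linarith
    exact_mod_cast this

end Cfsg.Agent.Lib.Helper32
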