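import Mathlib
import Cfsg.Agent.Lib.Helper15.FH0
import Cfsg.Agent.Lib.Helper32.FHNa

/-!
# Feit–Higman numerology: rationality of `fhSigma` forces `m ∈ {2, 3, 4, 6, 8}`
-/

set_option autoImplicit false

namespace Cfsg.Agent.Lib.Helper32

open Cfsg Cfsg.Agent.Lib.Helper8 Cfsg.Agent.Lib.Helper15.FH

theorem fhNb_sigma (m : ℕ) (u v : ℝ) (j : ℕ) (c s2 A K : ℝ)
    (hc : Real.cos (fhθ m j) = c) (hs : Real.sin (fhθ m j) ^ 2 = s2)
    (hA : (u - 1) ^ 2 / u + (v - 1) ^ 2 / v = A)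
    (hK : (u - 1) * (v - 1) / Real.sqrt (u * v) = K) :
    fhSigma m u v j = 2 * m + (m / (2 * s2)) * (A + 2 * c * K) := by
  rw [fhSigma_def, hc, hs, ← hA, ← hK]
  ring

theorem fhNb_not_twelve (u v : ℕ) (hu : 2 ≤ u) (hv : 2 ≤ v)
    (h : ∀ j : ℕ, 0 < j → 2 * j < 12 → ∃ q : ℚ, fhSigma 12 u v j = q) : False := by
  have huR : (2 : ℝ) ≤ u := by exact_mod_cast hu
  have hvR : (2 : ℝ) ≤ v := by exact_mod_cast hv
  obtain ⟨q1, hq1⟩ := h 1 (by norm_num) (by norm_num)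
  obtain ⟨q2, hq2⟩ := h 2 (by norm_num) (by norm_num)
  obtain ⟨q4, hq4⟩ := h 4 (by norm_num) (by norm_num)
  obtain ⟨q5, hq5⟩ := h 5 (by norm_num) (by norm_num)
  obtain ⟨A, hA⟩ : ∃ A : ℝ, ((u : ℝ) - 1) ^ 2 / u + ((v : ℝ) - 1) ^ 2 / v = A := ⟨_, rfl⟩
  obtain ⟨K, hK⟩ : ∃ K : ℝ, ((u : ℝ) - 1) * ((v : ℝ) - 1) / Real.sqrt ((u : ℝ) * v) = K :=
    ⟨_, rfl⟩
  have hKpos : 0 < K := by
    rw [← hK]
    apply div_pos
    · apply mul_pos <;> linarith
    · apply Real.sqrt_pos.mpr; apply mul_pos <;> linarith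
  have hθ1 : fhθ 12 1 = Real.pi / 6 := by rw [fhθ_def]; push_cast; ring
  have hθ2 : fhθ 12 2 = Real.pi / 3 := by rw [fhθ_def]; push_cast; ring
  have hθ4 : fhθ 12 4 = Real.pi - Real.pi / 3 := by rw [fhθ_def]; push_cast; ring
  have hθ5 : fhθ 12 5 = Real.pi - Real.pi / 6 := by rw [fhθ_def]; push_cast; ring
  have hs3 : (Real.sqrt 3 / 2) ^ 2 = (3 : ℝ) / 4 := by
    rw [div_pow, Real.sq_sqrt (by norm_num)]; norm_num
  have e1 := fhNb_sigma 12 u v 1 (Real.sqrt 3 / 2) (1 / 4) A K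
    (by rw [hθ1, Real.cos_pi_div_six]) (by rw [hθ1, Real.sin_pi_div_six]; norm_num) hA hK
  have e2 := fhNb_sigma 12 u v 2 (1 / 2) (3 / 4) A K
    (by rw [hθ2, Real.cos_pi_div_three]) (by rw [hθ2, Real.sin_pi_div_three, hs3]) hA hK
  have e4 := fhNb_sigma 12 u v 4 (-(1 / 2)) (3 / 4) A K
    (by rw [hθ4, Real.cos_pi_sub, Real.cos_pi_div_three])
    (by rw [hθ4, Real.sin_pi_sub, Real.sin_pi_div_three, hs3]) hA hK
  have e5 := fhNb_sigma 12 u v 5 (-(Real.sqrt 3 / 2)) (1 / 4) A K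
    (by rw [hθ5, Real.cos_pi_sub, Real.cos_pi_div_six])
    (by rw [hθ5, Real.sin_pi_sub, Real.sin_pi_div_six]; norm_num) hA hK
  rw [hq1] at e1
  rw [hq2] at e2
  rw [hq4] at e4
  rw [hq5] at e5
  have hK16 : ((q2 : ℝ) - q4) = 16 * K := by rw [e2, e4]; push_cast; ring
  have hK48 : ((q1 : ℝ) - q5) = 48 * (Real.sqrt 3 * K) := by rw [e1, e5]; push_cast; ring
  have h3 : Irrational (Real.sqrt 3) := by
    have := Nat.Prime.irrational_sqrt (p := 3) (by norm_num)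
    simpa using this
  apply h3
  refine ⟨(q1 - q5) / (48 * ((q2 - q4) / 16)), ?_⟩
  push_cast
  rw [hK16, hK48]
  field_simp

theorem fh_arith (m u v : ℕ) (hm : 2 ≤ m) (hu : 2 ≤ u) (hv : 2 ≤ v) (hodd : Odd m → u = v)
    (h : ∀ j : ℕ, 0 < j → 2 * j < m → ∃ q : ℚ, fhSigma m u v j = q) :
    m ∈ ({2, 3, 4, 6, 8} : Set ℕ) := by
  by_cases hm2 : m = 2
  · rw [hm2]; simp
  have hm3 : 3 ≤ m := by omega
  have huR : (2 : ℝ) ≤ u := by exact_mod_cast hu
  have hvR : (2 : ℝ) ≤ v := by exact_mod_cast hv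
  have hmR : (3 : ℝ) ≤ m := by exact_mod_cast hm3
  obtain ⟨Aq, hAq⟩ : ∃ Aq : ℚ, ((u : ℝ) - 1) ^ 2 / u + ((v : ℝ) - 1) ^ 2 / v = Aq :=
    ⟨((u : ℚ) - 1) ^ 2 / u + ((v : ℚ) - 1) ^ 2 / v, by push_cast; rfl⟩
  have hApos : (0 : ℝ) < Aq := by
    rw [← hAq]
    have h1 : 0 < ((u : ℝ) - 1) ^ 2 / u := div_pos (pow_pos (by linarith) 2) (by linarith)
    have h2 : 0 < ((v : ℝ) - 1) ^ 2 / v := div_pos (pow_pos (by linarith) 2) (by linarith)
    linarith
  have hmA : (m : ℝ) * Aq ≠ 0 := mul_ne_zero (by linarith) (ne_of_gt hApos)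
  obtain ⟨K, hK⟩ : ∃ K : ℝ, ((u : ℝ) - 1) * ((v : ℝ) - 1) / Real.sqrt ((u : ℝ) * v) = K :=
    ⟨_, rfl⟩
  by_cases huv : u = v
  · have hKA : 2 * K = Aq := by
      rw [← hK, ← hAq, huv, Real.sqrt_mul_self (by linarith)]; ring
    have hθ : fhθ m 1 = 2 * Real.pi / m := by rw [fhθ_def]; push_cast; ring
    have hpos : 0 < 2 * Real.pi / m := by
      have : (0 : ℝ) < m := by linarith
      positivity
    have hlt : 2 * Real.pi / m < Real.pi := by
      rw [div_lt_iff₀ (by linarith)]; nlinarith [Real.pi_pos]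
    have hsin : 0 < Real.sin (2 * Real.pi / m) := Real.sin_pos_of_pos_of_lt_pi hpos hlt
    obtain ⟨q, hq⟩ := h 1 one_pos (by omega)
    have e := fhNb_sigma m u v 1 (Real.cos (2 * Real.pi / m)) (Real.sin (2 * Real.pi / m) ^ 2)
      Aq K (by rw [hθ]) (by rw [hθ]) hAq hK
    rw [hq] at e
    obtain ⟨c, hc⟩ : ∃ c, c = Real.cos (2 * Real.pi / m) := ⟨_, rfl⟩
    have hs2 : Real.sin (2 * Real.pi / m) ^ 2 = (1 - c) * (1 + c) := by
      rw [Real.sin_sq, hc]; ring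
    have hs0 : (1 - c) * (1 + c) ≠ 0 := by
      rw [← hs2]; exact pow_ne_zero 2 (ne_of_gt hsin)
    have h1c : 1 - c ≠ 0 := left_ne_zero_of_mul hs0
    have h1c' : 1 + c ≠ 0 := right_ne_zero_of_mul hs0
    rw [hs2, ← hc] at e
    have hmain : ((q : ℝ) - 2 * m) * (2 * (1 - c)) = m * Aq := by
      rw [e, ← hKA]; field_simp; ring
    have hq0 : (q : ℝ) - 2 * m ≠ 0 := by
      intro h0; rw [h0, zero_mul] at hmain; exact hmA hmain.symm
    have h2 : (2 * ((q : ℝ) - 2 * m)) ≠ 0 := mul_ne_zero two_ne_zero hq0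
    have hcq' : (1 - c) = m * Aq / (2 * ((q : ℝ) - 2 * m)) := by
      rw [eq_div_iff h2]; linarith
    have hcq : c = ((1 - m * Aq / (2 * (q - 2 * m)) : ℚ) : ℝ) := by
      push_cast
      linarith
    have hNa := cos_two_pi_div_rational m (by omega) ⟨_, by rw [← hc]; exact hcq⟩
    simp only [Set.mem_insert_iff, Set.mem_singleton_iff] at hNa ⊢
    omega
  · have hev : Even m := by
      rcases Nat.even_or_odd m with he | ho
      · exact he
      · exact absurd (hodd ho) huv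
    obtain ⟨n, hn⟩ := hev
    by_cases h12 : m = 12
    · subst h12
      exact (fhNb_not_twelve u v hu hv h).elim
    have hn2 : 2 ≤ n := by omega
    have hnR : (2 : ℝ) ≤ n := by exact_mod_cast hn2
    have hmn : (m : ℝ) = 2 * n := by rw [hn]; push_cast; ring
    have hn0 : (n : ℝ) ≠ 0 := by linarith
    have hθ1 : fhθ m 1 = Real.pi / n := by
      rw [fhθ_def, hmn]; push_cast; field_simp
    have hθ2 : fhθ m (n - 1) = Real.pi - Real.pi / n := by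
      rw [fhθ_def, hmn, Nat.cast_sub (by omega)]; push_cast; field_simp
    have hpos : 0 < Real.pi / n := by
      have : (0 : ℝ) < n := by linarith
      positivity
    have hlt : Real.pi / n < Real.pi := by
      rw [div_lt_iff₀ (by linarith)]; nlinarith [Real.pi_pos]
    have hsin : 0 < Real.sin (Real.pi / n) := Real.sin_pos_of_pos_of_lt_pi hpos hlt
    obtain ⟨q1, hq1⟩ := h 1 one_pos (by omega)
    obtain ⟨q2, hq2⟩ := h (n - 1) (by omega) (by omega)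
    have e1 := fhNb_sigma m u v 1 (Real.cos (Real.pi / n)) (Real.sin (Real.pi / n) ^ 2) Aq K
      (by rw [hθ1]) (by rw [hθ1]) hAq hK
    have e2 := fhNb_sigma m u v (n - 1) (-Real.cos (Real.pi / n)) (Real.sin (Real.pi / n) ^ 2)
      Aq K (by rw [hθ2, Real.cos_pi_sub]) (by rw [hθ2, Real.sin_pi_sub]) hAq hK
    rw [hq1] at e1
    rw [hq2] at e2
    obtain ⟨s2, hs2⟩ : ∃ s2, s2 = Real.sin (Real.pi / n) ^ 2 := ⟨_, rfl⟩
    have hs0 : s2 ≠ 0 := by rw [hs2]; exact pow_ne_zero 2 (ne_of_gt hsin)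
    rw [← hs2] at e1 e2
    have hmain : ((q1 : ℝ) + q2 - 4 * m) * s2 = m * Aq := by
      rw [e1, e2]; field_simp; ring
    have hq0 : (q1 : ℝ) + q2 - 4 * m ≠ 0 := by
      intro h0; rw [h0, zero_mul] at hmain; exact hmA hmain.symm
    have hsq : s2 = ((m * Aq / (q1 + q2 - 4 * m) : ℚ) : ℝ) := by
      push_cast
      rw [eq_div_iff hq0]; linarith
    have hcos : Real.cos (2 * Real.pi / n) =
        ((1 - 2 * (m * Aq / (q1 + q2 - 4 * m)) : ℚ) : ℝ) := by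
      have e3 : 2 * Real.pi / n = 2 * (Real.pi / n) := by ring
      rw [e3, Real.cos_two_mul, Real.cos_sq', ← hs2, hsq]; push_cast; ring
    have hNa := cos_two_pi_div_rational n (by omega) ⟨_, hcos⟩
    simp only [Set.mem_insert_iff, Set.mem_singleton_iff] at hNa ⊢
    omega

end Cfsg.Agent.Lib.Helper32
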