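import Cfsg.Agent.Lib.Helper32.Trans

set_option autoImplicit false
open Cfsg
open scoped commutatorElement

namespace Cfsg.Agent.Lib.Helper32

theorem normalizer_le_normalizer_centralizer {G : Type*} [Group G] (X : Subgroup G) :
    Subgroup.normalizer (X : Set G) ≤
      Subgroup.normalizer (Subgroup.centralizer (X : Set G) : Set G) := by
  rw [Subgroup.le_normalizer_iff]
  intro g hg c hc
  refine Subgroup.mem_centralizer_iff.mpr ?_
  intro x hx
  have hx' : g⁻¹ * x * g ∈ X := (Subgroup.mem_normalizer_iff''.mp hg x).mp hx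
  have h1 : (g⁻¹ * x * g) * c = c * (g⁻¹ * x * g) := (Subgroup.mem_centralizer_iff.mp hc) _ hx'
  calc x * (g * c * g⁻¹) = g * ((g⁻¹ * x * g) * c) * g⁻¹ := by group
    _ = g * (c * (g⁻¹ * x * g)) * g⁻¹ := by rw [h1]
    _ = g * c * g⁻¹ * x := by group

theorem normalizer_le_normalizer_piCoreOf {G : Type*} [Group G] [Finite G] (π : Set ℕ)
    (X : Subgroup G) :
    Subgroup.normalizer (X : Set G) ≤ Subgroup.normalizer (piCoreOf π X : Set G) := by
  rw [Subgroup.le_normalizer_iff]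
  intro g hg o ho
  have hle : cj g (piCoreOf π X) ≤ piCoreOf π X := by
    apply le_piCoreOf
    · have := cj_mono g (piCoreOf_le π X)
      rwa [cj_eq_self_iff.mpr hg] at this
    · apply le_normalizer_of_cj_eq
      intro x hx
      have hx' : g⁻¹ * x * g ∈ X := (Subgroup.mem_normalizer_iff''.mp hg x).mp hx
      have h1 : x * g = g * (g⁻¹ * x * g) := by group
      rw [← cj_mul, h1, cj_mul, cj_eq_self_of_le_normalizer (le_normalizer_piCoreOf π X) hx']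
    · rw [card_cj]; exact piCoreOf_primes π X
  apply hle
  rw [mem_cj]
  have : g⁻¹ * (g * o * g⁻¹) * g = o := by group
  rw [this]; exact ho

theorem cj_mem_invSubgroups_of_normalizer {G : Type*} [Group G] {A Q : Subgroup G} {π : Set ℕ}
    {x : G} (hx : x ∈ Subgroup.normalizer (A : Set G)) (hQ : Q ∈ invSubgroups ⊤ A π) :
    cj x Q ∈ invSubgroups ⊤ A π := by
  refine ⟨le_top, by rw [card_cj]; exact hQ.2.1, ?_⟩
  apply le_normalizer_of_cj_eq
  intro a ha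
  have ha' : x⁻¹ * a * x ∈ A := (Subgroup.mem_normalizer_iff''.mp hx a).mp ha
  have h1 : a * x = x * (x⁻¹ * a * x) := by group
  rw [← cj_mul, h1, cj_mul, cj_eq_self_of_le_normalizer hQ.2.2 ha']

theorem cj_mem_maxInv_of_normalizer {G : Type*} [Group G] {A Q : Subgroup G} {π : Set ℕ}
    {x : G} (hx : x ∈ Subgroup.normalizer (A : Set G)) (hQ : Q ∈ maxInvSubgroups ⊤ A π) :
    cj x Q ∈ maxInvSubgroups ⊤ A π := by
  refine ⟨cj_mem_invSubgroups_of_normalizer hx hQ.1, ?_⟩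
  intro R hR hle
  have hx' : x⁻¹ ∈ Subgroup.normalizer (A : Set G) := Subgroup.inv_mem _ hx
  have h1 : Q ≤ cj x⁻¹ R := by
    have := cj_mono x⁻¹ hle
    rwa [cj_inv_cj] at this
  have h2 := hQ.2 _ (cj_mem_invSubgroups_of_normalizer hx' hR) h1
  rw [← h2, cj_cj_inv]

theorem core_inf_centralizer_le {G : Type*} [Group G] [Finite G] (π : Set ℕ) (B C : Subgroup G)
    (hBC : B ≤ C) :
    piCoreOf π (Subgroup.centralizer (B : Set G)) ⊓ Subgroup.centralizer (C : Set G) ≤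
      piCoreOf π (Subgroup.centralizer (C : Set G)) := by
  apply le_piCoreOf _ inf_le_right
  · refine le_trans (le_inf ?_ Subgroup.le_normalizer) Subgroup.inf_normalizer_le_normalizer_inf
    exact (Subgroup.centralizer_le (SetLike.coe_subset_coe.mpr hBC)).trans
      (le_normalizer_piCoreOf _ _)
  · intro p hp hdvd
    exact piCoreOf_primes _ _ p hp (hdvd.trans (Subgroup.card_dvd_of_le inf_le_left))

/-- A nontrivial maximal `C`-invariant `q`-subgroup is maximal `B`-invariant, for `A ≤ B ≤ C`. -/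
theorem maxInv_subset_of_ne_bot {G : Type*} [Group G] [Finite G] (hG : IsMinSimpleOddOrder G)
    (A : Subgroup G) (hA : TransitivityHypothesis A) (q : ℕ) (hq : q.Prime)
    (hqA : ¬ q ∣ Nat.card A) (B C : Subgroup G) (hAB : A ≤ B) (hBC : B ≤ C) (hC : C ≠ ⊤)
    (hCπ : ∀ r : ℕ, r.Prime → r ∣ Nat.card C → r ∣ Nat.card A) :
    ∀ Q' ∈ maxInvSubgroups ⊤ C {q}, Q' ≠ ⊥ → Q' ∈ maxInvSubgroups ⊤ B {q} := by
  intro Q' hQ' hQ'ne
  have hfq : Fact q.Prime := ⟨hq⟩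
  have hQ'B : Q' ∈ invSubgroups ⊤ B {q} := ⟨le_top, hQ'.1.2.1, hBC.trans hQ'.1.2.2⟩
  obtain ⟨Q'', hQ'', hle⟩ := exists_maxInv_ge hQ'B
  by_cases heq : Q' = Q''
  · exact heq ▸ hQ''
  exfalso
  have hQ'q : IsPGroup q Q' := isPGroup_of_primes hQ'.1.2.1
  have hQ''q : IsPGroup q Q'' := isPGroup_of_primes hQ''.1.2.1
  have hQ'top : Q' ≠ ⊤ := by
    intro h
    have hA1 : Nat.card A ≠ 1 := fun h1 => hA.1 (Subgroup.eq_bot_of_card_eq A h1)
    obtain ⟨r, hr, hrA⟩ := Nat.exists_prime_and_dvd hA1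
    have h2 : r ∣ Nat.card Q' := by
      rw [h, Subgroup.card_top]
      exact hrA.trans (Subgroup.card_subgroup_dvd_card A)
    have h3 := hQ'.1.2.1 r hr h2
    rw [Set.mem_singleton_iff] at h3
    exact hqA (h3 ▸ hrA)
  have hN : Subgroup.normalizer (Q' : Set G) ≠ ⊤ := minSimple_normalizer_ne_top hG hQ'ne hQ'top
  have hCN : C ≤ Subgroup.normalizer (Q' : Set G) := hQ'.1.2.2
  have hAN : A ≤ Subgroup.normalizer (Q' : Set G) := (hAB.trans hBC).trans hCN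
  obtain ⟨x, hxQ'', hxQ', hxN⟩ := exists_normalizing_not_mem hQ''q hle heq
  have hRY : Subgroup.normalizer (Q' : Set G) ⊓ Q'' ≤
      piCoreOf (primesNotDvd (Nat.card A)) (Subgroup.normalizer (Q' : Set G)) := by
    rw [← hA.2.2 _ hN hAN]
    apply le_sSup
    refine ⟨inf_le_left, ?_, ?_⟩
    · intro p hp hdvd
      have := hQ''.1.2.1 p hp (hdvd.trans (Subgroup.card_dvd_of_le inf_le_right))
      rw [Set.mem_singleton_iff] at this
      exact this ▸ ⟨hq, hqA⟩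
    · exact le_trans (le_inf (hAN.trans Subgroup.le_normalizer) (hAB.trans hQ''.1.2.2))
        Subgroup.inf_normalizer_le_normalizer_inf
  have hQ'R : Q' ≤ Subgroup.normalizer (Q' : Set G) ⊓ Q'' := le_inf Subgroup.le_normalizer hle
  have hCY : C ≤ Subgroup.normalizer
      (piCoreOf (primesNotDvd (Nat.card A)) (Subgroup.normalizer (Q' : Set G)) : Set G) :=
    hCN.trans (le_normalizer_piCoreOf _ _)
  have hcop : (Nat.card C).Coprime
      (Nat.card (piCoreOf (primesNotDvd (Nat.card A)) (Subgroup.normalizer (Q' : Set G)))) := by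
    apply Nat.coprime_of_dvd
    intro k hk hkC hkY
    exact (piCoreOf_primes _ _ k hk hkY).2 (hCπ k hk hkC)
  have hsol : Group.IsSolvable C := hG.2.2.2 C hC
  obtain ⟨S, hS, hCS, hQ'S⟩ := exists_invariant_sylow_ge C _ hCY hcop hsol hQ'q
    (hQ'R.trans hRY) hQ'.1.2.2
  have hSQ' : S = Q' :=
    hQ'.2 S ⟨le_top, primes_of_isPGroup (isPGroup_of_mem_sylSet hS), hCS⟩ hQ'S
  have hR : Subgroup.normalizer (Q' : Set G) ⊓ Q'' = Q' :=
    sylSet_eq_of_le (hSQ' ▸ hS) (hQ''q.to_le inf_le_right) hRY hQ'R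
  exact hxQ' (hR ▸ (⟨hxN, hxQ''⟩ : x ∈ Subgroup.normalizer (Q' : Set G) ⊓ Q''))

/-- One normal step of B&G Theorem 7.5: `A ≤ B ⊴ C`. -/
theorem trans_normal_step {G : Type*} [Group G] [Finite G] (hG : IsMinSimpleOddOrder G)
    (A : Subgroup G) (hA : TransitivityHypothesis A) (q : ℕ) (hq : q.Prime)
    (hqA : ¬ q ∣ Nat.card A) (B C : Subgroup G) (hAB : A ≤ B) (hBC : B ≤ C) (hC : C ≠ ⊤)
    (hCπ : ∀ r : ℕ, r.Prime → r ∣ Nat.card C → r ∣ Nat.card A)
    (hBn : C ≤ Subgroup.normalizer (B : Set G))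
    (htrB : ∀ Q₁ ∈ maxInvSubgroups ⊤ B {q}, ∀ Q₂ ∈ maxInvSubgroups ⊤ B {q},
      ∃ k ∈ piCoreOf (primesNotDvd (Nat.card A)) (Subgroup.centralizer (B : Set G)),
        Q₂ = cj k Q₁) :
    maxInvSubgroups ⊤ C {q} ⊆ maxInvSubgroups ⊤ B {q} ∧
    ∀ Q₁ ∈ maxInvSubgroups ⊤ C {q}, ∀ Q₂ ∈ maxInvSubgroups ⊤ C {q},
      ∃ k ∈ piCoreOf (primesNotDvd (Nat.card A)) (Subgroup.centralizer (C : Set G)),
        Q₂ = cj k Q₁ := by
  have hKC : ∀ k ∈ piCoreOf (primesNotDvd (Nat.card A)) (Subgroup.centralizer (B : Set G)),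
      ∀ b ∈ B, b * k = k * b :=
    fun k hk b hb => (Subgroup.mem_centralizer_iff.mp (piCoreOf_le _ _ hk)) b hb
  have hCK : C ≤ Subgroup.normalizer
      (piCoreOf (primesNotDvd (Nat.card A)) (Subgroup.centralizer (B : Set G)) : Set G) :=
    hBn.trans ((normalizer_le_normalizer_centralizer B).trans
      (normalizer_le_normalizer_piCoreOf _ _))
  have hcop : (Nat.card C).Coprime
      (Nat.card (piCoreOf (primesNotDvd (Nat.card A)) (Subgroup.centralizer (B : Set G)))) := by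
    apply Nat.coprime_of_dvd
    intro k hk hkC hkK
    exact (piCoreOf_primes _ _ k hk hkK).2 (hCπ k hk hkC)
  have hsol : Group.IsSolvable C := hG.2.2.2 C hC
  have hbot : (⊥ : Subgroup G) ∈ invSubgroups ⊤ B {q} := by
    refine ⟨le_top, ?_, ?_⟩
    · intro p hp h
      rw [Subgroup.card_bot] at h
      exact absurd (Nat.dvd_one.mp h) hp.one_lt.ne'
    · rw [Subgroup.le_normalizer_iff]
      intro b _ k hk
      rw [Subgroup.mem_bot] at hk ⊢
      rw [hk]; group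
  obtain ⟨Q0, hQ0, -⟩ := exists_maxInv_ge hbot
  obtain ⟨⟨Q₀, hQ₀T, hQ₀fix⟩, hconj⟩ := glauberman_aux (Ω := Subgroup G) cj cj_one cj_mul
    (Nat.card C) C _ (maxInvSubgroups ⊤ B {q}) le_rfl hCK hcop hsol
    (fun x hx Q hQ => cj_mem_maxInv_of_normalizer (hBn hx) hQ)
    (fun k hk Q hQ => cj_mem_maxInv (fun b hb => hKC k hk b hb) hQ)
    (fun Q₁ h₁ Q₂ h₂ => by
      obtain ⟨k, hk, hkQ⟩ := htrB Q₁ h₁ Q₂ h₂
      exact ⟨k, hk, hkQ.symm⟩)
    ⟨Q0, hQ0⟩
  have hQ₀C : Q₀ ∈ invSubgroups ⊤ C {q} := ⟨le_top, hQ₀T.1.2.1, le_normalizer_of_cj_eq hQ₀fix⟩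
  have hsub : maxInvSubgroups ⊤ C {q} ⊆ maxInvSubgroups ⊤ B {q} := by
    intro Q hQ
    by_cases hb : Q = ⊥
    · have := hQ.2 Q₀ hQ₀C (hb ▸ bot_le)
      exact this ▸ hQ₀T
    · exact maxInv_subset_of_ne_bot hG A hA q hq hqA B C hAB hBC hC hCπ Q hQ hb
  refine ⟨hsub, ?_⟩
  intro Q₁ h₁ Q₂ h₂
  obtain ⟨c, hcK, hcC, hcQ⟩ := hconj Q₁ (hsub h₁) Q₂ (hsub h₂)
    (fun x hx => cj_eq_self_of_le_normalizer h₁.1.2.2 hx)
    (fun x hx => cj_eq_self_of_le_normalizer h₂.1.2.2 hx)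
  refine ⟨c, ?_, hcQ.symm⟩
  exact core_inf_centralizer_le _ B C hBC
    ⟨hcK, Subgroup.mem_centralizer_iff.mpr (fun x hx => hcC x hx)⟩

/-- The subnormal chain of B&G Theorem 7.5. -/
theorem trans_chain {G : Type*} [Group G] [Finite G] (hG : IsMinSimpleOddOrder G)
    (A : Subgroup G) (hA : TransitivityHypothesis A) (q : ℕ) (hq : q.Prime)
    (hqA : ¬ q ∣ Nat.card A) (P : Subgroup G) (hP : P ≠ ⊤)
    (hPπ : ∀ r : ℕ, r.Prime → r ∣ Nat.card P → r ∣ Nat.card A)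
    (H' : Subgroup ↥P) (hsn : H'.IsSubnormal) :
    A ≤ H'.map P.subtype →
    (∀ Q₁ ∈ maxInvSubgroups ⊤ (H'.map P.subtype) {q},
      ∀ Q₂ ∈ maxInvSubgroups ⊤ (H'.map P.subtype) {q},
      ∃ k ∈ piCoreOf (primesNotDvd (Nat.card A))
        (Subgroup.centralizer ((H'.map P.subtype : Subgroup G) : Set G)), Q₂ = cj k Q₁) →
    maxInvSubgroups ⊤ P {q} ⊆ maxInvSubgroups ⊤ (H'.map P.subtype) {q} ∧
    ∀ Q₁ ∈ maxInvSubgroups ⊤ P {q}, ∀ Q₂ ∈ maxInvSubgroups ⊤ P {q},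
      ∃ k ∈ piCoreOf (primesNotDvd (Nat.card A)) (Subgroup.centralizer (P : Set G)),
        Q₂ = cj k Q₁ := by
  induction hsn with
  | top =>
    intro _ htr
    have h : (⊤ : Subgroup P).map P.subtype = P := by
      rw [← MonoidHom.range_eq_map, Subgroup.range_subtype]
    rw [h] at htr ⊢
    exact ⟨subset_rfl, htr⟩
  | step H' K' hle hK'sn hN ih =>
    intro hAB htrB
    have hBC : H'.map P.subtype ≤ K'.map P.subtype := Subgroup.map_mono hle
    have hCP : K'.map P.subtype ≤ P := by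
      rintro x ⟨y, -, rfl⟩
      exact y.2
    have hC : K'.map P.subtype ≠ ⊤ := fun h => hP (top_le_iff.mp (h ▸ hCP))
    have hCπ : ∀ r : ℕ, r.Prime → r ∣ Nat.card (K'.map P.subtype) → r ∣ Nat.card A :=
      fun r hr h => hPπ r hr (h.trans (Subgroup.card_dvd_of_le hCP))
    have hBn : K'.map P.subtype ≤
        Subgroup.normalizer ((H'.map P.subtype : Subgroup G) : Set G) := by
      rw [Subgroup.le_normalizer_iff]
      rintro _ ⟨k, hk, rfl⟩ _ ⟨h, hh, rfl⟩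
      have := hN.conj_mem ⟨h, hle hh⟩ (Subgroup.mem_subgroupOf.mpr hh) ⟨k, hk⟩
      exact ⟨k * h * k⁻¹, Subgroup.mem_subgroupOf.mp this, rfl⟩
    obtain ⟨hsub1, htrC⟩ := trans_normal_step hG A hA q hq hqA _ _ hAB hBC hC hCπ hBn htrB
    obtain ⟨hsub2, htrP⟩ := ih (hAB.trans hBC) htrC
    exact ⟨hsub2.trans hsub1, htrP⟩

end Cfsg.Agent.Lib.Helper32
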