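import Mathlib
import Cfsg.Agent.Lib.Helper26.GrossDefs

/-!
# Hall–Higman type inequality, piece G3

If `t ^ a = 1`, `C_W(t) = 0` and the field contains a primitive `a`-th root of unity then
`(dim W)^2 ≤ (a - 1) · dim (commutant of t)`.
-/

set_option autoImplicit false
set_option linter.unusedSectionVars false

open Cfsg.Agent.Lib.Helper26

namespace Cfsg.Agent.Lib.Helper32.GrossG3

section

variable {k : Type*} [Field k] {W : Type*} [AddCommGroup W] [Module k W]

/-- The averaging operators commute with the (commutative) action. -/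
theorem grossProj_comm_act {Y : Type*} [CommGroup Y] [Fintype Y] (act : Y →* Module.End k W)
    (α : Y → k) (y : Y) (w : W) :
    grossProj act α (act y w) = act y (grossProj act α w) := by
  rw [grossProj_apply, grossProj_apply, map_smul, map_sum]
  congr 1
  apply Finset.sum_congr rfl
  intro y' _
  rw [map_smul, ← Module.End.mul_apply, ← Module.End.mul_apply, ← map_mul, ← map_mul, mul_comm]

/-- The commutant of a commutative group of operators with pairwise distinct characters has
dimension at least the sum of the squares of the dimensions of the joint eigenspaces. -/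
theorem finrank_comm_ge [Module.Finite k W] {Y : Type*} [CommGroup Y] [Fintype Y]
    (act : Y →* Module.End k W)
    {I : Type*} [Fintype I] [DecidableEq I] (α : I → Y → k)
    (hmul : ∀ i y y', α i (y * y') = α i y * α i y')
    (hne : ∀ i y, α i y ≠ 0)
    (hdist : ∀ i j, i ≠ j → ∃ y, α i y ≠ α j y)
    (hcard : (Fintype.card Y : k) ≠ 0)
    (D : Submodule k (Module.End k W))
    (hD : ∀ f : Module.End k W, (∀ y, act y * f = f * act y) → f ∈ D) :
    ∑ i : I, Module.finrank k (grossEig (fun y => act y) (α i)) ^ 2 ≤ Module.finrank k D := by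
  classical
  let E : I → Submodule k W := fun i => grossEig (fun y => act y) (α i)
  let P : (i : I) → W →ₗ[k] E i := fun i =>
    (grossProj act (α i)).codRestrict (E i)
      (fun m => grossProj_mem act (α i) (hmul i) (hne i) m)
  let Θ : ((i : I) → Module.End k (E i)) →ₗ[k] Module.End k W :=
    { toFun := fun g => ∑ i : I, (E i).subtype ∘ₗ g i ∘ₗ P i
      map_add' := by
        intro g g'
        rw [← Finset.sum_add_distrib]
        apply Finset.sum_congr rfl
        intro i _
        rw [Pi.add_apply, LinearMap.add_comp, LinearMap.comp_add]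
      map_smul' := by
        intro c g
        rw [Finset.smul_sum]
        apply Finset.sum_congr rfl
        intro i _
        rw [Pi.smul_apply, RingHom.id_apply, LinearMap.smul_comp, LinearMap.comp_smul] }
  have hΘ : ∀ g w, Θ g w = ∑ i : I, ((g i (P i w) : E i) : W) := by
    intro g w
    show (∑ i : I, (E i).subtype ∘ₗ g i ∘ₗ P i) w = _
    rw [LinearMap.sum_apply]
    rfl
  have hinj : Function.Injective Θ := by
    rw [← LinearMap.ker_eq_bot, LinearMap.ker_eq_bot']
    intro g hg
    funext j
    apply LinearMap.ext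
    intro v
    apply Subtype.ext
    have h1 : Θ g (v : W) = 0 := by rw [hg]; rfl
    rw [hΘ, Finset.sum_eq_single j] at h1
    · have h2 : P j (v : W) = v :=
        Subtype.ext (grossProj_of_mem act (α j) (hne j) hcard v.2)
      rw [h2] at h1
      rw [h1]; rfl
    · intro i _ hij
      have h2 : P i (v : W) = 0 := by
        apply Subtype.ext
        obtain ⟨y₀, hy₀⟩ := hdist j i (Ne.symm hij)
        exact grossProj_of_ne act (α i) (hmul i) (hne i) y₀ (α j y₀) hy₀ (v.2 y₀)
      rw [h2, map_zero]; rfl
    · intro h; exact absurd (Finset.mem_univ j) h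
  have hcomm : ∀ g y, act y * Θ g = Θ g * act y := by
    intro g y
    apply LinearMap.ext
    intro w
    rw [Module.End.mul_apply, Module.End.mul_apply, hΘ, hΘ, map_sum]
    apply Finset.sum_congr rfl
    intro i _
    have h1 : P i (act y w) = α i y • P i w := by
      apply Subtype.ext
      show grossProj act (α i) (act y w) = α i y • grossProj act (α i) w
      rw [grossProj_comm_act]
      exact grossProj_mem act (α i) (hmul i) (hne i) w y
    rw [h1, map_smul]
    exact (g i (P i w)).2 y
  let Θ' : ((i : I) → Module.End k (E i)) →ₗ[k] D :=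
    Θ.codRestrict D (fun g => hD _ (hcomm g))
  have hinj' : Function.Injective Θ' := by
    intro g g' h
    apply hinj
    have := congrArg Subtype.val h
    exact this
  have h1 := LinearMap.finrank_le_finrank_of_injective hinj'
  rw [Module.finrank_pi_fintype] at h1
  calc ∑ i : I, Module.finrank k (grossEig (fun y => act y) (α i)) ^ 2
      = ∑ i : I, Module.finrank k (Module.End k (E i)) := by
        apply Finset.sum_congr rfl
        intro i _
        rw [Module.finrank_linearMap, sq]
    _ ≤ _ := h1

end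

theorem gross_hh_G3 {k : Type*} [Field k] {W : Type*} [AddCommGroup W] [Module k W]
    [Module.Finite k W]
    (t : (Module.End k W)ˣ) (a : ℕ) (ha : 1 < a) (ht : t ^ a = 1)
    (hfix : ∀ w : W, (t : Module.End k W) w = w → w = 0)
    (ζ : k) (hζ : IsPrimitiveRoot ζ a) (hak : (a : k) ≠ 0) :
    Module.finrank k W ^ 2 ≤
      (a - 1) * Module.finrank k ↥(grossComm ({t} : Set (Module.End k W)ˣ)) := by
  classical
  haveI : NeZero a := ⟨by omega⟩
  haveI : Fact (1 < a) := ⟨ha⟩
  have hζa : ζ ^ a = 1 := hζ.pow_eq_one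
  have hζ0 : ζ ≠ 0 := hζ.ne_zero (by omega)
  obtain ⟨act, hact⟩ : ∃ act : Multiplicative (ZMod a) →* Module.End k W,
      act = grossCyc t a ht := ⟨_, rfl⟩
  obtain ⟨α, hα⟩ : ∃ α : Fin a → Multiplicative (ZMod a) → k,
      α = fun j y => ζ ^ (j.val * (Multiplicative.toAdd y).val) := ⟨_, rfl⟩
  have hαv : ∀ j y, α j y = ζ ^ (j.val * (Multiplicative.toAdd y).val) := by
    intro j y; rw [hα]
  have hmul : ∀ i y y', α i (y * y') = α i y * α i y' := by
    intro i y y'
    rw [hαv, hαv, hαv, toAdd_mul, ZMod.val_add, ← pow_add, ← mul_add, mul_comm i.val,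
      mul_comm i.val, pow_mul, pow_mul, ← pow_eq_pow_mod _ hζa]
  have hne : ∀ i y, α i y ≠ 0 := fun i y => by rw [hαv]; exact pow_ne_zero _ hζ0
  have hy1 : (Multiplicative.toAdd (Multiplicative.ofAdd (1 : ZMod a))).val = 1 :=
    ZMod.val_one a
  have hdist : ∀ i j, i ≠ j → ∃ y, α i y ≠ α j y := by
    intro i j hij
    refine ⟨Multiplicative.ofAdd (1 : ZMod a), ?_⟩
    rw [hαv, hαv, hy1, mul_one, mul_one]
    intro h
    exact hij (Fin.ext (hζ.pow_inj i.2 j.2 h))
  have hcardY : Fintype.card (Multiplicative (ZMod a)) = a := by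
    rw [Fintype.card_multiplicative, ZMod.card]
  have hcard : (Fintype.card (Multiplicative (ZMod a)) : k) ≠ 0 := by rw [hcardY]; exact hak
  have hsum0 : ∀ y : Multiplicative (ZMod a), y ≠ 1 → ∑ i : Fin a, (α i y)⁻¹ = 0 := by
    intro y hy
    have hi0 : (Multiplicative.toAdd y).val ≠ 0 := by
      intro h
      apply hy
      have h1 := (ZMod.val_eq_zero (Multiplicative.toAdd y)).mp h
      exact toAdd_eq_zero.mp h1
    have hilt : (Multiplicative.toAdd y).val < a := ZMod.val_lt _
    have hr1 : (ζ ^ (Multiplicative.toAdd y).val)⁻¹ ≠ 1 := by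
      intro h
      exact hζ.pow_ne_one_of_pos_of_lt hi0 hilt (inv_eq_one.mp h)
    have hra : ((ζ ^ (Multiplicative.toAdd y).val)⁻¹) ^ a = 1 := by
      rw [inv_pow, ← pow_mul, mul_comm, pow_mul, hζa, one_pow, inv_one]
    have h2 : ∑ j : Fin a, (α j y)⁻¹ =
        ∑ j ∈ Finset.range a, ((ζ ^ (Multiplicative.toAdd y).val)⁻¹) ^ j := by
      rw [← Fin.sum_univ_eq_sum_range (fun j => ((ζ ^ (Multiplicative.toAdd y).val)⁻¹) ^ j) a]
      apply Finset.sum_congr rfl
      intro j _
      rw [hαv, inv_pow, ← pow_mul, mul_comm]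
    rw [h2, geom_sum_eq hr1, hra, sub_self, zero_div]
  have horth : ∑ y : Multiplicative (ZMod a), (∑ i : Fin a, (α i y)⁻¹) • act y =
      (Fintype.card (Multiplicative (ZMod a)) : k) • (1 : Module.End k W) := by
    rw [Finset.sum_eq_single (1 : Multiplicative (ZMod a))]
    · rw [map_one, hcardY]
      congr 1
      have h3 : ∀ i : Fin a, (α i 1)⁻¹ = 1 := by
        intro i
        rw [hαv, toAdd_one, ZMod.val_zero, mul_zero, pow_zero, inv_one]
      rw [Finset.sum_congr rfl (fun i _ => h3 i), Finset.sum_const, Finset.card_univ,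
        Fintype.card_fin, nsmul_eq_mul, mul_one]
    · intro y _ hy
      rw [hsum0 y hy, zero_smul]
    · intro h; exact absurd (Finset.mem_univ _) h
  have hdec := gross_dec_finrank act α hmul hne hdist hcard horth
  have hact1 : act (Multiplicative.ofAdd (1 : ZMod a)) = (t : Module.End k W) := by
    rw [hact, grossCyc_apply, hy1, pow_one]
  have hE0 : Module.finrank k (grossEig (fun y => act y) (α ⟨0, by omega⟩)) = 0 := by
    have hbot : grossEig (fun y => act y) (α ⟨0, by omega⟩) = ⊥ := by
      rw [eq_bot_iff]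
      intro w hw
      have h1 : act (Multiplicative.ofAdd (1 : ZMod a)) w =
          α ⟨0, by omega⟩ (Multiplicative.ofAdd (1 : ZMod a)) • w :=
        hw (Multiplicative.ofAdd (1 : ZMod a))
      rw [hαv, zero_mul, pow_zero, one_smul, hact1] at h1
      exact (Submodule.mem_bot k).mpr (hfix w h1)
    rw [hbot, finrank_bot]
  have hge := finrank_comm_ge act α hmul hne hdist hcard
    (grossComm ({t} : Set (Module.End k W)ˣ)) (by
      intro f hf x hx
      rw [Set.mem_singleton_iff] at hx
      subst hx
      rw [← hact1]; exact hf _)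
  rw [hdec]
  obtain ⟨d, hd⟩ : ∃ d : Fin a → ℕ,
      d = fun i => Module.finrank k (grossEig (fun y => act y) (α i)) := ⟨_, rfl⟩
  have hdv : ∀ i, Module.finrank k (grossEig (fun y => act y) (α i)) = d i := by
    intro i; rw [hd]
  simp only [hdv] at hge hE0 ⊢
  have hs : ∑ i : Fin a, d i = ∑ i ∈ Finset.univ.erase (⟨0, by omega⟩ : Fin a), d i := by
    rw [← Finset.add_sum_erase _ _ (Finset.mem_univ (⟨0, by omega⟩ : Fin a)), hE0, zero_add]
  have hcs := sq_sum_le_card_mul_sum_sq (s := Finset.univ.erase (⟨0, by omega⟩ : Fin a))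
    (f := d)
  have hc : (Finset.univ.erase (⟨0, by omega⟩ : Fin a)).card = a - 1 := by
    rw [Finset.card_erase_of_mem (Finset.mem_univ _), Finset.card_univ, Fintype.card_fin]
  rw [hc] at hcs
  have hle : ∑ i ∈ Finset.univ.erase (⟨0, by omega⟩ : Fin a), d i ^ 2 ≤ ∑ i : Fin a, d i ^ 2 :=
    Finset.sum_le_sum_of_subset (Finset.erase_subset _ _)
  calc (∑ i : Fin a, d i) ^ 2
      = (∑ i ∈ Finset.univ.erase (⟨0, by omega⟩ : Fin a), d i) ^ 2 := by rw [hs]
    _ ≤ (a - 1) * ∑ i ∈ Finset.univ.erase (⟨0, by omega⟩ : Fin a), d i ^ 2 := by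
        simpa using hcs
    _ ≤ (a - 1) * ∑ i : Fin a, d i ^ 2 := Nat.mul_le_mul_left _ hle
    _ ≤ (a - 1) * Module.finrank k ↥(grossComm ({t} : Set (Module.End k W)ˣ)) :=
        Nat.mul_le_mul_left _ hge

end Cfsg.Agent.Lib.Helper32.GrossG3
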