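import Mathlib

/-!
# A coprime-action lemma for normal subsystems of constrained fusion systems

A `p'`-element `x` normalizing `T` with `[C_S(T), x] ≤ Z(T)` and `[Q, x]` inducing inner
automorphisms of `T` satisfies `[Q, x] ≤ T ∩ Q`.
-/

set_option autoImplicit false

namespace Cfsg.Agent.Lib.Helper32

theorem nsub_gb {G : Type*} [Group G] [Finite G] {p : ℕ} [Fact p.Prime] (S : Sylow p G)
    (Q T : Subgroup G) [Q.Normal] (hQp : IsPGroup p Q) (hQS : Q ≤ S) (hTS : T ≤ S)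
    (hTn : ∀ s ∈ (S : Subgroup G), ∀ t ∈ T, s * t * s⁻¹ ∈ T)
    (x : G) (hxT : x ∈ Subgroup.normalizer (T : Set G)) (hx : (orderOf x).Coprime p)
    (hxC : ∀ c ∈ (S : Subgroup G), c ∈ Subgroup.centralizer (T : Set G) →
      c⁻¹ * (x * c * x⁻¹) ∈ T ⊓ Subgroup.centralizer (T : Set G))
    (hxQ : ∀ q ∈ Q, ∃ t ∈ T, ∀ y ∈ T,
      (q * x * q⁻¹ * x⁻¹) * y * (q * x * q⁻¹ * x⁻¹)⁻¹ = t * y * t⁻¹) :
    ∀ q ∈ Q, x * q * x⁻¹ * q⁻¹ ∈ T ⊓ Q := by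
  have hQn : ∀ g : G, ∀ a ∈ Q, g * a * g⁻¹ ∈ Q := fun g a ha =>
    (inferInstance : Q.Normal).conj_mem a ha g
  have hxTc : ∀ t ∈ T, x * t * x⁻¹ ∈ T := fun t ht =>
    (Subgroup.mem_normalizer_iff.mp hxT t).mp ht
  have F1 : ∀ a ∈ Q, ∀ r ∈ T ⊓ Q, a * r * a⁻¹ ∈ T ⊓ Q := fun a ha r hr =>
    ⟨hTn a (hQS ha) r hr.1, hQn a r hr.2⟩
  have F2 : ∀ r ∈ T ⊓ Q, x * r * x⁻¹ ∈ T ⊓ Q := fun r hr => ⟨hxTc r hr.1, hQn x r hr.2⟩
  -- Step 1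
  have S1 : ∀ q ∈ Q,
      x * (q * x * q⁻¹ * x⁻¹) * x⁻¹ * (q * x * q⁻¹ * x⁻¹)⁻¹ ∈ T ⊓ Q := by
    intro q hq
    obtain ⟨t, ht, hty⟩ := hxQ q hq
    obtain ⟨w, hw⟩ : ∃ w, w = q * x * q⁻¹ * x⁻¹ := ⟨_, rfl⟩
    rw [← hw] at hty ⊢
    have hwQ : w ∈ Q := by
      have h1 : x * q⁻¹ * x⁻¹ ∈ Q := hQn x _ (Q.inv_mem hq)
      have e : w = q * (x * q⁻¹ * x⁻¹) := by rw [hw]; group
      rw [e]; exact Q.mul_mem hq h1
    have hcS : t⁻¹ * w ∈ (S : Subgroup G) :=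
      Subgroup.mul_mem _ (Subgroup.inv_mem _ (hTS ht)) (hQS hwQ)
    have hcC : t⁻¹ * w ∈ Subgroup.centralizer (T : Set G) := by
      rw [Subgroup.mem_centralizer_iff]
      intro y hy
      have h1 := hty y hy
      have h2 : w * y = t * y * t⁻¹ * w := by rw [← h1]; group
      calc y * (t⁻¹ * w) = t⁻¹ * (t * y * t⁻¹ * w) := by group
        _ = t⁻¹ * (w * y) := by rw [h2]
        _ = t⁻¹ * w * y := by group
    have hz := hxC _ hcS hcC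
    have hzc := Subgroup.mem_centralizer_iff.mp hcC _ hz.1
    refine ⟨?_, ?_⟩
    · have e : x * w * x⁻¹ * w⁻¹ =
          (x * t * x⁻¹) * ((t⁻¹ * w)⁻¹ * (x * (t⁻¹ * w) * x⁻¹)) * t⁻¹ := by
        have e1 : x * w * x⁻¹ * w⁻¹ = (x * t * x⁻¹) *
            ((t⁻¹ * w) * ((t⁻¹ * w)⁻¹ * (x * (t⁻¹ * w) * x⁻¹)) * (t⁻¹ * w)⁻¹) * t⁻¹ := by
          group
        rw [e1, ← hzc]; group
      rw [e]
      exact T.mul_mem (T.mul_mem (hxTc t ht) hz.1) (T.inv_mem ht)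
    · exact Q.mul_mem (hQn x w hwQ) (Q.inv_mem hwQ)
  -- Step 2
  intro q hq
  obtain ⟨u, hu⟩ : ∃ u, u = x * q * x⁻¹ * q⁻¹ := ⟨_, rfl⟩
  rw [← hu]
  have huQ : u ∈ Q := by rw [hu]; exact Q.mul_mem (hQn x q hq) (Q.inv_mem hq)
  have hvu : x * u * x⁻¹ * u⁻¹ ∈ T ⊓ Q := by
    have hw : q * x * q⁻¹ * x⁻¹ = u⁻¹ := by rw [hu]; group
    have hS1 := S1 q hq
    rw [hw] at hS1
    have h1 := F1 u huQ _ (Subgroup.inv_mem _ hS1)
    have e : x * u * x⁻¹ * u⁻¹ = u * (x * u⁻¹ * x⁻¹ * u⁻¹⁻¹)⁻¹ * u⁻¹ := by group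
    rw [e]; exact h1
  have A : ∀ k : ℕ, (x * u * x⁻¹) ^ k * (u ^ k)⁻¹ ∈ T ⊓ Q := by
    intro k
    induction k with
    | zero => simp
    | succ k ih =>
      have h1 := F1 (u ^ k) (Q.pow_mem huQ k) _ hvu
      have e : (x * u * x⁻¹) ^ (k + 1) * (u ^ (k + 1))⁻¹ =
          ((x * u * x⁻¹) ^ k * (u ^ k)⁻¹) * (u ^ k * (x * u * x⁻¹ * u⁻¹) * (u ^ k)⁻¹) := by
        rw [pow_succ, pow_succ]
        generalize (x * u * x⁻¹) ^ k = V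
        generalize u ^ k = U
        group
      rw [e]; exact Subgroup.mul_mem _ ih h1
  have B : ∀ k : ℕ, x ^ k * q * (x ^ k)⁻¹ * q⁻¹ * (u ^ k)⁻¹ ∈ T ⊓ Q := by
    intro k
    induction k with
    | zero => simp
    | succ k ih =>
      have h1 := F2 _ ih
      have h2 := A k
      have e : x ^ (k + 1) * q * (x ^ (k + 1))⁻¹ * q⁻¹ * (u ^ (k + 1))⁻¹ =
          x * (x ^ k * q * (x ^ k)⁻¹ * q⁻¹ * (u ^ k)⁻¹) * x⁻¹ *
            ((x * u * x⁻¹) ^ k * (u ^ k)⁻¹) := by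
        rw [conj_pow, pow_succ', pow_succ]
        generalize u ^ k = U
        generalize x ^ k = X
        rw [hu]; group
      rw [e]; exact Subgroup.mul_mem _ h1 h2
  have hB := B (orderOf x)
  rw [pow_orderOf_eq_one] at hB
  have hun : u ^ orderOf x ∈ T ⊓ Q := by
    have e : u ^ orderOf x = ((1 : G) * q * (1 : G)⁻¹ * q⁻¹ * (u ^ orderOf x)⁻¹)⁻¹ := by
      generalize u ^ orderOf x = U
      group
    rw [e]; exact Subgroup.inv_mem _ hB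
  obtain ⟨a, ha⟩ := hQp ⟨u, huQ⟩
  have ha' : u ^ (p ^ a) = 1 := by
    have := congrArg Subtype.val ha
    simpa using this
  have hcop : Nat.Coprime (orderOf x) (p ^ a) := Nat.Coprime.pow_right a hx
  have h1 : (1 : ℤ) = (orderOf x : ℤ) * Nat.gcdA (orderOf x) (p ^ a) +
      ((p ^ a : ℕ) : ℤ) * Nat.gcdB (orderOf x) (p ^ a) := by
    have := Nat.gcd_eq_gcd_ab (orderOf x) (p ^ a)
    rw [hcop.gcd_eq_one] at this
    exact_mod_cast this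
  have key : u = (u ^ orderOf x) ^ (Nat.gcdA (orderOf x) (p ^ a)) := by
    calc u = u ^ (1 : ℤ) := (zpow_one u).symm
      _ = u ^ ((orderOf x : ℤ) * Nat.gcdA (orderOf x) (p ^ a) +
            ((p ^ a : ℕ) : ℤ) * Nat.gcdB (orderOf x) (p ^ a)) := by rw [← h1]
      _ = (u ^ orderOf x) ^ (Nat.gcdA (orderOf x) (p ^ a)) *
            (u ^ (p ^ a)) ^ (Nat.gcdB (orderOf x) (p ^ a)) := by
          rw [zpow_add, zpow_mul, zpow_mul, zpow_natCast, zpow_natCast]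
      _ = (u ^ orderOf x) ^ (Nat.gcdA (orderOf x) (p ^ a)) := by
          rw [ha', one_zpow, mul_one]
  rw [key]; exact Subgroup.zpow_mem _ hun _

end Cfsg.Agent.Lib.Helper32
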