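import Cfsg.Agent.Lib.Helper32.BenderU
import Cfsg.Agent.Lib.Helper40.PiCore

set_option autoImplicit false
open Cfsg

namespace Cfsg.Agent.Lib.Helper32

section Transport

variable {G : Type*} [Group G]

theorem le_pCoreOf {s : ℕ} {Y X : Subgroup G} (hYX : Y ≤ X)
    (hnorm : X ≤ Subgroup.normalizer (Y : Set G)) (hY : IsPGroup s Y) : Y ≤ pCoreOf s X := by
  have hn : (Y.subgroupOf X).Normal := (Subgroup.normal_subgroupOf_iff_le_normalizer hYX).mpr hnorm
  have hle : Y.subgroupOf X ≤ pCore s ↥X :=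
    Cfsg.Agent.Lib.Helper30.le_pCore_of_normal hn hY.comap_subtype
  intro y hy
  exact ⟨⟨y, hYX hy⟩, hle (Subgroup.mem_subgroupOf.mpr hy), rfl⟩

theorem le_normalizer_cj {A B : Subgroup G} (g : G)
    (h : A ≤ Subgroup.normalizer (B : Set G)) :
    cj g A ≤ Subgroup.normalizer (cj g B : Set G) := by
  intro a ha
  rw [mem_cj] at ha
  rw [← cj_eq_self_iff]
  have e : a * g = g * (g⁻¹ * a * g) := by group
  rw [← cj_mul, e, cj_mul, cj_eq_self_of_le_normalizer h ha]

theorem normalizer_le_normalizer_pCoreOf [Finite G] (s : ℕ) (X : Subgroup G) :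
    Subgroup.normalizer (X : Set G) ≤ Subgroup.normalizer (pCoreOf s X : Set G) := by
  intro g hg
  rw [← cj_eq_self_iff]
  have hX : cj g X = X := cj_eq_self_iff.mpr hg
  apply Subgroup.eq_of_le_of_card_ge
  · apply le_pCoreOf
    · have := cj_mono g (pCoreOf_le s X)
      rwa [hX] at this
    · have := le_normalizer_cj g (le_normalizer_pCoreOf s X)
      rwa [hX] at this
    · exact isPGroup_cj (isPGroup_pCoreOf s X)
  · rw [card_cj]

theorem normalizer_le_normalizer_piCoreOf [Finite G] (π : Set ℕ) (X : Subgroup G) :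
    Subgroup.normalizer (X : Set G) ≤ Subgroup.normalizer (piCoreOf π X : Set G) := by
  intro g hg
  rw [← cj_eq_self_iff]
  have hX : cj g X = X := cj_eq_self_iff.mpr hg
  apply Subgroup.eq_of_le_of_card_ge
  · apply le_piCoreOf
    · have := cj_mono g (piCoreOf_le π X)
      rwa [hX] at this
    · have := le_normalizer_cj g (le_normalizer_piCoreOf π X)
      rwa [hX] at this
    · rw [card_cj]
      exact piCoreOf_primes π X
  · rw [card_cj]

theorem eq_one_of_mem_coprime [Finite G] {A B : Subgroup G}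
    (h : (Nat.card A).Coprime (Nat.card B)) {c : G} (hA : c ∈ A) (hB : c ∈ B) : c = 1 := by
  have h1 : orderOf c ∣ Nat.card A := orderOf_dvd_of_pow_eq_one (pow_card_eq_one_of_mem'' A hA)
  have h2 : orderOf c ∣ Nat.card B := orderOf_dvd_of_pow_eq_one (pow_card_eq_one_of_mem'' B hB)
  have h3 : orderOf c ∣ 1 := by
    have h4 := Nat.dvd_gcd h1 h2
    rwa [Nat.Coprime.gcd_eq_one h] at h4
  exact orderOf_eq_one_iff.mp (Nat.dvd_one.mp h3)

end Transport

section Facts

variable {G : Type*} [Group G] [Finite G]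

/-- **Fact A.** An `M`-invariant subgroup `K` of `H` of order coprime to `#F(H)`, where
`C_F(M) ≤ M ≤ F = F(H)`, centralizes `F`. -/
theorem le_centralizer_fittingOf_of_inv {H M K : Subgroup G} (hM : M ≤ fittingOf H)
    (hCM : fittingOf H ⊓ Subgroup.centralizer (M : Set G) ≤ M) (hKH : K ≤ H)
    (hMK : M ≤ Subgroup.normalizer (K : Set G))
    (hcop : (Nat.card K).Coprime (Nat.card (fittingOf H))) :
    K ≤ Subgroup.centralizer (fittingOf H : Set G) := by
  have hKM : K ≤ Subgroup.centralizer (M : Set G) := by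
    intro k hk
    rw [Subgroup.mem_centralizer_iff]
    intro m hm
    have h1 : k * m * k⁻¹ * m⁻¹ ∈ fittingOf H := by
      have h := (Subgroup.le_normalizer_iff.mp (le_normalizer_fittingOf H)) k (hKH hk) m (hM hm)
      exact Subgroup.mul_mem _ h (Subgroup.inv_mem _ (hM hm))
    have h2 : k * m * k⁻¹ * m⁻¹ ∈ K := by
      have h := (Subgroup.le_normalizer_iff.mp hMK) m hm k⁻¹ (Subgroup.inv_mem _ hk)
      have e : k * m * k⁻¹ * m⁻¹ = k * (m * k⁻¹ * m⁻¹) := by group
      rw [e]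
      exact Subgroup.mul_mem _ hk h
    have h3 : k * m * k⁻¹ * m⁻¹ = 1 := eq_one_of_mem_coprime hcop h2 h1
    calc m * k = (k * m * k⁻¹ * m⁻¹)⁻¹ * (k * m) := by group
      _ = k * m := by rw [h3, inv_one, one_mul]
  exact Cfsg.Agent.Lib.Helper29.centralize_nilpotent_of_coprime (fittingOf H) M K
    (isNilpotent_fittingOf H) hM hCM (hKH.trans (le_normalizer_fittingOf H)) hKM hcop

/-- **Fact B.** A solvable subgroup `R` normalized by `X = C_H(F(H))` meets `X` inside `F(H)`. -/
theorem centralizer_inf_le_fittingOf {H R : Subgroup G} (hR : Group.IsSolvable ↥R)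
    (hXR : H ⊓ Subgroup.centralizer (fittingOf H : Set G) ≤ Subgroup.normalizer (R : Set G)) :
    (H ⊓ Subgroup.centralizer (fittingOf H : Set G)) ⊓ R ≤ fittingOf H := by
  obtain ⟨Y, hY⟩ : ∃ Y : Subgroup G,
      Y = (H ⊓ Subgroup.centralizer (fittingOf H : Set G)) ⊓ R := ⟨_, rfl⟩
  rw [← hY]
  have hYH : Y ≤ H := by rw [hY]; exact inf_le_left.trans inf_le_left
  have hYX : Y ≤ H ⊓ Subgroup.centralizer (fittingOf H : Set G) := by rw [hY]; exact inf_le_left
  have hYR : Y ≤ R := by rw [hY]; exact inf_le_right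
  have hFn : (fittingSubgroup ↥H).Normal := Cfsg.Agent.Lib.Helper30.fitting_normal
  have hCn : (Subgroup.centralizer (fittingSubgroup ↥H : Set ↥H)).Normal := inferInstance
  have hY₀X₀ : Y.subgroupOf H ≤ Subgroup.centralizer (fittingSubgroup ↥H : Set ↥H) := by
    intro y hy
    rw [Subgroup.mem_subgroupOf] at hy
    rw [Subgroup.mem_centralizer_iff]
    intro f hf
    have h := Subgroup.mem_centralizer_iff.mp (hYX hy).2 (f : G) ⟨f, hf, rfl⟩
    exact Subtype.ext h
  have hX₀Y₀ : Subgroup.centralizer (fittingSubgroup ↥H : Set ↥H) ≤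
      Subgroup.normalizer ((Y.subgroupOf H : Subgroup ↥H) : Set ↥H) := by
    intro x hx
    have hxX : (x : G) ∈ H ⊓ Subgroup.centralizer (fittingOf H : Set G) := by
      refine Subgroup.mem_inf.mpr ⟨x.2, ?_⟩
      rw [Subgroup.mem_centralizer_iff]
      rintro _ ⟨f, hf, rfl⟩
      have h := Subgroup.mem_centralizer_iff.mp hx f hf
      exact congrArg Subtype.val h
    have hxN : (x : G) ∈ Subgroup.normalizer (Y : Set G) := by
      rw [hY]
      exact Cfsg.Agent.Lib.Helper29.le_normalizer_inf' Subgroup.le_normalizer hXR hxX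
    rw [Subgroup.mem_normalizer_iff]
    intro y
    rw [Subgroup.mem_subgroupOf, Subgroup.mem_subgroupOf]
    exact Subgroup.mem_normalizer_iff.mp hxN (y : G)
  have hY₀n : ((Y.subgroupOf H).subgroupOf
      (Subgroup.centralizer (fittingSubgroup ↥H : Set ↥H))).Normal :=
    (Subgroup.normal_subgroupOf_iff_le_normalizer hY₀X₀).mpr hX₀Y₀
  have hY₀sn : (Y.subgroupOf H).IsSubnormal :=
    Subgroup.IsSubnormal.trans hY₀X₀ hY₀n.isSubnormal hCn.isSubnormal
  have hle := Cfsg.Agent.Lib.Helper30.fitting_map_subtype_le hY₀sn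
  have hY₀s : Group.IsSolvable ↥(Y.subgroupOf H) := by
    let f : ↥(Y.subgroupOf H) →* ↥R :=
      { toFun := fun y => ⟨((y : ↥H) : G), hYR (Subgroup.mem_subgroupOf.mp y.2)⟩
        map_one' := rfl
        map_mul' := fun _ _ => rfl }
    refine Group.isSolvable_of_isSolvable_injective (f := f) ?_
    intro a b hab
    have h1 : ((a : ↥H) : G) = ((b : ↥H) : G) := congrArg (fun r : ↥R => (r : G)) hab
    exact Subtype.ext (Subtype.ext h1)
  have htop : fittingSubgroup ↥(Y.subgroupOf H) = ⊤ := by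
    rw [eq_top_iff]
    refine le_trans ?_ (centralizer_fitting_le_of_solvable ↥(Y.subgroupOf H))
    intro y _
    rw [Subgroup.mem_centralizer_iff]
    intro f hf
    have hfH : (f : ↥H) ∈ fittingSubgroup ↥H := hle ⟨f, hf, rfl⟩
    have h := Subgroup.mem_centralizer_iff.mp (hY₀X₀ y.2) (f : ↥H) hfH
    exact Subtype.ext h
  intro y hy
  have hyY₀ : (⟨y, hYH hy⟩ : ↥H) ∈ Y.subgroupOf H := Subgroup.mem_subgroupOf.mpr hy
  have h1 : (⟨y, hYH hy⟩ : ↥H) ∈ fittingSubgroup ↥H := by
    apply hle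
    exact ⟨⟨⟨y, hYH hy⟩, hyY₀⟩, by rw [htop]; exact Subgroup.mem_top _, rfl⟩
  exact ⟨⟨y, hYH hy⟩, h1, rfl⟩

/-- **Claim 1.** No nontrivial element of an `M`-invariant subgroup `K ≤ R` of order coprime to
`#F(H)` centralizes `Z_p = O_p(H) ∩ Z(F(H))`, provided `C_G(Z_p) ≤ H`. -/
theorem inf_centralizer_zOf_eq_bot {H M R K : Subgroup G} (hM : M ≤ fittingOf H)
    (hCM : fittingOf H ⊓ Subgroup.centralizer (M : Set G) ≤ M)
    (hR : Group.IsSolvable ↥R)
    (hXR : H ⊓ Subgroup.centralizer (fittingOf H : Set G) ≤ Subgroup.normalizer (R : Set G))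
    (hKR : K ≤ R) (hMK : M ≤ Subgroup.normalizer (K : Set G))
    (hcop : (Nat.card K).Coprime (Nat.card (fittingOf H)))
    (p : ℕ) (hZ : Subgroup.centralizer (zOf p H : Set G) ≤ H) :
    K ⊓ Subgroup.centralizer (zOf p H : Set G) = ⊥ := by
  have hK₁H : K ⊓ Subgroup.centralizer (zOf p H : Set G) ≤ H := inf_le_right.trans hZ
  have hMK₁ : M ≤ Subgroup.normalizer
      ((K ⊓ Subgroup.centralizer (zOf p H : Set G) : Subgroup G) : Set G) :=
    Cfsg.Agent.Lib.Helper29.le_normalizer_inf' hMK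
      (((hM.trans (fittingOf_le H)).trans (le_normalizer_zOf p H)).trans
        (Cfsg.Agent.Lib.Helper29.normalizer_le_normalizer_centralizer _))
  have hcop₁ : (Nat.card ↥(K ⊓ Subgroup.centralizer (zOf p H : Set G))).Coprime
      (Nat.card (fittingOf H)) :=
    Nat.Coprime.coprime_dvd_left (Subgroup.card_dvd_of_le inf_le_left) hcop
  have h1 := le_centralizer_fittingOf_of_inv hM hCM hK₁H hMK₁ hcop₁
  have h2 : K ⊓ Subgroup.centralizer (zOf p H : Set G) ≤ fittingOf H := fun x hx =>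
    centralizer_inf_le_fittingOf hR hXR ⟨⟨hK₁H hx, h1 hx⟩, hKR hx.1⟩
  rw [eq_bot_iff]
  intro x hx
  rw [Subgroup.mem_bot]
  exact eq_one_of_mem_coprime hcop hx.1 (h2 hx)

end Facts

end Cfsg.Agent.Lib.Helper32
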