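import Cfsg.Agent.Lib.Helper32.BenderR3

set_option autoImplicit false
open Cfsg

namespace Cfsg.Agent.Lib.Helper32

section Final

variable {G : Type*} [Group G] [Finite G]

/-- **Bender's lemma on invariant `q`-subgroups.** `H` a maximal local subgroup, `F = F(H)` with
at least two prime divisors, `C_F(M) ≤ M ≤ F`, `R` solvable normalized by `M` and `C_H(F)`,
`q ∤ #F`. Then `R` has exactly one maximal `M`-invariant `q`-subgroup, and it is a Sylow
`q`-subgroup of `O_{π(F)'}(R)`. -/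
theorem maxInv_unique_of_maxLocal (H : Subgroup G)
    (hHmax : ∀ L : Subgroup G, IsLocalSubgroup L → H ≤ L → L = H)
    (hF2 : 2 ≤ (Nat.card (fittingOf H)).primeFactors.card)
    (M : Subgroup G) (hM : M ≤ fittingOf H)
    (hCM : fittingOf H ⊓ Subgroup.centralizer (M : Set G) ≤ M)
    (R : Subgroup G) (hR : Group.IsSolvable R) (hMR : M ≤ Subgroup.normalizer (R : Set G))
    (hXR : H ⊓ Subgroup.centralizer (fittingOf H : Set G) ≤ Subgroup.normalizer (R : Set G))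
    (q : ℕ) [hqf : Fact q.Prime] (hq : ¬ q ∣ Nat.card (fittingOf H)) :
    ∃! Q : Subgroup G, Q ∈ maxInvSubgroups R M {q} ∧
      (∀ Q' : Subgroup G, Q' ∈ maxInvSubgroups R M {q} →
        Q' ≤ piCoreOf (primesNotDvd (Nat.card (fittingOf H))) R ∧
        ¬ q ∣ Q'.relIndex (piCoreOf (primesNotDvd (Nat.card (fittingOf H))) R)) := by
  classical
  have hqp := hqf.out
  -- `C_G(Z_p) ≤ H`
  have hZH : ∀ p : ℕ, p.Prime → p ∣ Nat.card (fittingOf H) →
      Subgroup.centralizer (zOf p H : Set G) ≤ H := by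
    intro p hp hd
    have : Fact p.Prime := ⟨hp⟩
    have hloc : IsLocalSubgroup (Subgroup.normalizer (zOf p H : Set G)) :=
      ⟨p, zOf p H, hp, isPGroup_zOf p H, zOf_ne_bot p H hd, rfl⟩
    have h1 := hHmax _ hloc (le_normalizer_zOf p H)
    exact (Subgroup.centralizer_le_normalizer _).trans h1.le
  obtain ⟨N, hN⟩ : ∃ N : Subgroup G, N = piCoreOf (primesNotDvd (Nat.card (fittingOf H))) R :=
    ⟨_, rfl⟩
  rw [← hN]
  have hNR : N ≤ R := by rw [hN]; exact piCoreOf_le _ R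
  have hMN : M ≤ Subgroup.normalizer (N : Set G) := by
    rw [hN]
    exact hMR.trans (normalizer_le_normalizer_piCoreOf _ R)
  have hNprime : ∀ r : ℕ, r.Prime → r ∣ Nat.card N →
      r ∈ primesNotDvd (Nat.card (fittingOf H)) := by
    rw [hN]
    exact piCoreOf_primes _ R
  have hFN : (Nat.card (fittingOf H)).Coprime (Nat.card N) := coprime_of_primesNotDvd hNprime
  have hMNcop : (Nat.card M).Coprime (Nat.card N) :=
    Nat.Coprime.coprime_dvd_left (Subgroup.card_dvd_of_le hM) hFN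
  have hMnil : Group.IsNilpotent ↥M :=
    Cfsg.Agent.Lib.Helper30.isNilpotent_of_le hM (isNilpotent_fittingOf H)
  have hMsol : Group.IsSolvable ↥M := inferInstance
  -- Claim 2 for `q`-groups
  have hclaim2 : ∀ K : Subgroup G, K ≤ R → M ≤ Subgroup.normalizer (K : Set G) →
      IsPGroup q K → K ≤ N := by
    intro K hKR hMK hKq
    rw [hN]
    apply inv_le_piCoreOf_of_fitting hZH hF2 hM hCM hR hMR hXR hKR hMK
    obtain ⟨n, hn⟩ := IsPGroup.iff_card.mp hKq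
    rw [hn]
    exact Nat.Coprime.pow_left n ((Nat.Prime.coprime_iff_not_dvd hqp).mpr hq)
  -- members of `maxInvSubgroups` are `M`-invariant Sylow `q`-subgroups of `N`
  have hmem : ∀ Q' : Subgroup G, Q' ∈ maxInvSubgroups R M {q} →
      Q' ∈ sylSet q N ∧ M ≤ Subgroup.normalizer (Q' : Set G) := by
    intro Q' hQ'
    obtain ⟨⟨hQ'R, hQ'π, hMQ'⟩, hQ'max⟩ := hQ'
    have hQ'q : IsPGroup q Q' := isPGroup_of_primes hQ'π
    have hQ'N : Q' ≤ N := hclaim2 Q' hQ'R hMQ' hQ'q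
    obtain ⟨S, hS, hMS, hQ'S⟩ := exists_invariant_sylow_ge M N hMN hMNcop hMsol hQ'q hQ'N hMQ'
    have hSinv : S ∈ invSubgroups R M {q} :=
      ⟨hS.1.trans hNR, primes_of_isPGroup (isPGroup_of_mem_sylSet hS), hMS⟩
    have hSQ' : S = Q' := hQ'max S hSinv hQ'S
    rw [← hSQ']
    exact ⟨hS, hMS⟩
  obtain ⟨Q₀, hQ₀syl, hMQ₀⟩ := exists_invariant_sylow (q := q) M N hMN hMNcop hMsol
  have hQ₀max : Q₀ ∈ maxInvSubgroups R M {q} := by
    refine ⟨⟨hQ₀syl.1.trans hNR, primes_of_isPGroup (isPGroup_of_mem_sylSet hQ₀syl), hMQ₀⟩, ?_⟩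
    intro Y hY hle
    obtain ⟨hYR, hYπ, hMY⟩ := hY
    have hYq : IsPGroup q Y := isPGroup_of_primes hYπ
    exact sylSet_eq_of_le hQ₀syl hYq (hclaim2 Y hYR hMY hYq) hle
  have hΦ : ∀ Q' : Subgroup G, Q' ∈ maxInvSubgroups R M {q} →
      Q' ≤ N ∧ ¬ q ∣ Q'.relIndex N := by
    intro Q' hQ'
    obtain ⟨hsyl, -⟩ := hmem Q' hQ'
    refine ⟨hsyl.1, ?_⟩
    have h1 := Cfsg.Agent.Lib.Helper30.card_eq_card_mul_relIndex hsyl.1
    rw [hsyl.2] at h1
    have h2 : Nat.card N / q ^ (Nat.card N).factorization q = Q'.relIndex N :=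
      Nat.div_eq_of_eq_mul_right (pow_pos hqp.pos _) h1
    rw [← h2]
    exact Nat.not_dvd_ordCompl hqp Nat.card_pos.ne'
  refine ⟨Q₀, ⟨hQ₀max, hΦ⟩, ?_⟩
  rintro Q ⟨hQmax, -⟩
  obtain ⟨hQsyl, hMQ⟩ := hmem Q hQmax
  obtain ⟨c, hcN, hcM, hcQ⟩ := invariant_sylow_conj M N hMN hMNcop hMsol hQ₀syl hQsyl hMQ₀ hMQ
  -- `c = 1`
  obtain ⟨p, hpm⟩ : ∃ p, p ∈ (Nat.card (fittingOf H)).primeFactors :=
    Finset.card_pos.mp (by omega)
  have hp : p.Prime := Nat.prime_of_mem_primeFactors hpm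
  have hpF : p ∣ Nat.card (fittingOf H) := Nat.dvd_of_mem_primeFactors hpm
  have : Fact p.Prime := ⟨hp⟩
  have hZM : zOf p H ≤ M := by
    intro z hz
    exact hCM (Subgroup.mem_inf.mpr ⟨zOf_le_fittingOf p H hz,
      (Subgroup.centralizer_le (show (M : Set G) ⊆ fittingOf H from hM)) hz.2⟩)
  have h1 := inf_centralizer_zOf_eq_bot hM hCM hR hXR hNR hMN hFN.symm p (hZH p hp hpF)
  have hc : c ∈ N ⊓ Subgroup.centralizer (zOf p H : Set G) := by
    refine Subgroup.mem_inf.mpr ⟨hcN, ?_⟩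
    rw [Subgroup.mem_centralizer_iff]
    intro z hz
    exact hcM z (hZM hz)
  rw [h1, Subgroup.mem_bot] at hc
  rw [← hcQ, hc, cj_one]

end Final

end Cfsg.Agent.Lib.Helper32
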