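import Cfsg.Agent.Lib.Helper32.FitSub

set_option autoImplicit false
open Cfsg

namespace Cfsg.Agent.Lib.Helper32

section F1

/-- In a finite solvable group `Λ`, a `p`-element `u` centralizing `O_s(Λ)` for every prime
`s ≠ p` commutes with every `p'`-element `x` centralizing `O_p(Λ)`. -/
theorem commute_of_centralize_cores_type (Λ : Type*) [Group Λ] [Finite Λ] [Group.IsSolvable Λ]
    (p : ℕ) [Fact p.Prime] {u x : Λ} (hu : ∃ a : ℕ, u ^ p ^ a = 1)
    (hus : ∀ s : ℕ, s.Prime → s ≠ p → ∀ b ∈ pCore s Λ, u * b = b * u)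
    (hx : ∀ b ∈ pCore p Λ, x * b = b * x)
    (hxn : ∃ n : ℕ, n.Coprime p ∧ x ^ n = 1) : u * x = x * u := by
  have hp := (Fact.out : p.Prime)
  have hSn : (pCore p Λ).Normal := Cfsg.Agent.Lib.Helper30.pCore_normal p Λ
  obtain ⟨c, hc⟩ : ∃ c : Λ, c = u⁻¹ * x⁻¹ * u * x := ⟨_, rfl⟩
  -- `c` centralizes every core
  have hcs : ∀ s : ℕ, s.Prime → ∀ b ∈ pCore s Λ, c * b = b * c := by
    intro s hs b hb
    have hsn : (pCore s Λ).Normal := Cfsg.Agent.Lib.Helper30.pCore_normal s Λ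
    by_cases hsp : s = p
    · subst hsp
      have h1 := hx b hb
      have h2 := hx (u * b * u⁻¹) (hsn.conj_mem b hb u)
      have h2' : x⁻¹ * (u * b * u⁻¹) = (u * b * u⁻¹) * x⁻¹ := by
        calc x⁻¹ * (u * b * u⁻¹) = x⁻¹ * ((u * b * u⁻¹) * x) * x⁻¹ := by group
          _ = x⁻¹ * (x * (u * b * u⁻¹)) * x⁻¹ := by rw [h2]
          _ = (u * b * u⁻¹) * x⁻¹ := by group
      calc c * b = u⁻¹ * x⁻¹ * u * (x * b) := by rw [hc]; group
        _ = u⁻¹ * x⁻¹ * u * (b * x) := by rw [h1]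
        _ = u⁻¹ * (x⁻¹ * (u * b * u⁻¹)) * u * x := by group
        _ = u⁻¹ * ((u * b * u⁻¹) * x⁻¹) * u * x := by rw [h2']
        _ = b * c := by rw [hc]; group
    · have h1 := hus s hs hsp b hb
      have h2 := hus s hs hsp (x * b * x⁻¹) (hsn.conj_mem b hb x)
      have h1' : u⁻¹ * b = b * u⁻¹ := by
        calc u⁻¹ * b = u⁻¹ * (b * u) * u⁻¹ := by group
          _ = u⁻¹ * (u * b) * u⁻¹ := by rw [h1]
          _ = b * u⁻¹ := by group
      calc c * b = u⁻¹ * x⁻¹ * (u * (x * b * x⁻¹)) * x := by rw [hc]; group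
        _ = u⁻¹ * x⁻¹ * ((x * b * x⁻¹) * u) * x := by rw [h2]
        _ = (u⁻¹ * b) * x⁻¹ * u * x := by group
        _ = (b * u⁻¹) * x⁻¹ * u * x := by rw [h1']
        _ = b * c := by rw [hc]; group
  -- hence `c` centralizes the Fitting subgroup, so lies in it
  have hcK : c ∈ Subgroup.centralizer (fittingSubgroup Λ : Set Λ) := by
    rw [Subgroup.mem_centralizer_iff]
    intro f hf
    have hf' : f ∈ Subgroup.centralizer ({c} : Set Λ) := by
      apply Cfsg.Agent.Lib.Helper34.mem_of_prime_pow_mem'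
      rintro d hd ⟨r, k, hr, hdk⟩
      have hdF : d ∈ fittingSubgroup Λ := (Subgroup.zpowers_le.mpr hf) hd
      have : Fact r.Prime := ⟨hr⟩
      have hdr : d ∈ pCore r Λ := Cfsg.Agent.Lib.Helper29.mem_pCore_of_mem_fitting r hdF hdk
      rw [Subgroup.mem_centralizer_iff]
      intro y hy
      rw [Set.mem_singleton_iff] at hy
      subst hy
      exact hcs r hr d hdr
    exact (Subgroup.mem_centralizer_iff.mp hf' c rfl).symm
  have hcF : c ∈ fittingSubgroup Λ := centralizer_fitting_le_of_solvable Λ hcK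
  -- decompose `c = a * b`
  have hdec := Cfsg.Agent.Lib.Helper29.fitting_le_pCore_sup (H := Λ) p hcF
  obtain ⟨a, ha, b, hb, hab⟩ : ∃ a ∈ pCore p Λ, ∃ b ∈ pPrimeCore p Λ ⊓ fittingSubgroup Λ,
      a * b = c := by
    have h1 : c ∈ ((pCore p Λ ⊔ (pPrimeCore p Λ ⊓ fittingSubgroup Λ) : Subgroup Λ) : Set Λ) := hdec
    rw [Subgroup.normal_mul] at h1
    exact Set.mem_mul.mp h1
  have hub : u * b = b * u := by
    have hb' : b ∈ Subgroup.centralizer ({u} : Set Λ) := by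
      apply Cfsg.Agent.Lib.Helper34.mem_of_prime_pow_mem'
      rintro d hd ⟨r, k, hr, hdk⟩
      have hdF : d ∈ fittingSubgroup Λ := (Subgroup.zpowers_le.mpr hb.2) hd
      have hdP : d ∈ pPrimeCore p Λ := (Subgroup.zpowers_le.mpr hb.1) hd
      have : Fact r.Prime := ⟨hr⟩
      have hdr : d ∈ pCore r Λ := Cfsg.Agent.Lib.Helper29.mem_pCore_of_mem_fitting r hdF hdk
      rw [Subgroup.mem_centralizer_iff]
      intro y hy
      rw [Set.mem_singleton_iff] at hy
      subst hy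
      by_cases hrp : r = p
      · subst hrp
        have h3 : d ∈ pPrimeCore r Λ ⊓ pCore r Λ := ⟨hdP, hdr⟩
        rw [Cfsg.Agent.Lib.Helper30.pPrimeCore_inf_pCore, Subgroup.mem_bot] at h3
        rw [h3, mul_one, one_mul]
      · exact hus r hr hrp d hdr
    exact Subgroup.mem_centralizer_iff.mp hb' u rfl
  have hab' : a * b = b * a := (Cfsg.Agent.Lib.Helper30.pPrimeCore_commute_pCore p b hb.1 a ha).eq.symm
  obtain ⟨au, hau⟩ := hu
  have hzp : IsPGroup p (Subgroup.zpowers u) := by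
    rintro ⟨y, hy⟩
    obtain ⟨n, rfl⟩ := Subgroup.mem_zpowers_iff.mp hy
    refine ⟨au, Subtype.ext ?_⟩
    show (u ^ n) ^ p ^ au = 1
    rw [← zpow_natCast, ← zpow_mul, mul_comm, zpow_mul, zpow_natCast, hau, one_zpow]
  have hSU : IsPGroup p (pCore p Λ ⊔ Subgroup.zpowers u : Subgroup Λ) := by
    apply IsPGroup.to_sup_of_normal_left' (Cfsg.Agent.Lib.Helper30.pCore_isPGroup p) hzp
    rw [Subgroup.normalizer_eq_top_iff.mpr hSn]
    exact le_top
  obtain ⟨j, hj⟩ := exists_pow_eq_one_of_mem hSU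
    (Subgroup.mul_mem _ (Subgroup.mem_sup_right (Subgroup.mem_zpowers u)) (Subgroup.mem_sup_left ha))
  have hrel : x⁻¹ * u * x = (u * a) * b := by
    rw [mul_assoc u a b, hab, hc]; group
  have hbm : b ^ Nat.card (pPrimeCore p Λ) = 1 := pow_card_eq_one_of_mem'' _ hb.1
  have hm : (Nat.card (pPrimeCore p Λ)).Coprime p := Cfsg.Agent.Lib.Helper30.pPrimeCore_coprime p
  have h1 : (x⁻¹ * u * x) ^ p ^ (au + j) = 1 := by
    have e : x⁻¹ * u * x = x⁻¹ * u * x⁻¹⁻¹ := by rw [inv_inv]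
    rw [e, conj_pow, pow_add, pow_mul, hau, one_pow]
    group
  have hcomm : Commute (u * a) b := by
    show u * a * b = b * (u * a)
    rw [mul_assoc, hab', ← mul_assoc, hub, mul_assoc]
  have h2 : (u * a) ^ p ^ (au + j) = 1 := by
    rw [pow_add, mul_comm, pow_mul, hj, one_pow]
  have hb1 : b ^ p ^ (au + j) = 1 := by
    have h3 := hcomm.mul_pow (p ^ (au + j))
    rw [← hrel, h1, h2, one_mul] at h3
    exact h3.symm
  have hb0 : b = 1 := by
    have h3 : orderOf b ∣ p ^ (au + j) := orderOf_dvd_of_pow_eq_one hb1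
    have h4 : orderOf b ∣ Nat.card (pPrimeCore p Λ) := orderOf_dvd_of_pow_eq_one hbm
    have h5 : orderOf b ∣ 1 := by
      have h6 := Nat.dvd_gcd h3 h4
      rwa [Nat.Coprime.gcd_eq_one (Nat.Coprime.pow_left _ hm.symm)] at h6
    exact orderOf_eq_one_iff.mp (Nat.dvd_one.mp h5)
  have hca : c = a := by rw [← hab, hb0, mul_one]
  have hxc : x * c = c * x := by rw [hca]; exact hx a ha
  have hrel2 : u⁻¹ * x * u = x * c⁻¹ := by
    rw [hc]; group
  obtain ⟨n, hn, hxn'⟩ := hxn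
  have hcn : c ^ n = 1 := by
    have hcomm2 : Commute x c⁻¹ := Commute.inv_right (show Commute x c from hxc)
    have h6 : (u⁻¹ * x * u) ^ n = 1 := by
      have e : u⁻¹ * x * u = u⁻¹ * x * u⁻¹⁻¹ := by rw [inv_inv]
      rw [e, conj_pow, hxn']
      group
    rw [hrel2, hcomm2.mul_pow, hxn', one_mul, inv_pow, inv_eq_one] at h6
    exact h6
  have hc1 : c = 1 := by
    obtain ⟨i, hi⟩ := exists_pow_eq_one_of_mem (Cfsg.Agent.Lib.Helper30.pCore_isPGroup (G := Λ) p)
      (hca ▸ ha : c ∈ pCore p Λ)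
    have h3 : orderOf c ∣ p ^ i := orderOf_dvd_of_pow_eq_one hi
    have h4 : orderOf c ∣ n := orderOf_dvd_of_pow_eq_one hcn
    have h5 : orderOf c ∣ 1 := by
      have h6 := Nat.dvd_gcd h3 h4
      rwa [Nat.Coprime.gcd_eq_one (Nat.Coprime.pow_left _ hn.symm)] at h6
    exact orderOf_eq_one_iff.mp (Nat.dvd_one.mp h5)
  have h7 : u⁻¹ * x⁻¹ * u * x = 1 := by rw [← hc, hc1]
  calc u * x = x * u * (u⁻¹ * x⁻¹ * u * x) := by group
    _ = x * u := by rw [h7, mul_one]

variable {G : Type*} [Group G] [Finite G]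

/-- Subgroup version of `commute_of_centralize_cores_type`. -/
theorem commute_of_centralize_cores {L : Subgroup G} (hs : Group.IsSolvable ↥L)
    (p : ℕ) [Fact p.Prime] {u x : G} (huL : u ∈ L) (hxL : x ∈ L) (hu : ∃ a : ℕ, u ^ p ^ a = 1)
    (hus : ∀ s : ℕ, s.Prime → s ≠ p → ∀ b ∈ pCoreOf s L, u * b = b * u)
    (hx : ∀ b ∈ pCoreOf p L, x * b = b * x)
    (hxn : ∃ n : ℕ, n.Coprime p ∧ x ^ n = 1) : u * x = x * u := by
  have key := commute_of_centralize_cores_type ↥L p (u := ⟨u, huL⟩) (x := ⟨x, hxL⟩) ?_ ?_ ?_ ?_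
  · exact congrArg Subtype.val key
  · obtain ⟨a, ha⟩ := hu
    exact ⟨a, Subtype.ext (by simpa using ha)⟩
  · intro s hs' hsp b hb
    exact Subtype.ext (hus s hs' hsp b ⟨b, hb, rfl⟩)
  · intro b hb
    exact Subtype.ext (hx b ⟨b, hb, rfl⟩)
  · obtain ⟨n, hn, hxn'⟩ := hxn
    exact ⟨n, hn, Subtype.ext (by simpa using hxn')⟩

omit [Finite G] in
theorem le_normalizer_closure {A : Subgroup G} {T : Set G}
    (h : ∀ a ∈ A, ∀ x ∈ T, a * x * a⁻¹ ∈ T) :
    A ≤ Subgroup.normalizer (Subgroup.closure T : Set G) := by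
  rw [Subgroup.le_normalizer_iff]
  intro a ha y hy
  induction hy using Subgroup.closure_induction with
  | mem x hx => exact Subgroup.subset_closure (h a ha x hx)
  | one => simp
  | mul x y _ _ hx hy =>
    have e : a * (x * y) * a⁻¹ = (a * x * a⁻¹) * (a * y * a⁻¹) := by group
    rw [e]
    exact Subgroup.mul_mem _ hx hy
  | inv x _ hx =>
    have e : a * x⁻¹ * a⁻¹ = (a * x * a⁻¹)⁻¹ := by group
    rw [e]
    exact Subgroup.inv_mem _ hx

omit [Finite G] in
theorem orderOf_conj' (a x : G) : orderOf (a * x * a⁻¹) = orderOf x :=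
  orderOf_injective (MulAut.conj a).toMonoidHom (MulAut.conj a).injective x

end F1

end Cfsg.Agent.Lib.Helper32
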