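import Cfsg.Agent.Lib.Helper32.BenderU

set_option autoImplicit false
open Cfsg

namespace Cfsg.Agent.Lib.Helper32

section Uniq

variable {G : Type*} [Group G] [Finite G]

/-- **Bender's uniqueness lemma.** Let `G` be a finite simple group all of whose proper subgroups
are solvable, `H` a maximal subgroup whose Fitting subgroup `F` has at least two prime divisors,
and `M ⊇ Z(F)` a subgroup such that the only `M`-invariant subgroup of order coprime to `#F` is
trivial. Then `H` is the only maximal subgroup containing `M`. -/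
theorem coatom_unique_of_inv_trivial [IsSimpleGroup G]
    (hsolv : ∀ X : Subgroup G, X ≠ ⊤ → Group.IsSolvable X)
    (H : Subgroup G) (hH : IsCoatom H)
    (hF2 : 2 ≤ (Nat.card (fittingOf H)).primeFactors.card)
    (M : Subgroup G) (hZM : fittingOf H ⊓ Subgroup.centralizer (fittingOf H : Set G) ≤ M)
    (hinv : ∀ Y ∈ invSubgroups ⊤ M (primesNotDvd (Nat.card (fittingOf H))), Y = ⊥)
    (L : Subgroup G) (hL : IsCoatom L) (hML : M ≤ L) : L = H := by
  classical
  have hHs : Group.IsSolvable ↥H := hsolv H hH.1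
  have hLs : Group.IsSolvable ↥L := hsolv L hL.1
  have hπ : ∀ p ∈ (Nat.card (fittingOf H)).primeFactors, p.Prime ∧ p ∣ Nat.card (fittingOf H) :=
    fun p hp => ⟨Nat.prime_of_mem_primeFactors hp, Nat.dvd_of_mem_primeFactors hp⟩
  have hother : ∀ s : ℕ, ∃ p ∈ (Nat.card (fittingOf H)).primeFactors, p ≠ s :=
    fun s => Finset.exists_mem_ne (by omega) s
  have hNZ : ∀ p : ℕ, p.Prime → p ∣ Nat.card (fittingOf H) →
      Subgroup.centralizer (zOf p H : Set G) ≤ H := by
    intro p hp hd
    have : Fact p.Prime := ⟨hp⟩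
    exact (Subgroup.centralizer_le_normalizer _).trans
      (Cfsg.Agent.Lib.Helper29.normalizer_le_of_coatom hH (zOf_ne_bot p H hd) (zOf_le p H)
        (le_normalizer_zOf p H))
  have hZL : ∀ p : ℕ, p.Prime → zOf p H ≤ L := by
    intro p hp
    have : Fact p.Prime := ⟨hp⟩
    exact ((zOf_le_center p H).trans hZM).trans hML
  -- Step A: `O_q(L) = 1` for `q ∤ #F`
  have hA : ∀ q : ℕ, q.Prime → ¬ q ∣ Nat.card (fittingOf H) → pCoreOf q L = ⊥ := by
    intro q hq hqF
    apply hinv
    refine ⟨le_top, ?_, hML.trans (le_normalizer_pCoreOf q L)⟩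
    intro r hr hrd
    have : Fact q.Prime := ⟨hq⟩
    have hrq : r = q := by
      obtain ⟨n, hn⟩ := IsPGroup.iff_card.mp (isPGroup_pCoreOf q L)
      rw [hn] at hrd
      exact (Nat.prime_dvd_prime_iff_eq hr hq).mp (hr.dvd_of_dvd_pow hrd)
    rw [hrq]
    exact ⟨hq, hqF⟩
  -- Step B: `Z_p` centralizes `O_s(L)` for `p ≠ s`
  have hB : ∀ p s : ℕ, p.Prime → s.Prime → p ∣ Nat.card (fittingOf H) →
      s ∣ Nat.card (fittingOf H) → p ≠ s →
      ∀ z ∈ zOf p H, ∀ u ∈ pCoreOf s L, z * u = u * z := by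
    intro p s hp hs hpF hsF hps
    have : Fact p.Prime := ⟨hp⟩
    have : Fact s.Prime := ⟨hs⟩
    have key := Cfsg.Agent.Lib.Helper40.thompson_AxB (p := s) (zOf p H) (zOf s H)
      (isPGroup_zOf s H) (coprime_of_isPGroup_ne hps (isPGroup_zOf p H)) ?_
      (Nat.card (pCoreOf s L)) (pCoreOf s L) rfl (isPGroup_pCoreOf s L)
      ((hZL p hp).trans (le_normalizer_pCoreOf s L))
      ((hZL s hs).trans (le_normalizer_pCoreOf s L)) ?_
    · intro z hz u hu
      exact key u hu z hz
    · intro w hw y hy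
      exact zOf_commute hw (zOf_le_fittingOf s H hy)
    · intro u hu huR w hw
      have huH : u ∈ H := hNZ s hs hsF (by rw [Subgroup.mem_centralizer_iff]; exact huR)
      have hwL : w ∈ L := hZL p hp hw
      have hc1 : w * u * w⁻¹ * u⁻¹ ∈ zOf p H := by
        have h1 : u * w⁻¹ * u⁻¹ ∈ zOf p H :=
          (Subgroup.le_normalizer_iff.mp (le_normalizer_zOf p H)) u huH _ (Subgroup.inv_mem _ hw)
        have e : w * u * w⁻¹ * u⁻¹ = w * (u * w⁻¹ * u⁻¹) := by group
        rw [e]
        exact Subgroup.mul_mem _ hw h1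
      have hc2 : w * u * w⁻¹ * u⁻¹ ∈ pCoreOf s L := by
        have h1 : w * u * w⁻¹ ∈ pCoreOf s L :=
          (Subgroup.le_normalizer_iff.mp (le_normalizer_pCoreOf s L)) w hwL u hu
        exact Subgroup.mul_mem _ h1 (Subgroup.inv_mem _ hu)
      have hc := eq_one_of_mem_pgroups hps (isPGroup_zOf p H) (isPGroup_pCoreOf s L) hc1 hc2
      calc w * u = (w * u * w⁻¹ * u⁻¹) * (u * w) := by group
        _ = u * w := by rw [hc, one_mul]
  -- Step C: `F(L) ≤ H`
  have hC : fittingOf L ≤ H := by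
    apply fittingOf_le_of_pCoreOf_le
    intro s hs
    by_cases hsF : s ∣ Nat.card (fittingOf H)
    · obtain ⟨p, hpm, hps⟩ := hother s
      obtain ⟨hp, hpF⟩ := hπ p hpm
      intro u hu
      apply hNZ p hp hpF
      rw [Subgroup.mem_centralizer_iff]
      intro z hz
      exact hB p s hp hs hpF hsF hps z hz u hu
    · rw [hA s hs hsF]
      exact bot_le
  -- Step D: `O_p(L) ≠ 1` for `p ∣ #F`
  have hD : ∀ p : ℕ, p.Prime → p ∣ Nat.card (fittingOf H) → pCoreOf p L ≠ ⊥ := by
    intro p hp hpF hbot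
    have : Fact p.Prime := ⟨hp⟩
    have h1 : zOf p H ≤ Subgroup.centralizer (fittingOf L : Set G) := by
      rw [Subgroup.le_centralizer_iff]
      apply fittingOf_le_of_pCoreOf_le
      intro s hs u hu
      rw [Subgroup.mem_centralizer_iff]
      intro z hz
      by_cases hsp : s = p
      · subst hsp
        rw [hbot, Subgroup.mem_bot] at hu
        rw [hu, mul_one, one_mul]
      · by_cases hsF : s ∣ Nat.card (fittingOf H)
        · exact hB p s hp hs hpF hsF (Ne.symm hsp) z hz u hu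
        · rw [hA s hs hsF, Subgroup.mem_bot] at hu
          rw [hu, mul_one, one_mul]
    have h2 : zOf p H ≤ fittingOf L := fun z hz =>
      centralizer_fittingOf_le hLs ⟨hZL p hp hz, h1 hz⟩
    apply zOf_ne_bot p H hpF
    rw [eq_bot_iff]
    intro z hz
    obtain ⟨k, hk⟩ := exists_orderOf_eq_of_mem (isPGroup_zOf p H) hz
    have h3 := mem_pCoreOf_of_mem_fittingOf p (h2 hz) hk
    rwa [hbot] at h3
  have hNL : ∀ p : ℕ, p.Prime → p ∣ Nat.card (fittingOf H) →
      Subgroup.centralizer (pCoreOf p L : Set G) ≤ L := by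
    intro p hp hd
    exact (Subgroup.centralizer_le_normalizer _).trans
      (Cfsg.Agent.Lib.Helper29.normalizer_le_of_coatom hL (hD p hp hd) (pCoreOf_le p L)
        (le_normalizer_pCoreOf p L))
  -- Step E: `O_s(L)` centralizes `O_p(H)` for `p ≠ s`
  have hE : ∀ p s : ℕ, p.Prime → s.Prime → p ∣ Nat.card (fittingOf H) →
      s ∣ Nat.card (fittingOf H) → p ≠ s →
      ∀ w ∈ pCoreOf s L, ∀ u ∈ pCoreOf p H, w * u = u * w := by
    intro p s hp hs hpF hsF hps
    have : Fact p.Prime := ⟨hp⟩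
    have : Fact s.Prime := ⟨hs⟩
    have hsLH : pCoreOf s L ≤ H := (pCoreOf_le_fittingOf s L).trans hC
    have hpLH : pCoreOf p L ≤ H := (pCoreOf_le_fittingOf p L).trans hC
    have key := Cfsg.Agent.Lib.Helper40.thompson_AxB (p := p) (pCoreOf s L) (pCoreOf p L)
      (isPGroup_pCoreOf p L) (coprime_of_isPGroup_ne (Ne.symm hps) (isPGroup_pCoreOf s L)) ?_
      (Nat.card (pCoreOf p H)) (pCoreOf p H) rfl (isPGroup_pCoreOf p H)
      (hsLH.trans (le_normalizer_pCoreOf p H)) (hpLH.trans (le_normalizer_pCoreOf p H)) ?_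
    · intro w hw u hu
      exact key u hu w hw
    · intro w hw y hy
      exact pCoreOf_commute (Ne.symm hps) L hw hy
    · intro u hu huR w hw
      have huL : u ∈ L := hNL p hp hpF (by rw [Subgroup.mem_centralizer_iff]; exact huR)
      have hwH : w ∈ H := hsLH hw
      have hc1 : w * u * w⁻¹ * u⁻¹ ∈ pCoreOf s L := by
        have h1 : u * w⁻¹ * u⁻¹ ∈ pCoreOf s L :=
          (Subgroup.le_normalizer_iff.mp (le_normalizer_pCoreOf s L)) u huL _
            (Subgroup.inv_mem _ hw)
        have e : w * u * w⁻¹ * u⁻¹ = w * (u * w⁻¹ * u⁻¹) := by group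
        rw [e]
        exact Subgroup.mul_mem _ hw h1
      have hc2 : w * u * w⁻¹ * u⁻¹ ∈ pCoreOf p H := by
        have h1 : w * u * w⁻¹ ∈ pCoreOf p H :=
          (Subgroup.le_normalizer_iff.mp (le_normalizer_pCoreOf p H)) w hwH u hu
        exact Subgroup.mul_mem _ h1 (Subgroup.inv_mem _ hu)
      have hc := eq_one_of_mem_pgroups (Ne.symm hps) (isPGroup_pCoreOf s L)
        (isPGroup_pCoreOf p H) hc1 hc2
      calc w * u = (w * u * w⁻¹ * u⁻¹) * (u * w) := by group
        _ = u * w := by rw [hc, one_mul]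
  have hFL : fittingOf H ≤ L := by
    apply fittingOf_le_of_pCoreOf_le
    intro p hp
    have : Fact p.Prime := ⟨hp⟩
    by_cases hpF : p ∣ Nat.card (fittingOf H)
    · obtain ⟨s, hsm, hsp⟩ := hother p
      obtain ⟨hs, hsF⟩ := hπ s hsm
      intro u hu
      apply hNL s hs hsF
      rw [Subgroup.mem_centralizer_iff]
      intro w hw
      exact hE p s hp hs hpF hsF (Ne.symm hsp) w hw u hu
    · rw [pCoreOf_eq_bot_of_not_dvd p H hpF]
      exact bot_le
  -- Step F
  by_contra hne
  obtain ⟨p, hpm⟩ : ∃ p, p ∈ (Nat.card (fittingOf H)).primeFactors :=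
    Finset.card_pos.mp (by omega)
  obtain ⟨hp, hpF⟩ := hπ p hpm
  have : Fact p.Prime := ⟨hp⟩
  have hpHne : pCoreOf p H ≠ ⊥ := by
    intro h
    apply zOf_ne_bot p H hpF
    rw [eq_bot_iff, ← h]
    exact zOf_le_pCoreOf p H
  have hNH : Subgroup.centralizer (pCoreOf p H : Set G) ≤ H :=
    (Subgroup.centralizer_le_normalizer _).trans
      (Cfsg.Agent.Lib.Helper29.normalizer_le_of_coatom hH hpHne (pCoreOf_le p H)
        (le_normalizer_pCoreOf p H))
  have hcen1 : ∀ u ∈ pCoreOf p H, ∀ s : ℕ, s.Prime → s ≠ p →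
      ∀ b ∈ pCoreOf s L, u * b = b * u := by
    intro u hu s hs hsp b hb
    by_cases hsF : s ∣ Nat.card (fittingOf H)
    · exact (hE p s hp hs hpF hsF (Ne.symm hsp) b hb u hu).symm
    · rw [hA s hs hsF, Subgroup.mem_bot] at hb
      rw [hb, mul_one, one_mul]
  have hcen2 : ∀ u ∈ pCoreOf p L, ∀ s : ℕ, s.Prime → s ≠ p →
      ∀ b ∈ pCoreOf s H, u * b = b * u := by
    intro u hu s hs hsp b hb
    have : Fact s.Prime := ⟨hs⟩
    by_cases hsF : s ∣ Nat.card (fittingOf H)
    · exact hE s p hs hp hsF hpF hsp u hu b hb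
    · rw [pCoreOf_eq_bot_of_not_dvd s H hsF, Subgroup.mem_bot] at hb
      rw [hb, mul_one, one_mul]
  obtain ⟨T, hTdef⟩ : ∃ T : Set G,
      T = {x | x ∈ Subgroup.centralizer (pCoreOf p H : Set G) ∧ ¬ p ∣ orderOf x} := ⟨_, rfl⟩
  have hT : T = {x | x ∈ Subgroup.centralizer (pCoreOf p L : Set G) ∧ ¬ p ∣ orderOf x} := by
    rw [hTdef]
    ext x
    constructor
    · rintro ⟨hx, hxo⟩
      refine ⟨?_, hxo⟩
      have hxH : x ∈ H := hNH hx
      rw [Subgroup.mem_centralizer_iff]
      intro u hu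
      apply commute_of_centralize_cores hHs p ((pCoreOf_le_fittingOf p L).trans hC hu) hxH
        (exists_pow_eq_one_of_mem (isPGroup_pCoreOf p L) hu) (hcen2 u hu) ?_
        ⟨orderOf x, ((Nat.Prime.coprime_iff_not_dvd hp).mpr hxo).symm, pow_orderOf_eq_one x⟩
      intro b hb
      exact (Subgroup.mem_centralizer_iff.mp hx b hb).symm
    · rintro ⟨hx, hxo⟩
      refine ⟨?_, hxo⟩
      have hxL : x ∈ L := hNL p hp hpF hx
      rw [Subgroup.mem_centralizer_iff]
      intro u hu
      apply commute_of_centralize_cores hLs p (hFL (pCoreOf_le_fittingOf p H hu)) hxL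
        (exists_pow_eq_one_of_mem (isPGroup_pCoreOf p H) hu) (hcen1 u hu) ?_
        ⟨orderOf x, ((Nat.Prime.coprime_iff_not_dvd hp).mpr hxo).symm, pow_orderOf_eq_one x⟩
      intro b hb
      exact (Subgroup.mem_centralizer_iff.mp hx b hb).symm
  have hHT : H ≤ Subgroup.normalizer (Subgroup.closure T : Set G) := by
    apply le_normalizer_closure
    intro a ha x hx
    rw [hTdef] at hx ⊢
    obtain ⟨hx, hxo⟩ := hx
    refine ⟨?_, ?_⟩
    · have h1 := Cfsg.Agent.Lib.Helper29.normalizer_le_normalizer_centralizer (pCoreOf p H)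
        (le_normalizer_pCoreOf p H ha)
      exact (Subgroup.mem_normalizer_iff.mp h1 x).mp hx
    · rw [orderOf_conj']
      exact hxo
  have hLT : L ≤ Subgroup.normalizer (Subgroup.closure T : Set G) := by
    apply le_normalizer_closure
    intro a ha x hx
    rw [hT] at hx ⊢
    obtain ⟨hx, hxo⟩ := hx
    refine ⟨?_, ?_⟩
    · have h1 := Cfsg.Agent.Lib.Helper29.normalizer_le_normalizer_centralizer (pCoreOf p L)
        (le_normalizer_pCoreOf p L ha)
      exact (Subgroup.mem_normalizer_iff.mp h1 x).mp hx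
    · rw [orderOf_conj']
      exact hxo
  have htop : H ⊔ L = ⊤ := by
    apply hH.2
    apply lt_of_le_of_ne le_sup_left
    intro h
    have hLH : L ≤ H := by
      rw [h]
      exact le_sup_right
    rcases eq_or_lt_of_le hLH with h1 | h1
    · exact hne h1
    · exact hH.1 (hL.2 H h1)
  have hnorm : (Subgroup.closure T).Normal := by
    rw [← Subgroup.normalizer_eq_top_iff, eq_top_iff, ← htop]
    exact sup_le hHT hLT
  rcases hnorm.eq_bot_or_eq_top with h | h
  · obtain ⟨s, hsm, hsp⟩ := hother p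
    obtain ⟨hs, hsF⟩ := hπ s hsm
    have : Fact s.Prime := ⟨hs⟩
    apply zOf_ne_bot s H hsF
    rw [eq_bot_iff]
    intro z hz
    have hzT : z ∈ T := by
      rw [hTdef]
      refine ⟨?_, ?_⟩
      · rw [Subgroup.mem_centralizer_iff]
        intro b hb
        exact (zOf_commute hz (pCoreOf_le_fittingOf p H hb)).symm
      · obtain ⟨k, hk⟩ := exists_orderOf_eq_of_mem (isPGroup_zOf s H) hz
        rw [hk]
        intro hdvd
        exact hsp ((Nat.prime_dvd_prime_iff_eq hp hs).mp (hp.dvd_of_dvd_pow hdvd)).symm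
    have h2 := Subgroup.subset_closure hzT
    rwa [h] at h2
  · apply hH.1
    rw [eq_top_iff, ← h, Subgroup.closure_le]
    intro x hx
    rw [hTdef] at hx
    exact hNH hx.1

end Uniq

end Cfsg.Agent.Lib.Helper32
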