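import Cfsg.Agent.Lib.Helper32.BnR

set_option autoImplicit false
open Cfsg

namespace Cfsg.Agent.Lib.Helper32.Bn

section LemmaQ

/-- **Abstract quotient lemma.** `N` a normal subgroup of `𝔾` which is the largest normal
`π'`-subgroup of the solvable subgroup `R`; `Z p` (`p ∈ π`) commuting `p`-subgroups normalizing
`R` and the `π'`-subgroup `K ≤ R`, such that `C(Z s)` normalizes `Z p` for `p ≠ s` and no
nontrivial element of `K N` centralizes any `Z p`. Then `K ≤ N`. -/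
theorem inv_le_of_quot_fitting {𝔾 : Type*} [Group 𝔾] [Finite 𝔾] (N R K : Subgroup 𝔾)
    [hNn : N.Normal] (hKR : K ≤ R) (hRs : Group.IsSolvable ↥R)
    (π : Finset ℕ) (hπ : ∀ p ∈ π, p.Prime) (hπ2 : ∀ s : ℕ, ∃ p ∈ π, p ≠ s)
    (Z : ℕ → Subgroup 𝔾) (hZp : ∀ p ∈ π, IsPGroup p (Z p))
    (hZR : ∀ p ∈ π, Z p ≤ Subgroup.normalizer (R : Set 𝔾))
    (hZK : ∀ p ∈ π, Z p ≤ Subgroup.normalizer (K : Set 𝔾))
    (hZcomm : ∀ p ∈ π, ∀ s ∈ π, ∀ a ∈ Z p, ∀ b ∈ Z s, a * b = b * a)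
    (hNcop : ∀ p ∈ π, (Nat.card N).Coprime p) (hKcop : ∀ p ∈ π, (Nat.card K).Coprime p)
    (hNmax : ∀ T : Subgroup 𝔾, T ≤ R → R ≤ Subgroup.normalizer (T : Set 𝔾) →
      (∀ p ∈ π, (Nat.card T).Coprime p) → T ≤ N)
    (h1 : ∀ p ∈ π, (K ⊔ N) ⊓ Subgroup.centralizer (Z p : Set 𝔾) = ⊥)
    (h2 : ∀ p ∈ π, ∀ s ∈ π, p ≠ s →
      Subgroup.centralizer (Z s : Set 𝔾) ≤ Subgroup.normalizer (Z p : Set 𝔾)) :
    K ≤ N := by
  classical
  obtain ⟨φ, hφ⟩ : ∃ φ : 𝔾 →* 𝔾 ⧸ N, φ = QuotientGroup.mk' N := ⟨_, rfl⟩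
  have hφ1 : ∀ g : 𝔾, φ g = 1 ↔ g ∈ N := by
    intro g
    rw [hφ]
    exact QuotientGroup.eq_one_iff g
  have hcard : ∀ S : Subgroup (𝔾 ⧸ N), Nat.card ↥(S.comap φ) = Nat.card N * Nat.card S := by
    intro S
    rw [hφ]
    exact Cfsg.Agent.Lib.Helper30.card_comap_mk' N S
  clear hφ
  obtain ⟨Rb, hRb⟩ : ∃ Rb : Subgroup (𝔾 ⧸ N), Rb = R.map φ := ⟨_, rfl⟩
  obtain ⟨Kb, hKb⟩ : ∃ Kb : Subgroup (𝔾 ⧸ N), Kb = K.map φ := ⟨_, rfl⟩
  have hRbs : Group.IsSolvable ↥Rb := by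
    rw [hRb]
    exact Group.isSolvable_of_surjective (f := φ.subgroupMap R) (φ.subgroupMap_surjective R)
  have hKbRb : Kb ≤ Rb := by
    rw [hRb, hKb]
    exact Subgroup.map_mono hKR
  have hKbcop : ∀ p ∈ π, (Nat.card Kb).Coprime p := by
    intro p hp
    rw [hKb]
    exact Nat.Coprime.coprime_dvd_left (Subgroup.card_map_dvd K _) (hKcop p hp)
  have hZRb : ∀ p ∈ π, (Z p).map φ ≤ Subgroup.normalizer (Rb : Set (𝔾 ⧸ N)) := by
    intro p hp
    rw [hRb]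
    exact (Subgroup.map_mono (hZR p hp)).trans (Subgroup.le_normalizer_map _)
  have hZKb : ∀ p ∈ π, (Z p).map φ ≤ Subgroup.normalizer (Kb : Set (𝔾 ⧸ N)) := by
    intro p hp
    rw [hKb]
    exact (Subgroup.map_mono (hZK p hp)).trans (Subgroup.le_normalizer_map _)
  have hZS : ∀ p ∈ π, ∀ s : ℕ,
      (Z p).map φ ≤ Subgroup.normalizer (pCoreOf s Rb : Set (𝔾 ⧸ N)) :=
    fun p hp s => (hZRb p hp).trans (normalizer_le_normalizer_pCoreOf s Rb)
  -- (a) the image of `Z p` centralizes `O_s(R/N)` for `p ≠ s`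
  have ha : ∀ p ∈ π, ∀ s ∈ π, p ≠ s →
      ∀ z ∈ (Z p).map φ, ∀ u ∈ pCoreOf s Rb, z * u = u * z := by
    intro p hp s hs hps
    have : Fact p.Prime := ⟨hπ p hp⟩
    have : Fact s.Prime := ⟨hπ s hs⟩
    have key := Cfsg.Agent.Lib.Helper40.thompson_AxB (p := s) ((Z p).map φ) ((Z s).map φ)
      ((hZp s hs).map φ) (coprime_of_isPGroup_ne hps ((hZp p hp).map φ)) ?_
      (Nat.card (pCoreOf s Rb)) (pCoreOf s Rb) rfl (isPGroup_pCoreOf s Rb)
      (hZS p hp s) (hZS s hs s) ?_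
    · intro z hz u hu
      exact key u hu z hz
    · rintro _ ⟨a, ha, rfl⟩ _ ⟨b, hb, rfl⟩
      rw [← map_mul, ← map_mul, hZcomm p hp s hs a ha b hb]
    · intro u hu huR w hw
      have huRb : u ∈ R.map φ := by
        rw [← hRb]
        exact pCoreOf_le s Rb hu
      obtain ⟨y₀, -, hy₀u⟩ := huRb
      have hx : ∀ a ∈ Z s, y₀⁻¹ * (a * y₀ * a⁻¹) ∈ N := by
        intro a ha
        rw [← hφ1]
        have h := huR (φ a) (Subgroup.mem_map_of_mem φ ha)
        simp only [map_mul, map_inv]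
        rw [hy₀u, h]
        group
      obtain ⟨n, hn, hyn⟩ := exists_lift_centralizing (hZp s hs) N (hNcop s hs) hx
      obtain ⟨y, hyc, hyu⟩ : ∃ y : 𝔾, y ∈ Subgroup.centralizer (Z s : Set 𝔾) ∧ φ y = u :=
        ⟨y₀ * n, hyn, by rw [map_mul, (hφ1 n).mpr hn, mul_one, hy₀u]⟩
      subst hyu
      have hyN : y ∈ Subgroup.normalizer (Z p : Set 𝔾) := h2 p hp s hs hps hyc
      obtain ⟨z, hz, rfl⟩ := hw
      have hc1 : φ z * φ y * (φ z)⁻¹ * (φ y)⁻¹ ∈ (Z p).map φ := by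
        refine ⟨z * (y * z⁻¹ * y⁻¹), Subgroup.mul_mem _ hz
          ((Subgroup.mem_normalizer_iff.mp hyN z⁻¹).mp (Subgroup.inv_mem _ hz)), ?_⟩
        simp only [map_mul, map_inv]
        group
      have hc2 : φ z * φ y * (φ z)⁻¹ * (φ y)⁻¹ ∈ pCoreOf s Rb := by
        have h3 : φ z * φ y * (φ z)⁻¹ ∈ pCoreOf s Rb :=
          (Subgroup.mem_normalizer_iff.mp (hZS p hp s (Subgroup.mem_map_of_mem φ hz)) (φ y)).mp hu
        exact Subgroup.mul_mem _ h3 (Subgroup.inv_mem _ hu)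
      have hc := eq_one_of_mem_pgroups hps ((hZp p hp).map φ) (isPGroup_pCoreOf s Rb) hc1 hc2
      calc φ z * φ y = (φ z * φ y * (φ z)⁻¹ * (φ y)⁻¹) * (φ y * φ z) := by group
        _ = φ y * φ z := by rw [hc, one_mul]
  -- (b) the image of `K` centralizes `O_s(R/N)` for `s ∈ π`
  have hb : ∀ s ∈ π, Kb ≤ Subgroup.centralizer (pCoreOf s Rb : Set (𝔾 ⧸ N)) := by
    intro s hs
    obtain ⟨p, hp, hps⟩ := hπ2 s
    have : Fact p.Prime := ⟨hπ p hp⟩
    intro kb hkb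
    have hAN : (Z p).map φ ≤ Subgroup.normalizer
        ((Kb ⊓ Subgroup.centralizer (pCoreOf s Rb : Set (𝔾 ⧸ N)) : Subgroup (𝔾 ⧸ N)) :
          Set (𝔾 ⧸ N)) :=
      Cfsg.Agent.Lib.Helper29.le_normalizer_inf' (hZKb p hp)
        ((hZS p hp s).trans (Cfsg.Agent.Lib.Helper29.normalizer_le_normalizer_centralizer _))
    have hCcop : (Nat.card ↥(Kb ⊓ Subgroup.centralizer
        (pCoreOf s Rb : Set (𝔾 ⧸ N)))).Coprime p :=
      Nat.Coprime.coprime_dvd_left (Subgroup.card_dvd_of_le inf_le_left) (hKbcop p hp)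
    have hg : ∀ a ∈ (Z p).map φ, kb⁻¹ * (a * kb * a⁻¹) ∈
        (Kb ⊓ Subgroup.centralizer (pCoreOf s Rb : Set (𝔾 ⧸ N)) : Subgroup (𝔾 ⧸ N)) := by
      intro a ha'
      refine Subgroup.mem_inf.mpr ⟨?_, ?_⟩
      · exact Subgroup.mul_mem _ (Subgroup.inv_mem _ hkb)
          ((Subgroup.mem_normalizer_iff.mp (hZKb p hp ha') kb).mp hkb)
      · have hacen : a ∈ Subgroup.centralizer (pCoreOf s Rb : Set (𝔾 ⧸ N)) := by
          rw [Subgroup.mem_centralizer_iff]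
          intro u hu
          exact (ha p hp s hs hps a ha' u hu).symm
        have hkbN : kb⁻¹ ∈ Subgroup.normalizer
            ((Subgroup.centralizer (pCoreOf s Rb : Set (𝔾 ⧸ N)) : Subgroup (𝔾 ⧸ N)) :
              Set (𝔾 ⧸ N)) :=
          Cfsg.Agent.Lib.Helper29.normalizer_le_normalizer_centralizer _
            (Subgroup.inv_mem _ (le_normalizer_pCoreOf s Rb (hKbRb hkb)))
        have h3 : kb⁻¹ * a * kb⁻¹⁻¹ ∈ Subgroup.centralizer (pCoreOf s Rb : Set (𝔾 ⧸ N)) :=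
          (Subgroup.mem_normalizer_iff.mp hkbN a).mp hacen
        have e : kb⁻¹ * (a * kb * a⁻¹) = (kb⁻¹ * a * kb⁻¹⁻¹) * a⁻¹ := by group
        rw [e]
        exact Subgroup.mul_mem _ h3 (Subgroup.inv_mem _ hacen)
    obtain ⟨n, hn, hfix⟩ := coset_fixed_elt p ((hZp p hp).map φ) hAN hCcop kb hg
    have hkn : kb * n = 1 := by
      have hknK : kb * n ∈ K.map φ := by
        rw [← hKb]
        exact Subgroup.mul_mem _ hkb (Subgroup.mem_inf.mp hn).1
      obtain ⟨k', hk', hk'e⟩ := hknK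
      have hx : ∀ a ∈ Z p, k'⁻¹ * (a * k' * a⁻¹) ∈ N := by
        intro a ha'
        rw [← hφ1]
        have h := hfix (φ a) (Subgroup.mem_map_of_mem φ ha')
        simp only [map_mul, map_inv]
        rw [hk'e, h]
        group
      obtain ⟨n', hn', hc⟩ := exists_lift_centralizing (hZp p hp) N (hNcop p hp) hx
      have h3 : k' * n' ∈ (K ⊔ N) ⊓ Subgroup.centralizer (Z p : Set 𝔾) :=
        Subgroup.mem_inf.mpr ⟨Subgroup.mul_mem _ (Subgroup.mem_sup_left hk')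
          (Subgroup.mem_sup_right hn'), hc⟩
      rw [h1 p hp, Subgroup.mem_bot] at h3
      have h4 : φ (k' * n') = φ k' := by rw [map_mul, (hφ1 n').mpr hn', mul_one]
      rw [← hk'e, ← h4, h3, map_one]
    have hkb' : kb = n⁻¹ := eq_inv_of_mul_eq_one_left hkn
    rw [hkb']
    exact Subgroup.inv_mem _ (Subgroup.mem_inf.mp hn).2
  -- (c) `O_q(R/N) = 1` for `q ∉ π`
  have hc : ∀ q : ℕ, q.Prime → q ∉ π → pCoreOf q Rb = ⊥ := by
    intro q hq hqπ
    have : Fact q.Prime := ⟨hq⟩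
    have hT : (pCoreOf q Rb).comap φ ⊓ R ≤ N := by
      apply hNmax _ inf_le_right
      · apply Cfsg.Agent.Lib.Helper29.le_normalizer_inf' _ Subgroup.le_normalizer
        intro r hr
        rw [Subgroup.mem_normalizer_iff]
        intro x
        rw [Subgroup.mem_comap, Subgroup.mem_comap, map_mul, map_mul, map_inv]
        have hrb : φ r ∈ Rb := by
          rw [hRb]
          exact Subgroup.mem_map_of_mem φ hr
        exact Subgroup.mem_normalizer_iff.mp (le_normalizer_pCoreOf q Rb hrb) (φ x)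
      · intro p hp
        have h3 : Nat.card ↥((pCoreOf q Rb).comap φ ⊓ R) ∣
            Nat.card N * Nat.card (pCoreOf q Rb) := by
          rw [← hcard]
          exact Subgroup.card_dvd_of_le inf_le_left
        apply Nat.Coprime.coprime_dvd_left h3
        apply Nat.Coprime.mul_left (hNcop p hp)
        have : Fact p.Prime := ⟨hπ p hp⟩
        have hqp : q ≠ p := by
          intro h
          rw [h] at hqπ
          exact hqπ hp
        exact coprime_of_isPGroup_ne hqp (isPGroup_pCoreOf q Rb)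
    rw [eq_bot_iff]
    intro u hu
    have huRb : u ∈ R.map φ := by
      rw [← hRb]
      exact pCoreOf_le q Rb hu
    obtain ⟨y, hyR, rfl⟩ := huRb
    rw [Subgroup.mem_bot, hφ1]
    exact hT (Subgroup.mem_inf.mpr ⟨Subgroup.mem_comap.mpr hu, hyR⟩)
  -- (d) the image of `K` lies in `F(R/N)`
  have hd : Kb ≤ fittingOf Rb := by
    intro kb hkb
    apply centralizer_fittingOf_le hRbs
    refine Subgroup.mem_inf.mpr ⟨hKbRb hkb, ?_⟩
    have h3 : fittingOf Rb ≤ Subgroup.centralizer (Kb : Set (𝔾 ⧸ N)) := by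
      apply fittingOf_le_of_pCoreOf_le
      intro s hs
      by_cases hsπ : s ∈ π
      · exact Subgroup.le_centralizer_iff.mp (hb s hsπ)
      · rw [hc s hs hsπ]
        exact bot_le
    exact Subgroup.le_centralizer_iff.mp h3 hkb
  -- (e) the image of `K` is trivial
  have he : Kb = ⊥ := by
    rw [eq_bot_iff]
    intro x hx
    apply Cfsg.Agent.Lib.Helper34.mem_of_prime_pow_mem' ⊥ x
    rintro c hcz ⟨r, k, hr, hck⟩
    have hcK : c ∈ Kb := (Subgroup.zpowers_le.mpr hx) hcz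
    have : Fact r.Prime := ⟨hr⟩
    have hcr : c ∈ pCoreOf r Rb := mem_pCoreOf_of_mem_fittingOf r (hd hcK) hck
    rw [Subgroup.mem_bot]
    by_cases hrπ : r ∈ π
    · exact eq_one_of_mem_of_mem (isPGroup_pCoreOf r Rb) (hKbcop r hrπ) hcr hcK
    · rw [hc r hr hrπ, Subgroup.mem_bot] at hcr
      exact hcr
  intro k hk
  rw [← hφ1]
  have h3 : φ k ∈ Kb := by
    rw [hKb]
    exact Subgroup.mem_map_of_mem φ hk
  rw [he, Subgroup.mem_bot] at h3
  exact h3

end LemmaQ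

end Cfsg.Agent.Lib.Helper32.Bn
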