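import Cfsg.Agent.Lib.Helper32.BnR2

set_option autoImplicit false
open Cfsg

namespace Cfsg.Agent.Lib.Helper32.Bn

section Claim2

variable {G : Type*} [Group G] [Finite G]

/-- **Claim 2.** `H` with `F = F(H)` having at least two prime divisors and `C_G(Z_p) ≤ H` for
each `p ∣ #F`; `C_F(M) ≤ M ≤ F`; `R` solvable, normalized by `M` and `C_H(F)`. Then every
`M`-invariant subgroup of `R` of order coprime to `#F` lies in `O_{π(F)'}(R)`. -/
theorem inv_le_piCoreOf_of_fitting {H M R K : Subgroup G}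
    (hZH : ∀ p : ℕ, p.Prime → p ∣ Nat.card (fittingOf H) →
      Subgroup.centralizer (zOf p H : Set G) ≤ H)
    (hF2 : 2 ≤ (Nat.card (fittingOf H)).primeFactors.card)
    (hM : M ≤ fittingOf H)
    (hCM : fittingOf H ⊓ Subgroup.centralizer (M : Set G) ≤ M)
    (hR : Group.IsSolvable ↥R) (hMR : M ≤ Subgroup.normalizer (R : Set G))
    (hXR : H ⊓ Subgroup.centralizer (fittingOf H : Set G) ≤ Subgroup.normalizer (R : Set G))
    (hKR : K ≤ R) (hMK : M ≤ Subgroup.normalizer (K : Set G))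
    (hcop : (Nat.card K).Coprime (Nat.card (fittingOf H))) :
    K ≤ piCoreOf (primesNotDvd (Nat.card (fittingOf H))) R := by
  classical
  obtain ⟨N, hN⟩ : ∃ N : Subgroup G, N = piCoreOf (primesNotDvd (Nat.card (fittingOf H))) R :=
    ⟨_, rfl⟩
  rw [← hN]
  obtain ⟨𝔑, h𝔑⟩ : ∃ 𝔑 : Subgroup G, 𝔑 = Subgroup.normalizer (N : Set G) := ⟨_, rfl⟩
  have hNR : N ≤ R := by rw [hN]; exact piCoreOf_le _ R
  have hR𝔑 : R ≤ 𝔑 := by rw [h𝔑, hN]; exact le_normalizer_piCoreOf _ R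
  have hM𝔑 : M ≤ 𝔑 := by
    rw [h𝔑, hN]
    exact hMR.trans (normalizer_le_normalizer_piCoreOf _ R)
  have hN𝔑 : N ≤ 𝔑 := by rw [h𝔑]; exact Subgroup.le_normalizer
  have hK𝔑 : K ≤ 𝔑 := hKR.trans hR𝔑
  have hNn : (N.subgroupOf 𝔑).Normal := by
    rw [h𝔑]
    exact Subgroup.normal_in_normalizer
  have hZM : ∀ p : ℕ, p.Prime → zOf p H ≤ M := by
    intro p hp z hz
    have : Fact p.Prime := ⟨hp⟩
    exact hCM (Subgroup.mem_inf.mpr ⟨zOf_le_fittingOf p H hz,
      (Subgroup.centralizer_le (show (M : Set G) ⊆ fittingOf H from hM)) hz.2⟩)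
  have hNprime : ∀ r : ℕ, r.Prime → r ∣ Nat.card N →
      r ∈ primesNotDvd (Nat.card (fittingOf H)) := by
    rw [hN]
    exact piCoreOf_primes _ R
  have hNcopF : (Nat.card N).Coprime (Nat.card (fittingOf H)) :=
    (coprime_of_primesNotDvd hNprime).symm
  have hKNcop : (Nat.card ↥(K ⊔ N)).Coprime (Nat.card (fittingOf H)) := by
    have hd : Nat.card ↥(K ⊔ N) ∣ Nat.card K * Nat.card N := by
      apply Cfsg.Agent.Lib.Helper40.card_sup_dvd
      intro a ha b hb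
      exact (Subgroup.le_normalizer_iff.mp (show K ≤ Subgroup.normalizer (N : Set G) from
        h𝔑 ▸ hK𝔑)) a ha b hb
    exact Nat.Coprime.coprime_dvd_left hd (Nat.Coprime.mul_left hcop hNcopF)
  have hMN : M ≤ Subgroup.normalizer (N : Set G) := h𝔑 ▸ hM𝔑
  have hπ : ∀ p ∈ (Nat.card (fittingOf H)).primeFactors,
      p.Prime ∧ p ∣ Nat.card (fittingOf H) :=
    fun p hp => ⟨Nat.prime_of_mem_primeFactors hp, Nat.dvd_of_mem_primeFactors hp⟩
  have key := inv_le_of_quot_fitting (𝔾 := ↥𝔑) (N.subgroupOf 𝔑) (R.subgroupOf 𝔑)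
    (K.subgroupOf 𝔑) (fun x hx => hKR hx) ?_ (Nat.card (fittingOf H)).primeFactors
    (fun p hp => (hπ p hp).1) (fun s => Finset.exists_mem_ne (by omega) s)
    (fun p => (zOf p H).subgroupOf 𝔑) (fun p _ => (isPGroup_zOf p H).comap_subtype)
    ?_ ?_ ?_ ?_ ?_ ?_ ?_ ?_
  · intro k hk
    exact key (show (⟨k, hK𝔑 hk⟩ : ↥𝔑) ∈ K.subgroupOf 𝔑 from hk)
  · -- solvability
    refine Group.isSolvable_of_isSolvable_injective
      (f := (Subgroup.subgroupOfEquivOfLe hR𝔑).toMonoidHom) ?_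
    exact (Subgroup.subgroupOfEquivOfLe hR𝔑).injective
  · intro p hp
    exact Cfsg.Agent.Lib.Helper29.subgroupOf_le_normalizer_subgroupOf hR𝔑
      ((hZM p (hπ p hp).1).trans hMR)
  · intro p hp
    exact Cfsg.Agent.Lib.Helper29.subgroupOf_le_normalizer_subgroupOf hK𝔑
      ((hZM p (hπ p hp).1).trans hMK)
  · intro p hp s hs a ha b hb
    have : Fact s.Prime := ⟨(hπ s hs).1⟩
    exact Subtype.ext (zOf_commute (Subgroup.mem_subgroupOf.mp ha)
      (zOf_le_fittingOf s H (Subgroup.mem_subgroupOf.mp hb)))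
  · intro p hp
    rw [Nat.card_congr (Subgroup.subgroupOfEquivOfLe hN𝔑).toEquiv]
    exact Nat.Coprime.coprime_dvd_right (hπ p hp).2 hNcopF
  · intro p hp
    rw [Nat.card_congr (Subgroup.subgroupOfEquivOfLe hK𝔑).toEquiv]
    exact Nat.Coprime.coprime_dvd_right (hπ p hp).2 hcop
  · -- maximality of `N`
    intro T hTR hRT hTcop
    have hT'R : T.map 𝔑.subtype ≤ R := by
      rintro _ ⟨t, ht, rfl⟩
      exact hTR ht
    have hnorm : R ≤ Subgroup.normalizer ((T.map 𝔑.subtype : Subgroup G) : Set G) := by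
      rw [Subgroup.le_normalizer_iff]
      rintro r hr _ ⟨t, ht, rfl⟩
      have h3 := (Subgroup.le_normalizer_iff.mp hRT) ⟨r, hR𝔑 hr⟩
        (Subgroup.mem_subgroupOf.mpr hr) t ht
      exact ⟨_, h3, rfl⟩
    have hprimes : ∀ r : ℕ, r.Prime → r ∣ Nat.card ↥(T.map 𝔑.subtype) →
        r ∈ primesNotDvd (Nat.card (fittingOf H)) := by
      intro r hr hrd
      rw [Cfsg.Agent.Lib.Helper30.card_map_subtype] at hrd
      refine ⟨hr, fun hrF => ?_⟩
      have hmem : r ∈ (Nat.card (fittingOf H)).primeFactors :=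
        Nat.mem_primeFactors.mpr ⟨hr, hrF, Nat.card_pos.ne'⟩
      have h3 := hTcop r hmem
      exact hr.one_lt.ne' (Nat.Coprime.eq_one_of_dvd h3.symm hrd)
    have hle := le_piCoreOf (primesNotDvd (Nat.card (fittingOf H))) hT'R hnorm hprimes
    intro t ht
    rw [Subgroup.mem_subgroupOf, hN]
    exact hle ⟨t, ht, rfl⟩
  · -- no fixed points of `Z p` on `K N`
    intro p hp
    rw [eq_bot_iff]
    intro x hx
    obtain ⟨hx1, hx2⟩ := Subgroup.mem_inf.mp hx
    have hxKN : (x : G) ∈ K ⊔ N := by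
      have hle : K.subgroupOf 𝔑 ⊔ N.subgroupOf 𝔑 ≤ (K ⊔ N).subgroupOf 𝔑 :=
        sup_le (fun y hy => Subgroup.mem_sup_left (Subgroup.mem_subgroupOf.mp hy))
          (fun y hy => Subgroup.mem_sup_right (Subgroup.mem_subgroupOf.mp hy))
      exact hle hx1
    have hxc : (x : G) ∈ Subgroup.centralizer (zOf p H : Set G) := by
      rw [Subgroup.mem_centralizer_iff]
      intro z hz
      have hz𝔑 : z ∈ 𝔑 := hM𝔑 (hZM p (hπ p hp).1 hz)
      have h3 := Subgroup.mem_centralizer_iff.mp hx2 ⟨z, hz𝔑⟩ (Subgroup.mem_subgroupOf.mpr hz)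
      exact congrArg Subtype.val h3
    have h4 := inf_centralizer_zOf_eq_bot hM hCM hR hXR (sup_le hKR hNR)
      (le_normalizer_sup' hMK hMN) hKNcop p (hZH p (hπ p hp).1 (hπ p hp).2)
    have h5 : (x : G) ∈ (K ⊔ N) ⊓ Subgroup.centralizer (zOf p H : Set G) :=
      Subgroup.mem_inf.mpr ⟨hxKN, hxc⟩
    rw [h4, Subgroup.mem_bot] at h5
    rw [Subgroup.mem_bot]
    exact Subtype.ext h5
  · -- `C(Z s)` normalizes `Z p`
    intro p hp s hs hps x hx
    have hxc : (x : G) ∈ Subgroup.centralizer (zOf s H : Set G) := by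
      rw [Subgroup.mem_centralizer_iff]
      intro z hz
      have hz𝔑 : z ∈ 𝔑 := hM𝔑 (hZM s (hπ s hs).1 hz)
      have h3 := Subgroup.mem_centralizer_iff.mp hx ⟨z, hz𝔑⟩ (Subgroup.mem_subgroupOf.mpr hz)
      exact congrArg Subtype.val h3
    have hxN : (x : G) ∈ Subgroup.normalizer (zOf p H : Set G) :=
      le_normalizer_zOf p H (hZH s (hπ s hs).1 (hπ s hs).2 hxc)
    rw [Subgroup.mem_normalizer_iff]
    intro y
    rw [Subgroup.mem_subgroupOf, Subgroup.mem_subgroupOf]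
    exact Subgroup.mem_normalizer_iff.mp hxN (y : G)

end Claim2

end Cfsg.Agent.Lib.Helper32.Bn
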