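import Cfsg.Agent.Lib.Helper12.Subnormal
import Cfsg.Agent.Lib.Helper32.Coprime

set_option autoImplicit false
open scoped Pointwise

namespace Cfsg.Agent.Lib.Helper32

universe u

/-- A Carter subgroup: nilpotent and self-normalizing. -/
def IsCarter {G : Type*} [Group G] (C : Subgroup G) : Prop :=
  Group.IsNilpotent C ∧ Subgroup.normalizer (C : Set G) = C

/-- All Carter subgroups of `G` are conjugate. -/
def CarterConj (G : Type*) [Group G] : Prop :=
  ∀ C D : Subgroup G, IsCarter C → IsCarter D → ∃ g : G, cj g C = D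

theorem normalizer_cj {G : Type*} [Group G] (g : G) (C : Subgroup G) :
    Subgroup.normalizer (cj g C : Set G) = cj g (Subgroup.normalizer (C : Set G)) := by
  ext x
  rw [← cj_eq_self_iff, mem_cj, ← cj_eq_self_iff]
  constructor
  · intro h
    have : cj (g⁻¹ * x * g) C = cj g⁻¹ (cj x (cj g C)) := by rw [cj_mul, cj_mul]
    rw [this, h, cj_inv_cj]
  · intro h
    have : cj x (cj g C) = cj g (cj (g⁻¹ * x * g) C) := by
      rw [← cj_mul, ← cj_mul]; congr 1; group
    rw [this, h]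

theorem IsCarter.conj {G : Type*} [Group G] {C : Subgroup G} (h : IsCarter C) (g : G) :
    IsCarter (cj g C) := by
  refine ⟨?_, by rw [normalizer_cj, h.2]⟩
  have := h.1
  exact Group.nilpotent_of_mulEquiv
    (C.equivMapOfInjective (MulAut.conj g).toMonoidHom (MulAut.conj g).injective)

theorem isCarter_subgroupOf {G : Type*} [Group G] {C K : Subgroup G} (hCK : C ≤ K)
    (hn : Group.IsNilpotent C) (hN : Subgroup.normalizer (C : Set G) ⊓ K = C) :
    IsCarter (C.subgroupOf K) := by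
  refine ⟨Group.nilpotent_of_mulEquiv (Subgroup.subgroupOfEquivOfLe hCK).symm, ?_⟩
  rw [← Subgroup.subgroupOf_normalizer_eq hCK, ← Subgroup.inf_subgroupOf_right, hN]

theorem IsCarter.of_subgroup {G : Type*} [Group G] {K : Subgroup G} {C' : Subgroup K}
    (h : IsCarter C') :
    Group.IsNilpotent (C'.map K.subtype) ∧
      Subgroup.normalizer ((C'.map K.subtype : Subgroup G) : Set G) ⊓ K = C'.map K.subtype := by
  constructor
  · have := h.1
    exact Group.nilpotent_of_mulEquiv (C'.equivMapOfInjective K.subtype K.subtype_injective)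
  · have hle : C'.map K.subtype ≤ K := Subgroup.map_subtype_le C'
    have h1 := Subgroup.subgroupOf_normalizer_eq hle
    have h2 : (C'.map K.subtype).subgroupOf K = C' :=
      Subgroup.comap_map_eq_self_of_injective K.subtype_injective C'
    rw [h2, h.2] at h1
    have h3 := congrArg (Subgroup.map K.subtype) h1
    rwa [Subgroup.subgroupOf_map_subtype] at h3

theorem carterConj_subgroup {G : Type*} [Group G] {K : Subgroup G} (hK : CarterConj K)
    {C D : Subgroup G} (hCK : C ≤ K) (hDK : D ≤ K) (hC : Group.IsNilpotent C)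
    (hCN : Subgroup.normalizer (C : Set G) ⊓ K = C) (hD : Group.IsNilpotent D)
    (hDN : Subgroup.normalizer (D : Set G) ⊓ K = D) : ∃ k ∈ K, cj k C = D := by
  obtain ⟨k, hk⟩ := hK _ _ (isCarter_subgroupOf hCK hC hCN) (isCarter_subgroupOf hDK hD hDN)
  refine ⟨k.1, k.2, ?_⟩
  have h1 := congrArg (Subgroup.map K.subtype) hk
  rw [Subgroup.map_subgroupOf_eq_of_le hDK] at h1
  rw [← h1]
  ext x
  constructor
  · intro hx
    rw [mem_cj] at hx
    have hxK : x ∈ K := by
      have h2 : x = k.1 * (k.1⁻¹ * x * k.1) * k.1⁻¹ := by group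
      rw [h2]
      exact K.mul_mem (K.mul_mem k.2 (hCK hx)) (K.inv_mem k.2)
    refine ⟨⟨x, hxK⟩, ?_, rfl⟩
    rw [SetLike.mem_coe, mem_cj, Subgroup.mem_subgroupOf]
    simpa using hx
  · rintro ⟨y, hy, rfl⟩
    rw [SetLike.mem_coe, mem_cj, Subgroup.mem_subgroupOf] at hy
    rw [mem_cj]
    simpa using hy

/-- Images of Carter subgroups are Carter subgroups, given conjugacy in proper subgroups. -/
theorem IsCarter.map {G H : Type*} [Group G] [Group H] (f : G →* H)
    (hf : Function.Surjective f) (hconj : ∀ K : Subgroup G, K ≠ ⊤ → CarterConj K)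
    {C : Subgroup G} (hC : IsCarter C) : IsCarter (C.map f) := by
  have hnil := hC.1
  refine ⟨Group.nilpotent_of_surjective (f.subgroupMap C) (f.subgroupMap_surjective C), ?_⟩
  apply le_antisymm _ Subgroup.le_normalizer
  intro y hy
  obtain ⟨x, rfl⟩ := hf y
  have hcomap : (C.map f).comap f = C ⊔ f.ker := Subgroup.comap_map_eq f C
  have hCK : C ≤ C ⊔ f.ker := le_sup_left
  have hxCK : cj x C ≤ C ⊔ f.ker := by
    intro z hz
    rw [← hcomap, Subgroup.mem_comap]
    rw [mem_cj] at hz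
    have h1 : f (x⁻¹ * z * x) ∈ C.map f := Subgroup.mem_map_of_mem f hz
    have h2 := (Subgroup.mem_normalizer_iff.mp hy (f (x⁻¹ * z * x))).mp h1
    have h3 : f x * f (x⁻¹ * z * x) * (f x)⁻¹ = f z := by
      rw [← map_inv, ← map_mul, ← map_mul]; congr 1; group
    rwa [h3] at h2
  have hxK : x ∈ C ⊔ f.ker := by
    by_cases hKtop : C ⊔ f.ker = ⊤
    · rw [hKtop]; trivial
    · have hC' : Subgroup.normalizer (C : Set G) ⊓ (C ⊔ f.ker) = C := by
        rw [hC.2]; exact inf_eq_left.mpr hCK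
      have hD := hC.conj x
      have hD' : Subgroup.normalizer (cj x C : Set G) ⊓ (C ⊔ f.ker) = cj x C := by
        rw [hD.2]; exact inf_eq_left.mpr hxCK
      obtain ⟨k, hk, hkC⟩ :=
        carterConj_subgroup (hconj _ hKtop) hCK hxCK hC.1 hC' hD.1 hD'
      have h1 : cj (k⁻¹ * x) C = C := by rw [cj_mul, ← hkC, cj_inv_cj]
      have h2 : k⁻¹ * x ∈ C := by
        have := cj_eq_self_iff.mp h1
        rwa [hC.2] at this
      have h3 : x = k * (k⁻¹ * x) := by group
      rw [h3]; exact Subgroup.mul_mem _ hk (hCK h2)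
  have h4 : f x ∈ (C ⊔ f.ker).map f := Subgroup.mem_map_of_mem f hxK
  rwa [Subgroup.map_sup, (Subgroup.map_eq_bot_iff _).mpr le_rfl, sup_bot_eq] at h4

theorem carter_eq_top_of_nilpotent {G : Type*} [Group G] [Group.IsNilpotent G]
    {D : Subgroup G} (hD : Subgroup.normalizer (D : Set G) = D) : D = ⊤ := by
  by_contra hne
  have h := Group.normalizerCondition_of_isNilpotent (G := G) D (lt_top_iff_ne_top.mpr hne)
  rw [hD] at h
  exact lt_irrefl _ h

theorem carter_le_eq {G : Type*} [Group G] {D C : Subgroup G} (hle : D ≤ C)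
    (hnil : Group.IsNilpotent C) (hD : Subgroup.normalizer (D : Set G) = D) : D = C := by
  have h1 : Subgroup.normalizer ((D.subgroupOf C : Subgroup C) : Set C) = D.subgroupOf C := by
    rw [← Subgroup.subgroupOf_normalizer_eq hle, hD]
  have h2 := carter_eq_top_of_nilpotent h1
  exact le_antisymm hle (Subgroup.subgroupOf_eq_top.mp h2)

/-- From conjugacy in a quotient: a conjugate of `C` with the same product with `N`. -/
theorem exists_cj_sup_eq {G : Type*} [Group G] (N : Subgroup G) [N.Normal]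
    (hQ : CarterConj (G ⧸ N)) (hconj : ∀ K : Subgroup G, K ≠ ⊤ → CarterConj K)
    {C D : Subgroup G} (hC : IsCarter C) (hD : IsCarter D) : ∃ g : G, cj g C ⊔ N = D ⊔ N := by
  have hπs : Function.Surjective (QuotientGroup.mk' N) := QuotientGroup.mk'_surjective N
  obtain ⟨gbar, hg⟩ := hQ _ _ (hC.map _ hπs hconj) (hD.map _ hπs hconj)
  obtain ⟨g, rfl⟩ := hπs gbar
  refine ⟨g, ?_⟩
  have h1 : (cj g C).map (QuotientGroup.mk' N) = D.map (QuotientGroup.mk' N) := by
    rw [← hg]
    ext y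
    constructor
    · rintro ⟨z, hz, rfl⟩
      rw [SetLike.mem_coe, mem_cj] at hz
      rw [mem_cj]
      refine ⟨g⁻¹ * z * g, hz, ?_⟩
      simp
    · intro hy
      rw [mem_cj] at hy
      obtain ⟨c, hc, hcy⟩ := hy
      refine ⟨g * c * g⁻¹, ?_, ?_⟩
      · rw [SetLike.mem_coe, mem_cj]
        have : g⁻¹ * (g * c * g⁻¹) * g = c := by group
        rw [this]; exact hc
      · rw [map_mul, map_mul, hcy, map_inv]
        group
  have h2 := congrArg (Subgroup.comap (QuotientGroup.mk' N)) h1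
  rwa [Subgroup.comap_map_eq, Subgroup.comap_map_eq, QuotientGroup.ker_mk'] at h2

theorem inf_normal_of_sup_top {G : Type*} [Group G] {X A : Subgroup G} [A.Normal]
    (hAab : ∀ a ∈ A, ∀ b ∈ A, a * b = b * a) (hXA : X ⊔ A = ⊤) : (X ⊓ A).Normal := by
  rw [← Subgroup.normalizer_eq_top_iff, eq_top_iff, ← hXA]
  apply sup_le
  · refine le_trans (le_inf Subgroup.le_normalizer ?_) Subgroup.inf_normalizer_le_normalizer_inf
    rw [Subgroup.normalizer_eq_top_iff.mpr inferInstance]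
    exact le_top
  · rw [Subgroup.le_normalizer_iff]
    intro a ha y hy
    have h1 : a * y = y * a := hAab a ha y hy.2
    have h2 : a * y * a⁻¹ = y := by rw [h1]; group
    rw [h2]; exact hy

/-- The final case of the conjugacy of Carter subgroups. -/
theorem carter_conj_top {G : Type u} [Group G] [Finite G]
    (ihK : ∀ K : Subgroup G, K ≠ ⊤ → CarterConj K)
    (ihQ : ∀ (N : Subgroup G) [N.Normal], N ≠ ⊥ → CarterConj (G ⧸ N))
    (A : Subgroup G) (hAmin : Cfsg.Agent.Lib.Helper12.IsMinNormal A)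
    (hAab : ∀ a ∈ A, ∀ b ∈ A, a * b = b * a)
    (C D : Subgroup G) (hC : IsCarter C) (hD : IsCarter D) (hCA : C ⊔ A = ⊤)
    (hDA : D ⊔ A = ⊤) : ∃ g : G, cj g C = D := by
  have hAn : A.Normal := hAmin.1
  have hA1 : A ≠ ⊥ := hAmin.2.1
  -- the case `A ≤ C` or `A ≤ D`
  have htop : ∀ X Y : Subgroup G, IsCarter X → IsCarter Y → X ⊔ A = ⊤ → X ⊓ A ≠ ⊥ →
      X = ⊤ ∧ Y = ⊤ := by
    intro X Y hX hY hXA hne
    have hn : (X ⊓ A).Normal := inf_normal_of_sup_top hAab hXA
    have h1 : X ⊓ A = A := hAmin.2.2 _ hn inf_le_right hne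
    have h2 : X = ⊤ := by
      rw [← hXA]; exact (sup_eq_left.mpr (inf_eq_right.mp h1)).symm
    have h3 : Group.IsNilpotent G := by
      have := hX.1
      rw [h2] at this
      exact Group.nilpotent_of_mulEquiv Subgroup.topEquiv
    exact ⟨h2, carter_eq_top_of_nilpotent hY.2⟩
  by_cases hCA0 : C ⊓ A ≠ ⊥
  · obtain ⟨h1, h2⟩ := htop C D hC hD hCA hCA0
    exact ⟨1, by rw [cj_one, h1, h2]⟩
  by_cases hDA0 : D ⊓ A ≠ ⊥
  · obtain ⟨h1, h2⟩ := htop D C hD hC hDA hDA0
    exact ⟨1, by rw [cj_one, h1, h2]⟩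
  rw [not_not] at hCA0 hDA0
  -- the kernel of the action of `C` on `A`
  have hNn : (C ⊓ Subgroup.centralizer (A : Set G)).Normal := by
    rw [← Subgroup.normalizer_eq_top_iff, eq_top_iff, ← hCA]
    apply sup_le
    · refine le_trans (le_inf Subgroup.le_normalizer ?_)
        Subgroup.inf_normalizer_le_normalizer_inf
      have : (Subgroup.centralizer (A : Set G)).Normal := inferInstance
      rw [Subgroup.normalizer_eq_top_iff.mpr this]
      exact le_top
    · rw [Subgroup.le_normalizer_iff]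
      intro a ha y hy
      have h1 : a * y = y * a := (Subgroup.mem_centralizer_iff.mp hy.2 a ha)
      have h2 : a * y * a⁻¹ = y := by rw [h1]; group
      rw [h2]; exact hy
  by_cases hN : C ⊓ Subgroup.centralizer (A : Set G) ≠ ⊥
  · obtain ⟨g, hg⟩ := exists_cj_sup_eq _ (ihQ _ hN) ihK hC hD
    have h1 : C ⊓ Subgroup.centralizer (A : Set G) ≤ cj g C := by
      intro y hy
      rw [mem_cj]
      have := hNn.conj_mem y hy g⁻¹
      rw [inv_inv] at this
      exact this.1
    rw [sup_eq_left.mpr h1] at hg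
    have h2 : D ≤ cj g C := by rw [hg]; exact le_sup_left
    exact ⟨g, (carter_le_eq h2 (hC.conj g).1 hD.2).symm⟩
  rw [not_not] at hN
  -- a nontrivial central element of `C`
  have hCne : Nontrivial C := by
    rw [Subgroup.nontrivial_iff_ne_bot]
    intro h
    have h1 := hC.2
    rw [h, Subgroup.normalizer_eq_top_iff.mpr inferInstance] at h1
    exact hA1 (le_bot_iff.mp (h1 ▸ le_top))
  have hCnil := hC.1
  have hcen : Subgroup.center C ≠ ⊥ := Group.IsNilpotent.center_ne_bot C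
  obtain ⟨z', hz'1⟩ := (Subgroup.ne_bot_iff_exists_ne_one).mp hcen
  obtain ⟨z, hzC, hzcen, hz1⟩ : ∃ z ∈ C, (∀ c ∈ C, c * z = z * c) ∧ z ≠ 1 := by
    refine ⟨z'.1.1, z'.1.2, ?_, ?_⟩
    · intro c hc
      have := Subgroup.mem_center_iff.mp z'.2 ⟨c, hc⟩
      exact congrArg Subtype.val this
    · intro h
      apply hz'1
      exact Subtype.ext (Subtype.ext h)
  -- `C_A(z) = 1`
  have hBn : (A ⊓ Subgroup.centralizer ({z} : Set G)).Normal := by
    rw [← Subgroup.normalizer_eq_top_iff, eq_top_iff, ← hCA]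
    apply sup_le
    · rw [Subgroup.le_normalizer_iff]
      intro c hc a ha
      refine Subgroup.mem_inf.mpr ⟨hAn.conj_mem a ha.1 c, ?_⟩
      rw [Subgroup.mem_centralizer_iff]
      intro w hw
      rw [Set.mem_singleton_iff] at hw
      subst hw
      have h1 : w * a = a * w := (Subgroup.mem_centralizer_iff.mp ha.2 w rfl)
      have h2 : c * w = w * c := hzcen c hc
      have h3 : c⁻¹ * w = w * c⁻¹ := by
        have : w = c⁻¹ * (c * w) := by group
        rw [h2] at this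
        calc c⁻¹ * w = c⁻¹ * w * c * c⁻¹ := by group
          _ = c⁻¹ * (w * c) * c⁻¹ := by group
          _ = w * c⁻¹ := by rw [← this]
      calc w * (c * a * c⁻¹) = (w * c) * a * c⁻¹ := by group
        _ = (c * w) * a * c⁻¹ := by rw [h2]
        _ = c * (w * a) * c⁻¹ := by group
        _ = c * (a * w) * c⁻¹ := by rw [h1]
        _ = c * a * (w * c⁻¹) := by group
        _ = c * a * (c⁻¹ * w) := by rw [h3]
        _ = c * a * c⁻¹ * w := by group
    · rw [Subgroup.le_normalizer_iff]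
      intro a ha y hy
      have h1 : a * y = y * a := hAab a ha y hy.1
      have h2 : a * y * a⁻¹ = y := by rw [h1]; group
      rw [h2]; exact hy
  have hB : A ⊓ Subgroup.centralizer ({z} : Set G) = ⊥ := by
    by_contra hne
    have h1 : A ⊓ Subgroup.centralizer ({z} : Set G) = A := hAmin.2.2 _ hBn inf_le_left hne
    have h2 : z ∈ C ⊓ Subgroup.centralizer (A : Set G) := by
      refine Subgroup.mem_inf.mpr ⟨hzC, ?_⟩
      rw [Subgroup.mem_centralizer_iff]
      intro a ha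
      have h3 : a ∈ A ⊓ Subgroup.centralizer ({z} : Set G) := by rw [h1]; exact ha
      exact ((Subgroup.mem_centralizer_iff.mp h3.2) z rfl).symm
    rw [hN, Subgroup.mem_bot] at h2
    exact hz1 h2
  have hBz : ∀ a ∈ A, a * z = z * a → a = 1 := by
    intro a ha h
    have : a ∈ A ⊓ Subgroup.centralizer ({z} : Set G) := by
      refine Subgroup.mem_inf.mpr ⟨ha, ?_⟩
      rw [Subgroup.mem_centralizer_iff]
      intro w hw
      rw [Set.mem_singleton_iff] at hw
      rw [hw]; exact h.symm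
    rw [hB, Subgroup.mem_bot] at this
    exact this
  -- `z = a₀ * d`
  have hzDA : z ∈ A ⊔ D := by rw [sup_comm, hDA]; trivial
  have hDnA : D ≤ Subgroup.normalizer (A : Set G) := by
    rw [Subgroup.normalizer_eq_top_iff.mpr hAn]; exact le_top
  obtain ⟨a₀, ha₀, d, hd, hzad⟩ : ∃ a₀ ∈ A, ∃ d ∈ D, z = a₀ * d := by
    have hmem : z ∈ A ⊔ D := hzDA
    rw [Subgroup.sup_eq_closure_mul] at hmem
    have hset : ((A : Set G) * (D : Set G)) = ((A ⊔ D : Subgroup G) : Set G) := by
      rw [Subgroup.normal_mul]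
    rw [hset, Subgroup.closure_eq] at hmem
    rw [← SetLike.mem_coe, ← hset] at hmem
    obtain ⟨a, ha, d, hd, h⟩ := Set.mem_mul.mp hmem
    exact ⟨a, ha, d, hd, h.symm⟩
  -- surjectivity of `a ↦ a z a⁻¹ z⁻¹` on `A`
  have hmap : ∀ a : A, a.1 * (z * a.1⁻¹ * z⁻¹) ∈ A :=
    fun a => A.mul_mem a.2 (hAn.conj_mem _ (A.inv_mem a.2) z)
  have hinj : Function.Injective (fun a : A => (⟨a.1 * (z * a.1⁻¹ * z⁻¹), hmap a⟩ : A)) := by
    intro a b hab
    have h1 : a.1 * (z * a.1⁻¹ * z⁻¹) = b.1 * (z * b.1⁻¹ * z⁻¹) := congrArg Subtype.val hab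
    have h2 : (b.1⁻¹ * a.1) * z = z * (b.1⁻¹ * a.1) := by
      have h3 : a.1 * z * a.1⁻¹ = b.1 * z * b.1⁻¹ := by
        have : a.1 * z * a.1⁻¹ = a.1 * (z * a.1⁻¹ * z⁻¹) * z := by group
        rw [this, h1]; group
      calc (b.1⁻¹ * a.1) * z = b.1⁻¹ * (a.1 * z * a.1⁻¹) * a.1 := by group
        _ = b.1⁻¹ * (b.1 * z * b.1⁻¹) * a.1 := by rw [h3]
        _ = z * (b.1⁻¹ * a.1) := by group
    have h4 := hBz _ (A.mul_mem (A.inv_mem b.2) a.2) h2
    apply Subtype.ext
    calc a.1 = b.1 * (b.1⁻¹ * a.1) := by group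
      _ = b.1 := by rw [h4, mul_one]
  have hsurj := Finite.injective_iff_surjective.mp hinj
  obtain ⟨a, ha⟩ := hsurj ⟨a₀⁻¹, A.inv_mem ha₀⟩
  have ha' : a.1 * (z * a.1⁻¹ * z⁻¹) = a₀⁻¹ := congrArg Subtype.val ha
  have hdz : a.1 * z * a.1⁻¹ = d := by
    have : a.1 * z * a.1⁻¹ = a.1 * (z * a.1⁻¹ * z⁻¹) * z := by group
    rw [this, ha', hzad]; group
  -- `d` is central in `cj a C` and in `D`
  have hdC' : d ∈ cj a.1 C := by
    rw [mem_cj, ← hdz]
    have : a.1⁻¹ * (a.1 * z * a.1⁻¹) * a.1 = z := by group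
    rw [this]; exact hzC
  have hcomm_mod : ∀ g : G, g * z * g⁻¹ * z⁻¹ ∈ A := by
    intro g
    have hg : g ∈ A ⊔ C := by rw [sup_comm, hCA]; trivial
    have hset : ((A : Set G) * (C : Set G)) = ((A ⊔ C : Subgroup G) : Set G) := by
      rw [Subgroup.normal_mul]
    rw [← SetLike.mem_coe, ← hset] at hg
    obtain ⟨a', ha', c, hc, rfl⟩ := Set.mem_mul.mp hg
    have h1 : c * z = z * c := hzcen c hc
    have h2 : a' * c * z * (a' * c)⁻¹ * z⁻¹ = a' * (z * a'⁻¹ * z⁻¹) := by
      calc a' * c * z * (a' * c)⁻¹ * z⁻¹ = a' * (c * z) * c⁻¹ * a'⁻¹ * z⁻¹ := by group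
        _ = a' * (z * c) * c⁻¹ * a'⁻¹ * z⁻¹ := by rw [h1]
        _ = a' * (z * a'⁻¹ * z⁻¹) := by group
    rw [h2]
    exact A.mul_mem ha' (hAn.conj_mem _ (A.inv_mem ha') z)
  have hdcenD : ∀ d' ∈ D, d' * d = d * d' := by
    intro d' hd'
    have h1 : d' * d * d'⁻¹ * d⁻¹ ∈ D :=
      D.mul_mem (D.mul_mem (D.mul_mem hd' hd) (D.inv_mem hd')) (D.inv_mem hd)
    have h2 : d' * d * d'⁻¹ * d⁻¹ ∈ A := by
      have h3 := hcomm_mod (a.1⁻¹ * d' * a.1)
      have h4 := hAn.conj_mem _ h3 a.1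
      have h5 : a.1 * ((a.1⁻¹ * d' * a.1) * z * (a.1⁻¹ * d' * a.1)⁻¹ * z⁻¹) * a.1⁻¹ =
          d' * (a.1 * z * a.1⁻¹) * d'⁻¹ * (a.1 * z * a.1⁻¹)⁻¹ := by group
      rw [h5, hdz] at h4
      exact h4
    have h3 : d' * d * d'⁻¹ * d⁻¹ ∈ D ⊓ A := ⟨h1, h2⟩
    rw [hDA0, Subgroup.mem_bot] at h3
    calc d' * d = (d' * d * d'⁻¹ * d⁻¹) * d * d' := by group
      _ = d * d' := by rw [h3, one_mul]
  have hdcenC' : ∀ c' ∈ cj a.1 C, c' * d = d * c' := by
    intro c' hc'
    rw [mem_cj] at hc'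
    have h1 := hzcen _ hc'
    rw [← hdz]
    calc c' * (a.1 * z * a.1⁻¹) = a.1 * ((a.1⁻¹ * c' * a.1) * z) * a.1⁻¹ := by group
      _ = a.1 * (z * (a.1⁻¹ * c' * a.1)) * a.1⁻¹ := by rw [h1]
      _ = a.1 * z * a.1⁻¹ * c' := by group
  have hC'H : cj a.1 C ≤ Subgroup.centralizer ({d} : Set G) := by
    intro c' hc'
    rw [Subgroup.mem_centralizer_iff]
    intro w hw
    rw [Set.mem_singleton_iff] at hw
    rw [hw]; exact (hdcenC' c' hc').symm
  have hDH : D ≤ Subgroup.centralizer ({d} : Set G) := by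
    intro d' hd'
    rw [Subgroup.mem_centralizer_iff]
    intro w hw
    rw [Set.mem_singleton_iff] at hw
    rw [hw]; exact (hdcenD d' hd').symm
  have hHtop : Subgroup.centralizer ({d} : Set G) ≠ ⊤ := by
    intro h
    -- then `z` is central in `G`, so `A ≤ C_A(z) = 1`
    obtain ⟨b, hb1⟩ := (Subgroup.ne_bot_iff_exists_ne_one).mp hA1
    apply hb1
    have hbA : b.1 ∈ A := b.2
    have h1 : ∀ y : G, y * d = d * y := by
      intro y
      have : y ∈ Subgroup.centralizer ({d} : Set G) := by rw [h]; trivial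
      exact ((Subgroup.mem_centralizer_iff.mp this) d rfl).symm
    have h2 : b.1 * z = z * b.1 := by
      have h3 := h1 (a.1 * b.1 * a.1⁻¹)
      rw [← hdz] at h3
      calc b.1 * z = a.1⁻¹ * ((a.1 * b.1 * a.1⁻¹) * (a.1 * z * a.1⁻¹)) * a.1 := by group
        _ = a.1⁻¹ * ((a.1 * z * a.1⁻¹) * (a.1 * b.1 * a.1⁻¹)) * a.1 := by rw [h3]
        _ = z * b.1 := by group
    exact Subtype.ext (hBz b.1 hbA h2)
  have hC' := hC.conj a.1
  obtain ⟨k, _, hk⟩ := carterConj_subgroup (ihK _ hHtop) hC'H hDH hC'.1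
    (by rw [hC'.2]; exact inf_eq_left.mpr hC'H) hD.1 (by rw [hD.2]; exact inf_eq_left.mpr hDH)
  exact ⟨k * a.1, by rw [cj_mul]; exact hk⟩

end Cfsg.Agent.Lib.Helper32
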