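import Mathlib

set_option autoImplicit false

namespace Cfsg.Agent.Lib.Helper32.DCP6

/-- PIECE P6 (S4719): a central normal 2-subgroup with odd quotient splits off normally. -/
theorem odd_complement_normal {G : Type*} [Group G] [Finite G] (M H : Subgroup G) [M.Normal]
    [H.Normal] (hMH : M ≤ H) (i : ℕ) (hM2 : Nat.card M = 2 ^ i)
    (hcent : ∀ m ∈ M, ∀ h ∈ H, m * h = h * m) (n : ℕ) (hn : Odd n)
    (hcard : Nat.card H = Nat.card M * n) :
    ∃ K : Subgroup G, K.Normal ∧ K ≤ H ∧ Nat.card K = n := by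
  classical
  have hM'card : Nat.card (M.subgroupOf H) = 2 ^ i := by
    rw [← hM2]
    exact Nat.card_congr (Subgroup.subgroupOfEquivOfLe hMH).toEquiv
  have hidx : (M.subgroupOf H).index = n := by
    have h1 := Subgroup.card_mul_index (M.subgroupOf H)
    rw [hM'card, hcard, hM2] at h1
    exact Nat.eq_of_mul_eq_mul_left (pow_pos (by norm_num) i) h1
  have hcop : (Nat.card (M.subgroupOf H)).Coprime (M.subgroupOf H).index := by
    rw [hM'card, hidx]
    exact Nat.Coprime.pow_left i (Nat.coprime_two_left.mpr hn)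
  obtain ⟨K0, hK0⟩ := Subgroup.exists_right_complement'_of_coprime hcop
  have hK0card : Nat.card K0 = n := by
    have h1 := hK0.card_mul_card
    rw [hM'card, hcard, hM2] at h1
    exact Nat.eq_of_mul_eq_mul_left (pow_pos (by norm_num) i) h1
  -- characterisation of `K0`
  have hchar : ∀ h : ↥H, h ^ n = 1 → h ∈ K0 := by
    intro h hh
    obtain ⟨⟨m, k⟩, hmk⟩ := hK0.2 h
    simp only at hmk
    have hcomm : Commute (m : ↥H) (k : ↥H) := by
      have hm : ((m : ↥H) : G) ∈ M := Subgroup.mem_subgroupOf.mp m.2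
      have := hcent _ hm _ (k : ↥H).2
      exact Subtype.ext this
    have hkn : (k : ↥H) ^ n = 1 := by
      have : k ^ Nat.card K0 = 1 := pow_card_eq_one'
      rw [hK0card] at this
      exact_mod_cast congrArg (fun x : ↥K0 => (x : ↥H)) this
    have hmn : (m : ↥H) ^ n = 1 := by
      have : ((m : ↥H) * (k : ↥H)) ^ n = 1 := by rw [hmk]; exact hh
      rw [hcomm.mul_pow, hkn, mul_one] at this
      exact this
    have hm2 : (m : ↥H) ^ (2 ^ i) = 1 := by
      have : m ^ Nat.card (M.subgroupOf H) = 1 := pow_card_eq_one'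
      rw [hM'card] at this
      exact_mod_cast congrArg (fun x : ↥(M.subgroupOf H) => (x : ↥H)) this
    have hm1 : (m : ↥H) = 1 := by
      have hd1 : orderOf (m : ↥H) ∣ n := orderOf_dvd_of_pow_eq_one hmn
      have hd2 : orderOf (m : ↥H) ∣ 2 ^ i := orderOf_dvd_of_pow_eq_one hm2
      have : orderOf (m : ↥H) ∣ Nat.gcd (2 ^ i) n := Nat.dvd_gcd hd2 hd1
      have hg : Nat.gcd (2 ^ i) n = 1 := Nat.Coprime.pow_left i (Nat.coprime_two_left.mpr hn)
      rw [hg] at this
      exact orderOf_eq_one_iff.mp (Nat.dvd_one.mp this)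
    rw [hm1, one_mul] at hmk
    rw [← hmk]
    exact k.2
  refine ⟨K0.map H.subtype, ⟨?_⟩, Subgroup.map_subtype_le K0, ?_⟩
  · intro x hx g
    obtain ⟨k, hk, rfl⟩ := Subgroup.mem_map.mp hx
    have hgH : g * (k : G) * g⁻¹ ∈ H := Subgroup.Normal.conj_mem inferInstance _ k.2 g
    refine Subgroup.mem_map.mpr ⟨⟨g * (k : G) * g⁻¹, hgH⟩, ?_, rfl⟩
    apply hchar
    have hkn : (k : ↥H) ^ n = 1 := by
      have : (⟨k, hk⟩ : ↥K0) ^ Nat.card K0 = 1 := pow_card_eq_one'
      rw [hK0card] at this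
      have h5 := congrArg (fun x : ↥K0 => (x : ↥H)) this
      simpa using h5
    apply Subtype.ext
    have hkn' : ((k : ↥H) : G) ^ n = 1 := by
      have := congrArg (fun x : ↥H => (x : G)) hkn
      simpa using this
    show ((⟨g * (k : G) * g⁻¹, hgH⟩ : ↥H) ^ n : ↥H).1 = 1
    rw [Subgroup.coe_pow]
    show (g * (k : G) * g⁻¹) ^ n = 1
    rw [conj_pow, hkn']
    group
  · rw [Subgroup.card_map_of_injective (Subgroup.subtype_injective H)]
    exact hK0card

end Cfsg.Agent.Lib.Helper32.DCP6
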