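import Mathlib

set_option autoImplicit false

namespace Cfsg.Agent.Lib.Helper32.DCP7

/-- PIECE P7 (S4719): index of the centralizer of a normal subgroup. -/
theorem card_le_factorial_mul_centralizer {G : Type*} [Group G] [Finite G] (M X : Subgroup G)
    [M.Normal] :
    Nat.card X ≤ (Nat.card M).factorial * Nat.card ↥(X ⊓ Subgroup.centralizer (M : Set G)) := by
  classical
  let φ : ↥X →* Equiv.Perm ↥M :=
    (MulAut.toPerm ↥M).comp ((MulAut.conjNormal : G →* MulAut ↥M).comp X.subtype)
  have h1 : Nat.card φ.ker * Nat.card φ.range = Nat.card X := by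
    rw [← Subgroup.index_ker]
    exact Subgroup.card_mul_index φ.ker
  have h2 : Nat.card φ.range ≤ (Nat.card M).factorial := by
    have : Nat.card φ.range ≤ Nat.card (Equiv.Perm ↥M) := by
      exact Nat.card_le_card_of_injective (fun x : φ.range => (x : Equiv.Perm ↥M))
        Subtype.val_injective
    rwa [Nat.card_perm] at this
  have h3 : Nat.card φ.ker ≤ Nat.card ↥(X ⊓ Subgroup.centralizer (M : Set G)) := by
    have hmem : ∀ x : φ.ker, ((x : ↥X) : G) ∈ X ⊓ Subgroup.centralizer (M : Set G) := by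
      intro x
      refine Subgroup.mem_inf.mpr ⟨(x : ↥X).2, ?_⟩
      refine Subgroup.mem_centralizer_iff.mpr ?_
      intro m hm
      have hx : φ (x : ↥X) = 1 := x.2
      have hx2 : φ (x : ↥X) ⟨m, hm⟩ = ⟨m, hm⟩ := by rw [hx]; rfl
      have hx3 : (((x : ↥X) : G) * m * ((x : ↥X) : G)⁻¹ : G) = m := by
        have := congrArg (fun y : ↥M => (y : G)) hx2
        have h4 : ((φ (x : ↥X) ⟨m, hm⟩ : ↥M) : G) = ((x : ↥X) : G) * m * ((x : ↥X) : G)⁻¹ := by
          show ((MulAut.conjNormal ((x : ↥X) : G) ⟨m, hm⟩ : ↥M) : G) = _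
          rw [MulAut.conjNormal_apply]
        rw [← h4]
        exact this
      calc m * ((x : ↥X) : G) = (((x : ↥X) : G) * m * ((x : ↥X) : G)⁻¹) * ((x : ↥X) : G) := by
            rw [hx3]
        _ = ((x : ↥X) : G) * m := by group
    refine Nat.card_le_card_of_injective
      (fun x : φ.ker => (⟨((x : ↥X) : G), hmem x⟩ : ↥(X ⊓ Subgroup.centralizer (M : Set G)))) ?_
    intro a b hab
    have : (((a : ↥X) : G)) = (((b : ↥X) : G)) := by
      have := congrArg (fun y : ↥(X ⊓ Subgroup.centralizer (M : Set G)) => (y : G)) hab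
      exact this
    exact Subtype.ext (Subtype.ext this)
  calc Nat.card X = Nat.card φ.ker * Nat.card φ.range := h1.symm
    _ ≤ Nat.card ↥(X ⊓ Subgroup.centralizer (M : Set G)) * (Nat.card M).factorial :=
        Nat.mul_le_mul h3 h2
    _ = (Nat.card M).factorial * Nat.card ↥(X ⊓ Subgroup.centralizer (M : Set G)) :=
        Nat.mul_comm _ _

end Cfsg.Agent.Lib.Helper32.DCP7
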