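import Cfsg.Agent.Lib.Helper29.Bender
import Cfsg.Agent.Lib.Helper32.PConstr2
import Cfsg.Prelude.Def_Amalgam

set_option autoImplicit false
open Cfsg

namespace Cfsg.Agent.Lib.Helper32

section FitSub

variable {G : Type*} [Group G]

theorem pCoreOf_le (p : ℕ) (H : Subgroup G) : pCoreOf p H ≤ H := by
  rintro x ⟨y, -, rfl⟩
  exact y.2

theorem isPGroup_pCoreOf (p : ℕ) (H : Subgroup G) : IsPGroup p (pCoreOf p H) :=
  (Cfsg.Agent.Lib.Helper30.pCore_isPGroup p).map _

theorem le_normalizer_pCoreOf (p : ℕ) (H : Subgroup G) :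
    H ≤ Subgroup.normalizer (pCoreOf p H : Set G) := by
  have hn : (pCore p ↥H).Normal := Cfsg.Agent.Lib.Helper30.pCore_normal p ↥H
  exact Cfsg.Agent.Lib.Helper29.le_normalizer_map_subtype (pCore p ↥H)

theorem fittingOf_le (H : Subgroup G) : fittingOf H ≤ H := by
  rintro x ⟨y, -, rfl⟩
  exact y.2

theorem le_normalizer_fittingOf (H : Subgroup G) :
    H ≤ Subgroup.normalizer (fittingOf H : Set G) := by
  have hn : (fittingSubgroup ↥H).Normal := Cfsg.Agent.Lib.Helper30.fitting_normal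
  exact Cfsg.Agent.Lib.Helper29.le_normalizer_map_subtype (fittingSubgroup ↥H)

variable [Finite G]

theorem pCoreOf_le_fittingOf (p : ℕ) [Fact p.Prime] (H : Subgroup G) :
    pCoreOf p H ≤ fittingOf H := by
  apply Subgroup.map_mono
  exact le_sSup ⟨Cfsg.Agent.Lib.Helper30.pCore_normal p ↥H,
    (Cfsg.Agent.Lib.Helper30.pCore_isPGroup p).isNilpotent⟩

theorem isNilpotent_fittingOf (H : Subgroup G) : Group.IsNilpotent ↥(fittingOf H) :=
  (Group.isNilpotent_congr
    ((fittingSubgroup ↥H).equivMapOfInjective H.subtype H.subtype_injective)).mp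
    Cfsg.Agent.Lib.Helper30.fitting_nilpotent

theorem mem_pCoreOf_of_mem_fittingOf (r : ℕ) [Fact r.Prime] {H : Subgroup G} {x : G}
    (hx : x ∈ fittingOf H) {k : ℕ} (hk : orderOf x = r ^ k) : x ∈ pCoreOf r H := by
  obtain ⟨y, hy, rfl⟩ := hx
  refine ⟨y, ?_, rfl⟩
  apply Cfsg.Agent.Lib.Helper29.mem_pCore_of_mem_fitting r hy (k := k)
  rw [← hk]
  exact (Subgroup.orderOf_coe y).symm

theorem fittingOf_le_of_pCoreOf_le {H L : Subgroup G}
    (h : ∀ r : ℕ, r.Prime → pCoreOf r H ≤ L) : fittingOf H ≤ L := by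
  intro x hx
  apply Cfsg.Agent.Lib.Helper34.mem_of_prime_pow_mem' L x
  rintro c hc ⟨r, k, hr, hck⟩
  have hcF : c ∈ fittingOf H := (Subgroup.zpowers_le.mpr hx) hc
  haveI : Fact r.Prime := ⟨hr⟩
  exact h r hr (mem_pCoreOf_of_mem_fittingOf r hcF hck)

/-- In a solvable group the Fitting subgroup contains its centralizer (type version). -/
theorem centralizer_fitting_le_of_solvable (Λ : Type*) [Group Λ] [Finite Λ]
    [hs : Group.IsSolvable Λ] :
    Subgroup.centralizer (fittingSubgroup Λ : Set Λ) ≤ fittingSubgroup Λ := by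
  have hl : layer Λ = ⊥ := by
    rw [Cfsg.Agent.Lib.Helper30.layer_eq_bot_iff]
    intro K hK
    have h2 : Group.IsSolvable K := inferInstance
    exact Cfsg.Agent.Lib.Helper30.comp_not_solvable hK h2
  have hg : generalizedFittingSubgroup Λ = fittingSubgroup Λ := by
    unfold generalizedFittingSubgroup
    rw [hl, bot_sup_eq]
  have := Cfsg.Agent.Lib.Helper30.centralizer_genFitting_le (G := Λ)
  rwa [hg] at this

theorem centralizer_fittingOf_le {H : Subgroup G} (hs : Group.IsSolvable ↥H) :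
    H ⊓ Subgroup.centralizer (fittingOf H : Set G) ≤ fittingOf H := by
  rintro x ⟨hxH, hxc⟩
  have h1 : (⟨x, hxH⟩ : ↥H) ∈ Subgroup.centralizer (fittingSubgroup ↥H : Set ↥H) := by
    rw [Subgroup.mem_centralizer_iff]
    intro f hf
    have := Subgroup.mem_centralizer_iff.mp hxc (f : G) ⟨f, hf, rfl⟩
    exact Subtype.ext this
  exact ⟨⟨x, hxH⟩, centralizer_fitting_le_of_solvable ↥H h1, rfl⟩

/-- `Z(F(H)) ∩ O_p(H)` as a subgroup of `G`. -/
def zOf (p : ℕ) (H : Subgroup G) : Subgroup G :=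
  pCoreOf p H ⊓ Subgroup.centralizer (fittingOf H : Set G)

omit [Finite G] in
theorem isPGroup_zOf (p : ℕ) (H : Subgroup G) : IsPGroup p (zOf p H) :=
  (isPGroup_pCoreOf p H).to_le inf_le_left

omit [Finite G] in
theorem zOf_le_pCoreOf (p : ℕ) (H : Subgroup G) : zOf p H ≤ pCoreOf p H := inf_le_left

theorem zOf_le_fittingOf (p : ℕ) [Fact p.Prime] (H : Subgroup G) : zOf p H ≤ fittingOf H :=
  inf_le_left.trans (pCoreOf_le_fittingOf p H)

theorem zOf_le_center (p : ℕ) [Fact p.Prime] (H : Subgroup G) :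
    zOf p H ≤ fittingOf H ⊓ Subgroup.centralizer (fittingOf H : Set G) :=
  le_inf (zOf_le_fittingOf p H) inf_le_right

omit [Finite G] in
theorem zOf_le (p : ℕ) (H : Subgroup G) : zOf p H ≤ H :=
  inf_le_left.trans (pCoreOf_le p H)

omit [Finite G] in
theorem le_normalizer_zOf (p : ℕ) (H : Subgroup G) :
    H ≤ Subgroup.normalizer (zOf p H : Set G) :=
  Cfsg.Agent.Lib.Helper29.le_normalizer_inf' (le_normalizer_pCoreOf p H)
    ((le_normalizer_fittingOf H).trans
      (Cfsg.Agent.Lib.Helper29.normalizer_le_normalizer_centralizer _))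

omit [Finite G] in
theorem zOf_commute {p : ℕ} {H : Subgroup G} {a b : G} (ha : a ∈ zOf p H)
    (hb : b ∈ fittingOf H) : a * b = b * a :=
  (Subgroup.mem_centralizer_iff.mp ha.2 b hb).symm

theorem zOf_ne_bot (p : ℕ) [hp : Fact p.Prime] (H : Subgroup G)
    (h : p ∣ Nat.card (fittingOf H)) : zOf p H ≠ ⊥ := by
  have hnil : Group.IsNilpotent ↥(fittingSubgroup ↥H) := Cfsg.Agent.Lib.Helper30.fitting_nilpotent
  have hd : p ∣ Nat.card ↥(fittingSubgroup ↥H) := by
    rw [← Cfsg.Agent.Lib.Helper30.card_map_subtype]; exact h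
  obtain ⟨z, hz, hzo⟩ := Cfsg.Agent.Lib.Helper34.exists_center_orderOf_eq_prime p hd
  have hzF : ((z : ↥H) : G) ∈ fittingOf H := ⟨(z : ↥H), z.2, rfl⟩
  have hord : orderOf ((z : ↥H) : G) = p ^ 1 := by
    rw [pow_one, Subgroup.orderOf_coe, Subgroup.orderOf_coe, hzo]
  have hzp : ((z : ↥H) : G) ∈ pCoreOf p H := mem_pCoreOf_of_mem_fittingOf p hzF hord
  have hzc : ((z : ↥H) : G) ∈ Subgroup.centralizer (fittingOf H : Set G) := by
    rw [Subgroup.mem_centralizer_iff]
    rintro _ ⟨f, hf, rfl⟩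
    have h1 := Subgroup.mem_center_iff.mp hz ⟨f, hf⟩
    have h2 := congrArg (fun t : ↥(fittingSubgroup ↥H) => ((t : ↥H) : G)) h1
    simpa using h2
  intro hbot
  have h3 : ((z : ↥H) : G) ∈ zOf p H := ⟨hzp, hzc⟩
  rw [hbot, Subgroup.mem_bot] at h3
  rw [h3, orderOf_one, pow_one] at hord
  exact hp.out.one_lt.ne hord

/-- elements of a `p`-subgroup have `p`-power order -/
theorem exists_orderOf_eq_of_mem {p : ℕ} [Fact p.Prime] {P : Subgroup G} (hP : IsPGroup p P)
    {x : G} (hx : x ∈ P) : ∃ k : ℕ, orderOf x = p ^ k := by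
  obtain ⟨k, hk⟩ := (IsPGroup.iff_orderOf.mp hP) ⟨x, hx⟩
  exact ⟨k, by rw [← hk, Subgroup.orderOf_mk]⟩

/-- a `p`-subgroup and an `s`-subgroup (`p ≠ s`) meet trivially -/
theorem eq_one_of_mem_pgroups {p s : ℕ} [Fact p.Prime] [Fact s.Prime] (hps : p ≠ s)
    {P S : Subgroup G} (hP : IsPGroup p P) (hS : IsPGroup s S) {c : G} (hcP : c ∈ P)
    (hcS : c ∈ S) : c = 1 :=
  eq_one_of_mem_of_mem hP (coprime_of_isPGroup_ne (Ne.symm hps) hS) hcP hcS

theorem pCoreOf_eq_bot_of_not_dvd (q : ℕ) [hq : Fact q.Prime] (H : Subgroup G)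
    (h : ¬ q ∣ Nat.card (fittingOf H)) : pCoreOf q H = ⊥ := by
  rw [eq_bot_iff]
  intro x hx
  rw [Subgroup.mem_bot]
  have hcop : (Nat.card (fittingOf H)).Coprime q :=
    ((Nat.Prime.coprime_iff_not_dvd hq.out).mpr h).symm
  exact eq_one_of_mem_of_mem (isPGroup_pCoreOf q H) hcop hx (pCoreOf_le_fittingOf q H hx)

/-- different cores of `H` commute elementwise -/
theorem pCoreOf_commute {p s : ℕ} [Fact p.Prime] [Fact s.Prime] (hps : p ≠ s) (H : Subgroup G)
    {a b : G} (ha : a ∈ pCoreOf p H) (hb : b ∈ pCoreOf s H) : a * b = b * a := by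
  have hbot : pCoreOf p H ⊓ pCoreOf s H = ⊥ := by
    rw [eq_bot_iff]
    rintro c ⟨h1, h2⟩
    rw [Subgroup.mem_bot]
    exact eq_one_of_mem_pgroups hps (isPGroup_pCoreOf p H) (isPGroup_pCoreOf s H) h1 h2
  exact (Cfsg.Agent.Lib.Helper30.commute_of_normalize_of_inf_eq_bot
    ((pCoreOf_le p H).trans (le_normalizer_pCoreOf s H))
    ((pCoreOf_le s H).trans (le_normalizer_pCoreOf p H)) hbot a ha b hb).eq

end FitSub

end Cfsg.Agent.Lib.Helper32
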