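import Cfsg.Agent.Lib.Helper32.TypeP

set_option autoImplicit false

namespace Cfsg.Agent.Lib.Helper32

/-- Two commuting endomorphisms of exponent `p` of a commutative group such that `φ` and all
`φ ^ i * ψ` have no non-identity fixed points: then the group has exponent `p`. -/
theorem norm_trick {V : Type*} [CommGroup V] {p : ℕ} [hp : Fact p.Prime] (φ ψ : Monoid.End V)
    (hcomm : Commute φ ψ) (hφ : φ ^ p = 1) (hψ : ψ ^ p = 1)
    (h1 : ∀ u, φ u = u → u = 1) (h2 : ∀ (i : ℕ) (u : V), (φ ^ i * ψ) u = u → u = 1) :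
    ∀ v : V, v ^ p = 1 := by
  intro v
  have : NeZero p := ⟨hp.out.ne_zero⟩
  have : Fact (1 < p) := ⟨hp.out.one_lt⟩
  have hfix : ∀ (θ : Monoid.End V), θ ^ p = 1 → ∀ u,
      θ (∏ a : ZMod p, (θ ^ a.val) u) = ∏ a : ZMod p, (θ ^ a.val) u := by
    intro θ hθ u
    rw [map_prod]
    refine Fintype.prod_equiv (Equiv.addRight (1 : ZMod p)) _ _ (fun a => ?_)
    show θ ((θ ^ a.val) u) = (θ ^ (a + 1).val) u
    rw [ZMod.val_add, ← pow_eq_pow_mod _ hθ, ZMod.val_one, pow_succ']
    rfl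
  have hN : ∀ (θ : Monoid.End V), θ ^ p = 1 → (∀ u, θ u = u → u = 1) → ∀ u,
      ∏ a : ZMod p, (θ ^ a.val) u = 1 :=
    fun θ hθ hfp u => hfp _ (hfix θ hθ u)
  have hA : ∀ i : ZMod p, ∏ j : ZMod p, ((φ ^ i.val * ψ) ^ j.val) v = 1 := by
    intro i
    apply hN
    · rw [(hcomm.pow_left _).mul_pow, ← pow_mul, mul_comm, pow_mul, hφ, one_pow, hψ, one_mul]
    · exact h2 i.val
  have hB : ∏ i : ZMod p, ∏ j : ZMod p, ((φ ^ i.val * ψ) ^ j.val) v = v ^ p := by
    rw [Finset.prod_comm]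
    rw [Fintype.prod_eq_single (0 : ZMod p)]
    · simp [ZMod.val_zero]
    · intro j hj
      have hterm : ∀ i : ZMod p, ((φ ^ i.val * ψ) ^ j.val) v = (φ ^ (i * j).val) ((ψ ^ j.val) v) := by
        intro i
        rw [(hcomm.pow_left _).mul_pow, ← pow_mul, ZMod.val_mul, ← pow_eq_pow_mod _ hφ]
        rfl
      simp_rw [hterm]
      rw [Fintype.prod_equiv (Equiv.mulRight₀ j hj)
        (fun i => (φ ^ (i * j).val) ((ψ ^ j.val) v)) (fun i => (φ ^ i.val) ((ψ ^ j.val) v))
        (fun i => rfl)]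
      exact hN φ hφ h1 _
  rw [← hB]
  exact Finset.prod_eq_one (fun i _ => hA i)

/-- Conjugation by an element normalizing `Q`, acting on the centre of `Q`. -/
def conjCenter {G : Type*} [Group G] (Q : Subgroup G) (x : G)
    (hx : x ∈ Subgroup.normalizer (Q : Set G)) : Subgroup.center Q →* Subgroup.center Q where
  toFun z := ⟨⟨x * (z : G) * x⁻¹, (Subgroup.mem_normalizer_iff.mp hx _).mp z.1.2⟩, by
    rw [Subgroup.mem_center_iff]
    intro g
    apply Subtype.ext
    show (g : G) * (x * z * x⁻¹) = x * z * x⁻¹ * g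
    have hg' : x⁻¹ * g * x ∈ Q := (Subgroup.mem_normalizer_iff''.mp hx (g : G)).mp g.2
    have hz := Subgroup.mem_center_iff.mp z.2 ⟨x⁻¹ * g * x, hg'⟩
    have hz' : x⁻¹ * g * x * (z : G) = z * (x⁻¹ * g * x) := congrArg Subtype.val hz
    calc (g : G) * (x * z * x⁻¹) = x * (x⁻¹ * g * x * z) * x⁻¹ := by group
      _ = x * (z * (x⁻¹ * g * x)) * x⁻¹ := by rw [hz']
      _ = x * z * x⁻¹ * g := by group⟩
  map_one' := by
    apply Subtype.ext; apply Subtype.ext
    show x * (1 : G) * x⁻¹ = 1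
    group
  map_mul' a b := by
    apply Subtype.ext; apply Subtype.ext
    show x * ((a : G) * (b : G)) * x⁻¹ = (x * (a : G) * x⁻¹) * (x * (b : G) * x⁻¹)
    group

theorem conjCenter_coe {G : Type*} [Group G] (Q : Subgroup G) (x : G)
    (hx : x ∈ Subgroup.normalizer (Q : Set G)) (z : Subgroup.center Q) :
    ((conjCenter Q x hx z : Subgroup.center Q) : G) = x * (z : G) * x⁻¹ := rfl

/-- Conjugation on the centre of `Q`, as a homomorphism from the normalizer of `Q`. -/
def conjCenterHom {G : Type*} [Group G] (Q : Subgroup G) :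
    ↥(Subgroup.normalizer (Q : Set G)) →* Monoid.End ↥(Subgroup.center ↥Q) where
  toFun x := conjCenter Q x.1 x.2
  map_one' := by
    apply MonoidHom.ext
    intro z
    apply Subtype.ext; apply Subtype.ext
    show (1 : G) * (z : G) * (1 : G)⁻¹ = z
    group
  map_mul' x y := by
    apply MonoidHom.ext
    intro z
    apply Subtype.ext; apply Subtype.ext
    show (x : G) * (y : G) * (z : G) * ((x : G) * (y : G))⁻¹ = x * (y * z * (y : G)⁻¹) * (x : G)⁻¹
    group

theorem conjCenterHom_coe {G : Type*} [Group G] (Q : Subgroup G)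
    (x : ↥(Subgroup.normalizer (Q : Set G))) (z : Subgroup.center Q) :
    ((conjCenterHom Q x z : Subgroup.center Q) : G) = x * (z : G) * (x : G)⁻¹ := rfl

open scoped IsMulCommutative in
/-- An abelian group `E` of exponent `p` with `|E : Z| ≥ p ^ 2` normalizing a nontrivial `q`-group
`Q` (`q ≠ p`) has an element outside `Z` centralizing a non-identity element of `Q`. -/
theorem exists_fixed_of_rank_two {G : Type*} [Group G] [Finite G] {p q : ℕ} [hp : Fact p.Prime]
    [hq : Fact q.Prime] (hpq : p ≠ q) (E Z Q : Subgroup G)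
    (hEc : ∀ a ∈ E, ∀ b ∈ E, a * b = b * a) (hEp : ∀ a ∈ E, a ^ p = 1) (hZE : Z ≤ E)
    (hcard : p ^ 2 * Nat.card Z ≤ Nat.card E) (hQ : IsPGroup q Q) (hQ1 : Q ≠ ⊥)
    (hEQ : E ≤ Subgroup.normalizer (Q : Set G)) :
    ∃ x ∈ E, x ∉ Z ∧ Q ⊓ Subgroup.centralizer ({x} : Set G) ≠ ⊥ := by
  by_contra hcon
  have hcon' : ∀ x ∈ E, x ∉ Z → Q ⊓ Subgroup.centralizer ({x} : Set G) = ⊥ := by
    intro x hx hxZ
    by_contra h
    exact hcon ⟨x, hx, hxZ, h⟩
  have hZpos : 0 < Nat.card Z := Nat.card_pos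
  have hp2 : 2 ≤ p := hp.out.two_le
  obtain ⟨e, heE, heZ⟩ : ∃ e ∈ E, e ∉ Z := by
    by_contra h
    have hle : E ≤ Z := fun a ha => by
      by_contra hb
      exact h ⟨a, ha, hb⟩
    have := Subgroup.card_le_of_le hle
    have h4 : 4 ≤ p ^ 2 := by nlinarith
    have h5 : 4 * Nat.card Z ≤ p ^ 2 * Nat.card Z := Nat.mul_le_mul_right _ h4
    omega
  have hzpE : Subgroup.zpowers e ≤ E := by
    rw [Subgroup.zpowers_le]; exact heE
  have hcardZ' : Nat.card ↥(Z ⊔ Subgroup.zpowers e) ≤ Nat.card Z * p := by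
    have hsurj : Function.Surjective
        (fun x : Z × Subgroup.zpowers e => (⟨(x.1 : G) * (x.2 : G),
          Subgroup.mul_mem _ (Subgroup.mem_sup_left x.1.2) (Subgroup.mem_sup_right x.2.2)⟩ :
            ↥(Z ⊔ Subgroup.zpowers e))) := by
      rintro ⟨y, hy⟩
      obtain ⟨a, ha, b, hb, rfl⟩ := sup_decomp Z (Subgroup.zpowers e)
        (fun a ha b hb => hEc a (hZE ha) b (hzpE hb)) y hy
      exact ⟨(⟨a, ha⟩, ⟨b, hb⟩), rfl⟩
    have h1 := Nat.card_le_card_of_surjective _ hsurj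
    rw [Nat.card_prod, Nat.card_zpowers] at h1
    have h2 : orderOf e ≤ p := Nat.le_of_dvd hp.out.pos (orderOf_dvd_of_pow_eq_one (hEp e heE))
    exact h1.trans (Nat.mul_le_mul_left _ h2)
  obtain ⟨f, hfE, hfZ'⟩ : ∃ f ∈ E, f ∉ Z ⊔ Subgroup.zpowers e := by
    by_contra h
    have hle : E ≤ Z ⊔ Subgroup.zpowers e := fun a ha => by
      by_contra hb
      exact h ⟨a, ha, hb⟩
    have := Subgroup.card_le_of_le hle
    have h5 : Nat.card Z * p * 2 ≤ Nat.card Z * p * p := Nat.mul_le_mul_left _ hp2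
    have h6 : p ^ 2 * Nat.card Z = Nat.card Z * p * p := by ring
    have h7 : 0 < Nat.card Z * p := Nat.mul_pos hZpos hp.out.pos
    omega
  have hef : ∀ i : ℕ, e ^ i * f ∉ Z := by
    intro i h
    apply hfZ'
    have h1 : f = (e ^ i)⁻¹ * (e ^ i * f) := by group
    rw [h1]
    exact Subgroup.mul_mem _
      (Subgroup.mem_sup_right (Subgroup.inv_mem _ (Subgroup.pow_mem _ (Subgroup.mem_zpowers e) i)))
      (Subgroup.mem_sup_left h)
  -- the two endomorphisms
  set e' : ↥(Subgroup.normalizer (Q : Set G)) := ⟨e, hEQ heE⟩ with he'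
  set f' : ↥(Subgroup.normalizer (Q : Set G)) := ⟨f, hEQ hfE⟩ with hf'
  have hcomm : Commute e' f' := Subtype.ext (hEc e heE f hfE)
  have he'p : e' ^ p = 1 := Subtype.ext (hEp e heE)
  have hf'p : f' ^ p = 1 := Subtype.ext (hEp f hfE)
  have hfixed : ∀ (x : ↥(Subgroup.normalizer (Q : Set G))), (x : G) ∈ E → (x : G) ∉ Z →
      ∀ u : Subgroup.center Q, conjCenterHom Q x u = u → u = 1 := by
    intro x hxE hxZ u hu
    have h1 : (x : G) * (u : G) * (x : G)⁻¹ = u := by
      have := congrArg (fun w : Subgroup.center Q => ((w : Q) : G)) hu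
      simpa [conjCenterHom_coe] using this
    have h2 : (u : G) ∈ Q ⊓ Subgroup.centralizer ({(x : G)} : Set G) := by
      refine ⟨u.1.2, Subgroup.mem_centralizer_iff.mpr ?_⟩
      intro h hh
      rw [Set.mem_singleton_iff] at hh
      subst hh
      calc (x : G) * (u : G) = (x : G) * (u : G) * (x : G)⁻¹ * x := by group
        _ = u * x := by rw [h1]
    rw [hcon' x hxE hxZ, Subgroup.mem_bot] at h2
    apply Subtype.ext; apply Subtype.ext
    exact h2
  have key := norm_trick (p := p) (conjCenterHom Q e') (conjCenterHom Q f')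
    (hcomm.map (conjCenterHom Q))
    (by rw [← map_pow, he'p, map_one]) (by rw [← map_pow, hf'p, map_one])
    (hfixed e' heE heZ)
    (fun i u hu => by
      rw [← map_pow, ← map_mul] at hu
      exact hfixed (e' ^ i * f') (E.mul_mem (E.pow_mem heE i) hfE) (hef i) u hu)
  have hQnt : Nontrivial Q := (Subgroup.nontrivial_iff_ne_bot Q).mpr hQ1
  have hcnt : Nontrivial (Subgroup.center Q) := hQ.center_nontrivial
  obtain ⟨v, hv⟩ := exists_ne (1 : Subgroup.center Q)
  have hvp := key v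
  have hord : orderOf v = p := by
    rcases (Nat.dvd_prime hp.out).mp (orderOf_dvd_of_pow_eq_one hvp) with h | h
    · exact absurd (orderOf_eq_one_iff.mp h) hv
    · exact h
  obtain ⟨k, hk⟩ := (IsPGroup.iff_orderOf.mp (hQ.to_subgroup (Subgroup.center Q))) v
  rw [hord] at hk
  have hk0 : k ≠ 0 := by
    rintro rfl
    rw [pow_zero] at hk
    exact hp.out.one_lt.ne' hk
  have hqp : q ∣ p := hk ▸ dvd_pow_self q hk0
  exact hpq ((Nat.prime_dvd_prime_iff_eq hq.out hp.out).mp hqp).symm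

end Cfsg.Agent.Lib.Helper32
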