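import Cfsg.Agent.Lib.Helper96.HyDefs

/-!
Project HY (S5992, helper96), piece HYPMAP (helper32): the image of a hyperbolic subspace under
an isometric linear equivalence is hyperbolic of the same dimension.
-/

set_option autoImplicit false
set_option linter.unusedSectionVars false
set_option linter.unusedVariables false

namespace Cfsg.Agent.Lib.Helper32.Hy

open Module Polynomial Cfsg.Agent.Lib.Helper96.Sp Cfsg.Agent.Lib.Helper96.Hy
  Cfsg.Agent.Lib.Helper47

universe u

variable {F : Type u} [Field F] [Fintype F] {V : Type u} [AddCommGroup V] [Module F V]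
  [FiniteDimensional F V] {B : LinearMap.BilinForm F V}

-- PIECE HYPMAP
theorem hyp_map (W : Submodule F V) (g : V ≃ₗ[F] V) (hg : Isom B (g : V →ₗ[F] V))
    (hW : Hyp B W) :
    Hyp B (W.map (g : V →ₗ[F] V)) ∧ finrank F (W.map (g : V →ₗ[F] V)) = finrank F W := by
  obtain ⟨hND, U, hUW, hUU, hfin⟩ := hW
  have hfW : finrank F (W.map (g : V →ₗ[F] V)) = finrank F W := LinearEquiv.finrank_map_eq g W
  have hfU : finrank F (U.map (g : V →ₗ[F] V)) = finrank F U := LinearEquiv.finrank_map_eq g U
  refine ⟨⟨?_, U.map (g : V →ₗ[F] V), Submodule.map_mono hUW, ?_, ?_⟩, hfW⟩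
  · intro u' hu' h
    obtain ⟨u, hu, rfl⟩ := Submodule.mem_map.mp hu'
    have h0 : u = 0 := by
      apply hND u hu
      intro v hv
      have h1 := h ((g : V →ₗ[F] V) v) (Submodule.mem_map_of_mem hv)
      rwa [hg u v] at h1
    rw [h0, map_zero]
  · intro a' ha' b' hb'
    obtain ⟨a, ha, rfl⟩ := Submodule.mem_map.mp ha'
    obtain ⟨b, hb, rfl⟩ := Submodule.mem_map.mp hb'
    rw [hg a b]
    exact hUU a ha b hb
  · rw [hfU, hfW]
    exact hfin

end Cfsg.Agent.Lib.Helper32.Hy
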