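import Mathlib
import Cfsg.Agent.Lib.Helper58.JEDefs
import Cfsg.Agent.Lib.Helper94.JcTH
import Cfsg.Agent.Lib.Helper82.JcOCPC

/-! Project JE (S2948, helper58), piece JE-W1 (helper32): the four-group `W₁ = [y, V]`. -/

set_option autoImplicit false

namespace Cfsg.Agent.Lib.Helper32.JE

open Cfsg.Agent.Lib.Helper58.JE Cfsg.Agent.Lib.Helper72.JL Cfsg.Agent.Lib.Helper72.SC
  Cfsg.Agent.Lib.Helper78.Jc

universe u

/-- three pairwise commuting elements -/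
theorem w1_three {G : Type*} [Group G] (a b c : G) (hab : a * b = b * a) (hac : a * c = c * a)
    (hbc : b * c = c * b) : (b * a⁻¹) * (c * b⁻¹) * (a * c⁻¹) = 1 := by
  have h1 : a⁻¹ * c = c * a⁻¹ := (Commute.inv_left (show Commute a c from hac)).eq
  have h2 : b⁻¹ * a = a * b⁻¹ := (Commute.inv_left (show Commute b a from hab.symm)).eq
  calc (b * a⁻¹) * (c * b⁻¹) * (a * c⁻¹) = b * (a⁻¹ * c) * (b⁻¹ * a) * c⁻¹ := by group
    _ = b * (c * a⁻¹) * (a * b⁻¹) * c⁻¹ := by rw [h1, h2]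
    _ = (b * c) * b⁻¹ * c⁻¹ := by group
    _ = (c * b) * b⁻¹ * c⁻¹ := by rw [hbc]
    _ = 1 := by group

/-- the subgroup `[y, V]` of an abelian subgroup `V` normalized by `y` -/
def w1Sub {G : Type*} [Group G] (V : Subgroup G) (y : G)
    (hVc : ∀ u ∈ V, ∀ v ∈ V, u * v = v * u) (hk : ∀ v ∈ V, y * v * y⁻¹ ∈ V) : Subgroup G where
  carrier := {w | ∃ v ∈ V, w = y * v * y⁻¹ * v⁻¹}
  one_mem' := ⟨1, V.one_mem, by group⟩
  mul_mem' := by
    rintro _ _ ⟨v, hv, rfl⟩ ⟨v', hv', rfl⟩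
    refine ⟨v * v', V.mul_mem hv hv', ?_⟩
    have h1 : v⁻¹ * (y * v' * y⁻¹) = (y * v' * y⁻¹) * v⁻¹ :=
      hVc _ (V.inv_mem hv) _ (hk v' hv')
    have h2 : v⁻¹ * v'⁻¹ = v'⁻¹ * v⁻¹ := hVc _ (V.inv_mem hv) _ (V.inv_mem hv')
    calc (y * v * y⁻¹ * v⁻¹) * (y * v' * y⁻¹ * v'⁻¹)
        = y * v * y⁻¹ * (v⁻¹ * (y * v' * y⁻¹)) * v'⁻¹ := by group
      _ = y * v * y⁻¹ * ((y * v' * y⁻¹) * v⁻¹) * v'⁻¹ := by rw [h1]
      _ = y * (v * v') * y⁻¹ * (v⁻¹ * v'⁻¹) := by group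
      _ = y * (v * v') * y⁻¹ * (v'⁻¹ * v⁻¹) := by rw [h2]
      _ = y * (v * v') * y⁻¹ * (v * v')⁻¹ := by group
  inv_mem' := by
    rintro _ ⟨v, hv, rfl⟩
    refine ⟨v⁻¹, V.inv_mem hv, ?_⟩
    have h1 : v * (y * v⁻¹ * y⁻¹) = (y * v⁻¹ * y⁻¹) * v := hVc _ hv _ (hk _ (V.inv_mem hv))
    calc (y * v * y⁻¹ * v⁻¹)⁻¹ = v * (y * v⁻¹ * y⁻¹) := by group
      _ = (y * v⁻¹ * y⁻¹) * v := h1
      _ = y * v⁻¹ * y⁻¹ * (v⁻¹)⁻¹ := by group

theorem mem_w1Sub {G : Type*} [Group G] (V : Subgroup G) (y : G)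
    (hVc : ∀ u ∈ V, ∀ v ∈ V, u * v = v * u) (hk : ∀ v ∈ V, y * v * y⁻¹ ∈ V) (w : G) :
    w ∈ w1Sub V y hVc hk ↔ ∃ v ∈ V, w = y * v * y⁻¹ * v⁻¹ := Iff.rfl

theorem w1 : W1Stmt.{u} := by
  intro G _ _ T L Q C V D A b y hD hY hY2 hK1
  classical
  obtain ⟨hyD, hyC, hy3, hby⟩ := hY
  obtain ⟨hKL, hyK, -, -, hQK, -, -⟩ := hK1
  have hyL : y ∈ L := hD.hDL hyD
  have hyyy : y * y * y = 1 := by
    have h := hy3
    rwa [pow_succ, pow_two] at h
  have hb2 : b * b = 1 := hD.hA.2.2.1 b hD.hbA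
  have hbinv : b⁻¹ = b := inv_eq_of_mul_eq_one_left hb2
  -- conjugation by elements of `L` preserves `V`
  have hLV : ∀ x ∈ L, ∀ v ∈ V, x * v * x⁻¹ ∈ V := fun x hx v hv =>
    (Subgroup.mem_normalizer_iff.mp (hD.hVn hx) v).mp hv
  have hk : ∀ v ∈ V, y * v * y⁻¹ ∈ V := hLV y hyL
  have hk' : ∀ v ∈ V, y⁻¹ * v * y ∈ V := by
    intro v hv
    have h := hLV y⁻¹ (L.inv_mem hyL) v hv
    rwa [inv_inv] at h
  have hVc := hD.hVc
  have hV2 := hD.hV2
  -- elements of `Q` centralize `V`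
  have hQV : ∀ q ∈ Q, ∀ v ∈ V, q * v = v * q := fun q hq =>
    (hD.hCV q (hD.hTL (hD.hQT hq))).mp (hD.hQC hq)
  set W₁ : Subgroup G := w1Sub V y hVc hk with hW₁
  have hWV : ∀ w ∈ W₁, w ∈ V := by
    rintro _ ⟨v, hv, rfl⟩
    exact V.mul_mem (hk v hv) (V.inv_mem hv)
  -- `y`-invariance
  have hWy : ∀ w ∈ W₁, y * w * y⁻¹ ∈ W₁ := by
    rintro _ ⟨v, hv, rfl⟩
    exact ⟨y * v * y⁻¹, hk v hv, by group⟩
  -- third power of the conjugation
  have hk3 : ∀ w : G, y * (y * (y * w * y⁻¹) * y⁻¹) * y⁻¹ = w := by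
    intro w
    have h1 : y * (y * (y * w * y⁻¹) * y⁻¹) * y⁻¹ = (y * y * y) * w * (y * y * y)⁻¹ := by group
    rw [h1, hyyy]
    group
  -- fixed-point-freeness
  have hfpf : ∀ w ∈ W₁, y * w * y⁻¹ = w → w = 1 := by
    intro w hw hfix
    obtain ⟨v, hv, hwv⟩ := hw
    have hb0 : y * v * y⁻¹ ∈ V := hk v hv
    have hc0 : y * (y * v * y⁻¹) * y⁻¹ ∈ V := hk _ hb0
    have e1 : y * w * y⁻¹ = (y * (y * v * y⁻¹) * y⁻¹) * (y * v * y⁻¹)⁻¹ := by
      rw [hwv]; group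
    have e2 : y * (y * w * y⁻¹) * y⁻¹ = v * (y * (y * v * y⁻¹) * y⁻¹)⁻¹ := by
      have h1 : y * (y * w * y⁻¹) * y⁻¹ =
          (y * (y * (y * v * y⁻¹) * y⁻¹) * y⁻¹) * (y * (y * v * y⁻¹) * y⁻¹)⁻¹ := by
        rw [hwv]; group
      rw [h1, hk3]
    have e3 : y * (y * w * y⁻¹) * y⁻¹ = w := by rw [hfix, hfix]
    have h3 := w1_three v (y * v * y⁻¹) (y * (y * v * y⁻¹) * y⁻¹) (hVc _ hv _ hb0)
      (hVc _ hv _ hc0) (hVc _ hb0 _ hc0)
    rw [← hwv, ← e1, ← e2, hfix, hfix] at h3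
    have hww : w * w = 1 := hV2 w (hWV w ⟨v, hv, hwv⟩)
    rw [hww, one_mul] at h3
    exact h3
  -- `A`-invariance
  have hWA : ∀ a ∈ A, ∀ w ∈ W₁, a * w * a⁻¹ ∈ W₁ := by
    intro a ha w hw
    obtain ⟨v, hv, rfl⟩ := hw
    have haT : a ∈ T := hD.hA.1 ha
    have haL : a ∈ L := hD.hTL haT
    have haD : a ∈ Subgroup.normalizer (D : Set G) :=
      hD.hDJ (Cfsg.Agent.Lib.Helper94.Jc.th_le T A hD.hA ha)
    have hv' : a * v * a⁻¹ ∈ V := hLV a haL v hv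
    rcases hY2 a haT haD with hq | hq
    · have e1 : a * (y * v * y⁻¹ * v⁻¹) * a⁻¹ =
          (a * y * a⁻¹ * y⁻¹) * (y * (a * v * a⁻¹) * y⁻¹) * (a * y * a⁻¹ * y⁻¹)⁻¹ *
            (a * v * a⁻¹)⁻¹ := by group
      have h1 := hQV _ hq _ (hk _ hv')
      rw [e1, h1, mul_inv_cancel_right]
      exact ⟨a * v * a⁻¹, hv', rfl⟩
    · have e1 : a * (y * v * y⁻¹ * v⁻¹) * a⁻¹ =
          (a * y * a⁻¹ * y) * (y⁻¹ * (a * v * a⁻¹) * y) * (a * y * a⁻¹ * y)⁻¹ *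
            (a * v * a⁻¹)⁻¹ := by group
      have hu : y⁻¹ * (a * v * a⁻¹) * y ∈ V := hk' _ hv'
      have h1 := hQV _ hq _ hu
      rw [e1, h1, mul_inv_cancel_right]
      have e2 : y⁻¹ * (a * v * a⁻¹) * y * (a * v * a⁻¹)⁻¹ =
          (y * (y⁻¹ * (a * v * a⁻¹) * y) * y⁻¹ * (y⁻¹ * (a * v * a⁻¹) * y)⁻¹)⁻¹ := by group
      rw [e2]
      exact W₁.inv_mem ⟨_, hu, rfl⟩
  -- `W₁ ≤ Ω₁(Z(K ∩ Q))`
  have hWoc : W₁ ≤ Cfsg.omegaCenterOf (KOf Q y ⊓ Q) := by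
    intro w hw
    have hwV := hWV w hw
    obtain ⟨v, hv, rfl⟩ := hw
    apply Cfsg.Agent.Lib.Helper82.Jc.oc_mem
    · refine Subgroup.mem_inf.mpr ⟨?_, hD.hVQ hwV⟩
      have h1 : v * y⁻¹ * v⁻¹ ∈ KOf Q y :=
        (Subgroup.mem_normalizer_iff.mp (hQK (hD.hVQ hv)) y⁻¹).mp ((KOf Q y).inv_mem hyK)
      have h2 : y * v * y⁻¹ * v⁻¹ = y * (v * y⁻¹ * v⁻¹) := by group
      rw [h2]
      exact (KOf Q y).mul_mem hyK h1
    · intro x hx
      exact (hQV x (Subgroup.mem_inf.mp hx).2 _ hwV).symm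
    · exact hV2 _ hwV
  -- the order
  have hcard : Nat.card ↥W₁ = 4 := by
    have hncard : Nat.card ↥W₁ = (W₁ : Set G).ncard := Nat.card_coe_set_eq (W₁ : Set G)
    rw [hncard]
    apply le_antisymm
    · -- at most four elements
      obtain ⟨v₀, hv₀, hbV⟩ := hD.hbV
      obtain ⟨b', hb'⟩ : ∃ b' : G, b' = y * b * y⁻¹ := ⟨_, rfl⟩
      have hyb : b * b' = y := by
        have h1 : b * y * b = y⁻¹ := by
          have := hby
          rwa [hbinv] at this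
        have h2 : b * b' = (b * y * b) * y⁻¹ := by rw [hb']; group
        rw [h2, h1]
        have h3 : y⁻¹ * y⁻¹ = (y * y)⁻¹ := by group
        rw [h3]
        exact inv_eq_of_mul_eq_one_left (by rw [← mul_assoc]; exact hyyy)
      have hsub : (W₁ : Set G) ⊆
          ((({1, v₀, b * (y * v₀ * y⁻¹) * b⁻¹, b * (y * v₀ * y⁻¹) * b⁻¹ * v₀} : Finset G)) :
            Set G) := by
        rintro _ ⟨v, hv, rfl⟩
        have hu : y⁻¹ * v * y ∈ V := hk' v hv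
        have e1 : y * v * y⁻¹ * v⁻¹ =
            b * (b' * v * b'⁻¹ * v⁻¹) * b⁻¹ * (b * v * b⁻¹ * v⁻¹) := by
          have : y * v * y⁻¹ * v⁻¹ = (b * b') * v * (b * b')⁻¹ * v⁻¹ := by rw [hyb]
          rw [this]; group
        have e2 : b' * v * b'⁻¹ * v⁻¹ =
            y * (b * (y⁻¹ * v * y) * b⁻¹ * (y⁻¹ * v * y)⁻¹) * y⁻¹ := by
          rw [hb']; group
        rw [e1, e2]
        simp only [Finset.coe_insert, Finset.coe_singleton, Set.mem_insert_iff,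
          Set.mem_singleton_iff]
        rcases hbV _ hu with h1 | h1 <;> rcases hbV v hv with h2 | h2
        · left
          rw [h1, h2]; group
        · right; left
          rw [h1, h2]; group
        · right; right; left
          rw [h1, h2]; group
        · right; right; right
          rw [h1, h2]
      calc (W₁ : Set G).ncard ≤ ((({1, v₀, b * (y * v₀ * y⁻¹) * b⁻¹,
            b * (y * v₀ * y⁻¹) * b⁻¹ * v₀} : Finset G)) : Set G).ncard :=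
            Set.ncard_le_ncard hsub (Finset.finite_toSet _)
        _ = ({1, v₀, b * (y * v₀ * y⁻¹) * b⁻¹, b * (y * v₀ * y⁻¹) * b⁻¹ * v₀} : Finset G).card :=
            Set.ncard_coe_finset _
        _ ≤ 4 := Finset.card_le_four
    · -- at least four elements
      have hnc : ¬ ∀ v ∈ V, y * v = v * y := fun h => hyC ((hD.hCV y hyL).mpr h)
      obtain ⟨v, hv'⟩ := not_forall.mp hnc
      obtain ⟨hv, hne⟩ := Classical.not_imp.mp hv'
      have hwW : y * v * y⁻¹ * v⁻¹ ∈ W₁ := ⟨v, hv, rfl⟩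
      obtain ⟨w, hw⟩ : ∃ w : G, w = y * v * y⁻¹ * v⁻¹ := ⟨_, rfl⟩
      rw [← hw] at hwW
      have hw1 : w ≠ 1 := by
        intro h
        apply hne
        rw [hw] at h
        have h2 : y * v = (y * v * y⁻¹ * v⁻¹) * v * y := by group
        rw [h2, h, one_mul]
      have hkw : y * w * y⁻¹ ∈ W₁ := hWy w hwW
      have hkkw : y * (y * w * y⁻¹) * y⁻¹ ∈ W₁ := hWy _ hkw
      have h01 : (1 : G) ≠ w := fun h => hw1 h.symm
      have h02 : (1 : G) ≠ y * w * y⁻¹ := fun h => hw1 (conj_eq_one_iff.mp h.symm)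
      have h03 : (1 : G) ≠ y * (y * w * y⁻¹) * y⁻¹ := fun h =>
        hw1 (conj_eq_one_iff.mp (conj_eq_one_iff.mp h.symm))
      have h12 : w ≠ y * w * y⁻¹ := fun h => hw1 (hfpf w hwW h.symm)
      have h23 : y * w * y⁻¹ ≠ y * (y * w * y⁻¹) * y⁻¹ := fun h =>
        hw1 (conj_eq_one_iff.mp (hfpf _ hkw h.symm))
      have h13 : w ≠ y * (y * w * y⁻¹) * y⁻¹ := by
        intro h
        apply h12
        have h4 : y * w * y⁻¹ = y * (y * (y * w * y⁻¹) * y⁻¹) * y⁻¹ := by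
          conv_lhs => rw [h]
        rw [hk3] at h4
        exact h4.symm
      have hF : ({1, w, y * w * y⁻¹, y * (y * w * y⁻¹) * y⁻¹} : Finset G).card = 4 := by
        rw [Finset.card_insert_of_notMem, Finset.card_insert_of_notMem,
          Finset.card_insert_of_notMem, Finset.card_singleton]
        · simpa using h23
        · simp only [Finset.mem_insert, Finset.mem_singleton, not_or]
          exact ⟨h12, h13⟩
        · simp only [Finset.mem_insert, Finset.mem_singleton, not_or]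
          exact ⟨h01, h02, h03⟩
      have hsub : ((({1, w, y * w * y⁻¹, y * (y * w * y⁻¹) * y⁻¹} : Finset G)) : Set G) ⊆
          (W₁ : Set G) := by
        intro x hx
        simp only [Finset.coe_insert, Finset.coe_singleton, Set.mem_insert_iff,
          Set.mem_singleton_iff] at hx
        rcases hx with rfl | rfl | rfl | rfl
        · exact W₁.one_mem
        · exact hwW
        · exact hkw
        · exact hkkw
      calc 4 = ({1, w, y * w * y⁻¹, y * (y * w * y⁻¹) * y⁻¹} : Finset G).card := hF.symm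
        _ = ((({1, w, y * w * y⁻¹, y * (y * w * y⁻¹) * y⁻¹} : Finset G)) : Set G).ncard :=
            (Set.ncard_coe_finset _).symm
        _ ≤ (W₁ : Set G).ncard := Set.ncard_le_ncard hsub (Set.toFinite _)
  exact ⟨W₁, hWoc, hcard, hWy, hfpf, hWA⟩

end Cfsg.Agent.Lib.Helper32.JE
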