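import Cfsg.Agent.Lib.Helper52.PN4Defs

/-! Project PN4 (helper52, for S2715), piece CONJ (helper32): conjugation by the diagonal
similarity `D8 d` is an automorphism of the commutator subgroup of `O8 F`. -/

set_option autoImplicit false
set_option linter.unusedSectionVars false
set_option linter.unusedVariables false

namespace Cfsg.Agent.Lib.Helper52.PN4

open Cfsg Cfsg.Lie Matrix Cfsg.Agent.Lib.Helper99 Cfsg.Agent.Lib.Helper99.D4

variable {F : Type*} [Field F]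

theorem pn4conj_mul (d : Fin 4 → Fˣ) : D8 d * D8i d = (1 : Matrix (Fin 8) (Fin 8) F) := by
  unfold D8 D8i
  rw [diagonal_mul_diagonal]
  have h : (fun i : Fin 8 => ((dl d i : Fˣ) : F) * (((dl d i)⁻¹ : Fˣ) : F)) = fun _ => 1 := by
    funext i
    rw [← Units.val_mul, mul_inv_cancel, Units.val_one]
  rw [h, diagonal_one]

theorem pn4conj_mul' (d : Fin 4 → Fˣ) : D8i d * D8 d = (1 : Matrix (Fin 8) (Fin 8) F) := by
  unfold D8 D8i
  rw [diagonal_mul_diagonal]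
  have h : (fun i : Fin 8 => (((dl d i)⁻¹ : Fˣ) : F) * ((dl d i : Fˣ) : F)) = fun _ => 1 := by
    funext i
    rw [← Units.val_mul, inv_mul_cancel, Units.val_one]
  rw [h, diagonal_one]

theorem pn4conj_dl (d : Fin 4 → Fˣ) :
    dl d 0 * dl d 4 = mu d ∧ dl d 1 * dl d 5 = mu d ∧ dl d 2 * dl d 6 = mu d ∧
      dl d 3 * dl d 7 = mu d := by
  have h0 : ((d 0 : Fˣ) : F) ≠ 0 := (d 0).ne_zero
  have h1 : ((d 1 : Fˣ) : F) ≠ 0 := (d 1).ne_zero
  have h2 : ((d 2 : Fˣ) : F) ≠ 0 := (d 2).ne_zero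
  have h3 : ((d 3 : Fˣ) : F) ≠ 0 := (d 3).ne_zero
  refine ⟨?_, ?_, ?_, ?_⟩ <;>
  · apply Units.ext
    simp only [dl, mu, Units.val_mul, Units.val_inv_eq_inv_val]
    simp
    try field_simp

theorem pn4conj_Q (d : Fin 4 → Fˣ) (v : Fin 8 → F) :
    Q8 (D8 d *ᵥ v) = ((mu d : Fˣ) : F) * Q8 v := by
  obtain ⟨h04, h15, h26, h37⟩ := pn4conj_dl d
  have e04 := congrArg (Units.val (α := F)) h04
  have e15 := congrArg (Units.val (α := F)) h15
  have e26 := congrArg (Units.val (α := F)) h26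
  have e37 := congrArg (Units.val (α := F)) h37
  rw [Units.val_mul] at e04 e15 e26 e37
  unfold Q8 D8
  simp only [mulVec_diagonal]
  linear_combination (v 0 * v 4) * e04 + (v 1 * v 5) * e15 + (v 2 * v 6) * e26 +
    (v 3 * v 7) * e37

theorem pn4conj_Qi (d : Fin 4 → Fˣ) (v : Fin 8 → F) :
    Q8 (D8i d *ᵥ v) = (((mu d)⁻¹ : Fˣ) : F) * Q8 v := by
  obtain ⟨h04, h15, h26, h37⟩ := pn4conj_dl d
  have e04 : (((dl d 0)⁻¹ : Fˣ) : F) * (((dl d 4)⁻¹ : Fˣ) : F) = (((mu d)⁻¹ : Fˣ) : F) := by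
    rw [← Units.val_mul, ← mul_inv, h04]
  have e15 : (((dl d 1)⁻¹ : Fˣ) : F) * (((dl d 5)⁻¹ : Fˣ) : F) = (((mu d)⁻¹ : Fˣ) : F) := by
    rw [← Units.val_mul, ← mul_inv, h15]
  have e26 : (((dl d 2)⁻¹ : Fˣ) : F) * (((dl d 6)⁻¹ : Fˣ) : F) = (((mu d)⁻¹ : Fˣ) : F) := by
    rw [← Units.val_mul, ← mul_inv, h26]
  have e37 : (((dl d 3)⁻¹ : Fˣ) : F) * (((dl d 7)⁻¹ : Fˣ) : F) = (((mu d)⁻¹ : Fˣ) : F) := by
    rw [← Units.val_mul, ← mul_inv, h37]
  unfold Q8 D8i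
  simp only [mulVec_diagonal]
  linear_combination (v 0 * v 4) * e04 + (v 1 * v 5) * e15 + (v 2 * v 6) * e26 +
    (v 3 * v 7) * e37

/-- conjugation of an isometry by a similarity `P` with inverse `Pi` -/
def pn4conj_fun (P Pi : Matrix (Fin 8) (Fin 8) F) (h1 : P * Pi = 1) (h2 : Pi * P = 1) (a b : F)
    (hab : a * b = 1) (hP : ∀ v, Q8 (P *ᵥ v) = a * Q8 v) (hPi : ∀ v, Q8 (Pi *ᵥ v) = b * Q8 v)
    (g : O8 F) : O8 F :=
  mkO8 (P * toM8 g * Pi) (P * toM8 g⁻¹ * Pi)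
    (by
      calc P * toM8 g * Pi * (P * toM8 g⁻¹ * Pi)
          = P * toM8 g * (Pi * P) * toM8 g⁻¹ * Pi := by simp only [Matrix.mul_assoc]
        _ = P * (toM8 g * toM8 g⁻¹) * Pi := by rw [h2, Matrix.mul_one]; simp only [Matrix.mul_assoc]
        _ = 1 := by rw [toM8_mul_inv, Matrix.mul_one, h1])
    (by
      calc P * toM8 g⁻¹ * Pi * (P * toM8 g * Pi)
          = P * toM8 g⁻¹ * (Pi * P) * toM8 g * Pi := by simp only [Matrix.mul_assoc]
        _ = P * (toM8 g⁻¹ * toM8 g) * Pi := by rw [h2, Matrix.mul_one]; simp only [Matrix.mul_assoc]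
        _ = 1 := by rw [toM8_inv_mul, Matrix.mul_one, h1])
    (by
      intro v
      rw [← Matrix.mulVec_mulVec, ← Matrix.mulVec_mulVec, hP, Q8_toM8, hPi, ← mul_assoc, hab,
        one_mul])

theorem pn4conj_fun_toM8 (P Pi : Matrix (Fin 8) (Fin 8) F) (h1 : P * Pi = 1) (h2 : Pi * P = 1)
    (a b : F) (hab : a * b = 1) (hP : ∀ v, Q8 (P *ᵥ v) = a * Q8 v)
    (hPi : ∀ v, Q8 (Pi *ᵥ v) = b * Q8 v) (g : O8 F) :
    toM8 (pn4conj_fun P Pi h1 h2 a b hab hP hPi g) = P * toM8 g * Pi := rfl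

/-- conjugation by `D8 d` as an automorphism of `O8 F` -/
def pn4conj_equiv (d : Fin 4 → Fˣ) : O8 F ≃* O8 F where
  toFun := pn4conj_fun (D8 d) (D8i d) (pn4conj_mul d) (pn4conj_mul' d) ((mu d : Fˣ) : F)
    (((mu d)⁻¹ : Fˣ) : F) (by rw [← Units.val_mul, mul_inv_cancel, Units.val_one])
    (pn4conj_Q d) (pn4conj_Qi d)
  invFun := pn4conj_fun (D8i d) (D8 d) (pn4conj_mul' d) (pn4conj_mul d) (((mu d)⁻¹ : Fˣ) : F)
    ((mu d : Fˣ) : F) (by rw [← Units.val_mul, inv_mul_cancel, Units.val_one])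
    (pn4conj_Qi d) (pn4conj_Q d)
  left_inv g := by
    apply toM8_injective
    rw [pn4conj_fun_toM8, pn4conj_fun_toM8]
    calc D8i d * (D8 d * toM8 g * D8i d) * D8 d
        = (D8i d * D8 d) * toM8 g * (D8i d * D8 d) := by simp only [Matrix.mul_assoc]
      _ = toM8 g := by rw [pn4conj_mul', Matrix.one_mul, Matrix.mul_one]
  right_inv g := by
    apply toM8_injective
    rw [pn4conj_fun_toM8, pn4conj_fun_toM8]
    calc D8 d * (D8i d * toM8 g * D8 d) * D8i d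
        = (D8 d * D8i d) * toM8 g * (D8 d * D8i d) := by simp only [Matrix.mul_assoc]
      _ = toM8 g := by rw [pn4conj_mul, Matrix.one_mul, Matrix.mul_one]
  map_mul' g h := by
    apply toM8_injective
    rw [map_mul, pn4conj_fun_toM8, pn4conj_fun_toM8, pn4conj_fun_toM8, map_mul]
    calc D8 d * (toM8 g * toM8 h) * D8i d
        = D8 d * toM8 g * 1 * toM8 h * D8i d := by
          rw [Matrix.mul_one]; simp only [Matrix.mul_assoc]
      _ = D8 d * toM8 g * (D8i d * D8 d) * toM8 h * D8i d := by rw [pn4conj_mul']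
      _ = D8 d * toM8 g * D8i d * (D8 d * toM8 h * D8i d) := by simp only [Matrix.mul_assoc]

theorem pn4conj_equiv_toM8 (d : Fin 4 → Fˣ) (g : O8 F) :
    toM8 (pn4conj_equiv d g) = D8 d * toM8 g * D8i d := rfl

-- PIECE CONJ
theorem exists_conj (d : Fin 4 → Fˣ) :
    ∃ c : ↥(commutator (O8 F)) ≃* ↥(commutator (O8 F)),
      ∀ ω : ↥(commutator (O8 F)), toM8 (c ω).1 = D8 d * toM8 ω.1 * D8i d := by
  have hmap : (commutator (O8 F)).map (pn4conj_equiv (F := F) d).toMonoidHom =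
      commutator (O8 F) := by
    rw [commutator_def, Subgroup.map_commutator,
      Subgroup.map_top_of_surjective _ (pn4conj_equiv (F := F) d).surjective]
  refine ⟨((pn4conj_equiv (F := F) d).subgroupMap (commutator (O8 F))).trans
    (MulEquiv.subgroupCongr hmap), fun ω => ?_⟩
  exact pn4conj_equiv_toM8 d ω.1

end Cfsg.Agent.Lib.Helper52.PN4
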