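import Cfsg.Agent.Lib.Helper22.PTDefs
import Cfsg.Agent.Lib.Helper22.PTAux
import Cfsg.Agent.Lib.Helper92.BRX2

/-!
# S4705 project (helper22, "PT"): piece LIN

`χ₁` is linear: the degrees of `χ₁` and `χ₂` divide `|G : C_G(z)| = (p - 1)(p - 2)`.
-/

set_option autoImplicit false

namespace Cfsg.Agent.Lib.Helper32.PT

open Cfsg Cfsg.Agent.Lib.Helper22.BFD Cfsg.Agent.Lib.Helper22.PT
open scoped ComplexConjugate

universe u

variable {G : Type u} [Group G] [Fintype G]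

/-- The arithmetic: `1 + A P ∣ (P - 1)(P - 2)` and `1 + A P + (P - 2) ∣ (P - 1)(P - 2)` force
`A = 0` when `P ≥ 6`. -/
theorem lin_arith (P A E F : ℤ) (hP : 6 ≤ P) (hA : 0 ≤ A) (hE : 0 ≤ E) (hF : 0 ≤ F)
    (h1 : (1 + A * P) * E = (P - 1) * (P - 2))
    (h2 : (1 + A * P + (P - 2)) * F = (P - 1) * (P - 2)) : A = 0 := by
  by_contra hA0
  have hA1 : 1 ≤ A := by omega
  obtain ⟨c, hc⟩ : ∃ c : ℤ, c = P - 3 - A * E := ⟨_, rfl⟩
  have hEc : E = 2 + P * c := by
    rw [hc]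
    linear_combination h1
  have hc0 : 0 ≤ c := by
    by_contra hneg
    have hc1 : c ≤ -1 := by omega
    nlinarith [mul_nonneg (by linarith : (0 : ℤ) ≤ P) (by linarith : (0 : ℤ) ≤ -1 - c)]
  have hcc : c * (1 + A * P) = P - 3 - 2 * A := by
    linear_combination hc - A * hEc
  have hc0' : c ≤ 0 := by
    by_contra hpos
    have hc1 : 1 ≤ c := by omega
    nlinarith [mul_nonneg (by linarith : (0 : ℤ) ≤ c - 1)
      (by nlinarith : (0 : ℤ) ≤ 1 + A * P),
      mul_nonneg (by linarith : (0 : ℤ) ≤ A - 1) (by linarith : (0 : ℤ) ≤ P)]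
  have hc00 : c = 0 := le_antisymm hc0' hc0
  rw [hc00] at hcc
  have h2A : 2 * A = P - 3 := by linarith
  have h3 : (P - 2) * ((P + 1) * F - 2 * (P - 1)) = 0 := by
    linear_combination 2 * h2 - F * P * h2A
  have h4 : (P + 1) * F - 2 * (P - 1) = 0 := (mul_eq_zero.1 h3).resolve_left (by omega)
  rcases (by omega : F = 0 ∨ F = 1 ∨ 2 ≤ F) with hF0 | hF1 | hF2
  · rw [hF0] at h4
    omega
  · rw [hF1] at h4
    omega
  · nlinarith [mul_nonneg (by linarith : (0 : ℤ) ≤ F - 2) (by linarith : (0 : ℤ) ≤ P + 1)]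

/-- Non-identity elements of `⟨z⟩` are the `z ^ t.val` with `t ≠ 0`. -/
theorem lin_zpow (p : ℕ) [Fact p.Prime] (z : G) (hz : orderOf z = p) (x : G)
    (hx : x ∈ Subgroup.zpowers z) (hx1 : x ≠ 1) : ∃ t : ZMod p, t ≠ 0 ∧ x = z ^ t.val := by
  obtain ⟨k, rfl⟩ := Subgroup.mem_zpowers_iff.1 hx
  refine ⟨(k : ZMod p), ?_, aux_zpow_val p z hz k⟩
  intro h0
  apply hx1
  rw [aux_zpow_val p z hz k, h0, ZMod.val_zero, pow_zero]

/-- The core of LIN, with the order of the centralizer as a hypothesis. -/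
theorem lin_core (p : ℕ) [Fact p.Prime] (w : ℂ) (z : G) (ζ : G → ℂ) (h : Hyp G p z ζ)
    (η : G → ℂ) (u : ZMod p) (χ₁ χ₂ : IrrCharacter G)
    (Y : (ZMod p)ˣ → IrrCharacter G) (hB : Blk G p w z η u χ₁ χ₂ Y)
    (hcc : Nat.card (Subgroup.centralizer ({z} : Set G)) = p * Nat.card (Subgroup.center G))
    (hcard : Nat.card G = Nat.card (Subgroup.center G) * (p * (p - 1) * (p - 2))) :
    χ₁.1 1 = 1 := by
  have hp : p.Prime := Fact.out
  have hp5 := h.p5
  have hPcard : Nat.card (Subgroup.zpowers z) = p := by rw [Nat.card_zpowers, h.ord]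
  have hcent : Subgroup.centralizer ((Subgroup.zpowers z : Subgroup G) : Set G) =
      Subgroup.centralizer ({z} : Set G) := by
    rw [Subgroup.zpowers_eq_closure, Subgroup.centralizer_closure]
  have hd1 := Cfsg.Agent.Lib.Helper10.BR.deg_dvd p hp (Subgroup.zpowers z) hPcard χ₁ 1
    (Or.inl rfl) (by
      intro x hx hx1
      obtain ⟨t, ht, rfl⟩ := lin_zpow p z h.ord x hx hx1
      rw [hB.val1 t ht]
      simp)
  have hd2 := Cfsg.Agent.Lib.Helper10.BR.deg_dvd p hp (Subgroup.zpowers z) hPcard χ₂ (-1)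
    (Or.inr rfl) (by
      intro x hx hx1
      obtain ⟨t, ht, rfl⟩ := lin_zpow p z h.ord x hx hx1
      rw [hB.val2 t ht]
      simp)
  rw [hcent] at hd1 hd2
  have hidx : (Subgroup.centralizer ({z} : Set G)).index = (p - 1) * (p - 2) := by
    have h1 := Subgroup.index_mul_card (Subgroup.centralizer ({z} : Set G))
    rw [hcc, hcard] at h1
    have hZ : 0 < Nat.card (Subgroup.center G) := Nat.card_pos
    have h2 : (Subgroup.centralizer ({z} : Set G)).index * (p * Nat.card (Subgroup.center G)) =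
        ((p - 1) * (p - 2)) * (p * Nat.card (Subgroup.center G)) := by
      rw [h1]
      ring
    exact Nat.eq_of_mul_eq_mul_right (Nat.mul_pos hp.pos hZ) h2
  rw [hidx] at hd1 hd2
  obtain ⟨a, ha⟩ := hB.deg1
  obtain ⟨hc1, -⟩ := Cfsg.Agent.Lib.Helper82.irr_charDegree χ₁
  obtain ⟨hc2, -⟩ := Cfsg.Agent.Lib.Helper82.irr_charDegree χ₂
  have hdeg2 := hB.deg2
  have h1p : 1 ≤ p := by omega
  have h2p : 2 ≤ p := by omega
  have hn1 : charDegree (χ₁ : G → ℂ) = 1 + a * p := by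
    have h3 : ((charDegree (χ₁ : G → ℂ) : ℕ) : ℂ) = ((1 + a * p : ℕ) : ℂ) := by
      rw [hc1]
      push_cast
      exact ha
    exact_mod_cast h3
  have hn2 : charDegree (χ₂ : G → ℂ) + 2 = 1 + a * p + p := by
    have h3 : ((charDegree (χ₂ : G → ℂ) + 2 : ℕ) : ℂ) = ((1 + a * p + p : ℕ) : ℂ) := by
      push_cast
      rw [hc2, hdeg2, ha]
      ring
    exact_mod_cast h3
  obtain ⟨e, he⟩ := hd1
  obtain ⟨f, hf⟩ := hd2
  have hn2' : (charDegree (χ₂ : G → ℂ) : ℤ) = 1 + (a : ℤ) * p + ((p : ℤ) - 2) := by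
    have h3 : ((charDegree (χ₂ : G → ℂ) + 2 : ℕ) : ℤ) = ((1 + a * p + p : ℕ) : ℤ) := by
      rw [hn2]
    push_cast at h3
    linarith
  have ha0 : (a : ℤ) = 0 := by
    apply lin_arith (p : ℤ) (a : ℤ) (e : ℤ) (f : ℤ) (by exact_mod_cast hp5) (by positivity)
      (by positivity) (by positivity)
    · have h3 : (((p - 1) * (p - 2) : ℕ) : ℤ) = (((1 + a * p) * e : ℕ) : ℤ) := by
        rw [he, hn1]
      push_cast [Nat.cast_sub h1p, Nat.cast_sub h2p] at h3
      linarith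
    · have h3 : (((p - 1) * (p - 2) : ℕ) : ℤ) = ((charDegree (χ₂ : G → ℂ) * f : ℕ) : ℤ) := by
        rw [hf]
      push_cast [Nat.cast_sub h1p, Nat.cast_sub h2p] at h3
      rw [hn2'] at h3
      linarith
  have ha0' : a = 0 := by exact_mod_cast ha0
  rw [ha, ha0']
  simp

/-- PIECE LIN -/
theorem lin (p : ℕ) [Fact p.Prime] (w : ℂ) (z : G) (ζ : G → ℂ) (h : Hyp G p z ζ)
    (hl : Loc G p z ζ) (η : G → ℂ) (u : ZMod p) (χ₁ χ₂ : IrrCharacter G)
    (Y : (ZMod p)ˣ → IrrCharacter G) (hB : Blk G p w z η u χ₁ χ₂ Y)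
    (hcard : Nat.card G = Nat.card (Subgroup.center G) * (p * (p - 1) * (p - 2))) :
    χ₁.1 1 = 1 :=
  lin_core p w z ζ h η u χ₁ χ₂ Y hB (ccard p z ζ h hl) hcard

end Cfsg.Agent.Lib.Helper32.PT
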