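import Cfsg.Agent.Lib.Helper22.PTDefs

/-!
# S4705 project (helper22, "PT"): piece S2

The exponent `s` with `s ≡ 1` modulo the `{2, p}`-part of `|G|` and `s ≡ 2` modulo the rest.
-/

set_option autoImplicit false

namespace Cfsg.Agent.Lib.Helper32.PT

open Cfsg Cfsg.Agent.Lib.Helper22.BFD Cfsg.Agent.Lib.Helper22.PT
open scoped ComplexConjugate

universe u

variable {G : Type u} [Group G] [Fintype G]

/-- Arithmetic core: `N = A * B` with `A = 2 ^ a * p`, `B` odd and prime to `p`. -/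
theorem s2_split (p N : ℕ) (hp : p.Prime) (hp2 : p ≠ 2) (hN : N ≠ 0) (hdiv : p ∣ N)
    (hsq : ¬ p ^ 2 ∣ N) :
    ∃ a B : ℕ, N = 2 ^ a * p * B ∧ ¬ 2 ∣ B ∧ ¬ p ∣ B := by
  obtain ⟨a, N1, h2N1, hN1⟩ := Nat.exists_eq_pow_mul_and_not_dvd hN 2 (by norm_num)
  have hcop : Nat.Coprime p (2 ^ a) := by
    apply Nat.Coprime.pow_right
    exact (Nat.coprime_primes hp Nat.prime_two).2 hp2
  have hpN1 : p ∣ N1 := by
    rw [hN1] at hdiv
    exact hcop.dvd_of_dvd_mul_left hdiv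
  obtain ⟨B, hB⟩ := hpN1
  refine ⟨a, B, ?_, ?_, ?_⟩
  · rw [hN1, hB, mul_assoc]
  · intro h
    exact h2N1 (hB ▸ Dvd.dvd.mul_left h p)
  · intro h
    apply hsq
    obtain ⟨C, hC⟩ := h
    rw [hN1, hB, hC]
    exact ⟨2 ^ a * C, by ring⟩

/-- PIECE S2 -/
theorem s2 (p : ℕ) [Fact p.Prime] (hp2 : p ≠ 2) (hdiv : p ∣ Nat.card G)
    (hsq : ¬ p ^ 2 ∣ Nat.card G) : ∃ s : ℕ, Sq2 G p s := by
  have hp : p.Prime := Fact.out
  have hN : Nat.card G ≠ 0 := Nat.card_pos.ne'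
  obtain ⟨a, B, hNeq, h2B, hpB⟩ := s2_split p (Nat.card G) hp hp2 hN hdiv hsq
  have hc2B : Nat.Coprime 2 B := (Nat.Prime.coprime_iff_not_dvd Nat.prime_two).2 h2B
  have hcpB : Nat.Coprime p B := (Nat.Prime.coprime_iff_not_dvd hp).2 hpB
  have hAB : Nat.Coprime (2 ^ a * p) B :=
    Nat.Coprime.mul_left (Nat.Coprime.pow_left a hc2B) hcpB
  obtain ⟨s, hs1, hs2⟩ := Nat.chineseRemainder hAB 1 2
  have hsA : Nat.Coprime s (2 ^ a * p) := by
    have := hs1.gcd_eq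
    rw [Nat.Coprime, this]
    exact Nat.gcd_one_left _
  have hsB : Nat.Coprime s B := by
    have := hs2.gcd_eq
    rw [Nat.Coprime, this]
    exact hc2B
  refine ⟨s, ?_, ?_, ?_⟩
  · rw [hNeq]
    exact Nat.Coprime.mul_right hsA hsB
  · intro g hg
    have hdvd : orderOf g ∣ 2 ^ a * p * B := hNeq ▸ orderOf_dvd_natCard g
    have hcop : Nat.Coprime (orderOf g) B := by
      apply Nat.coprime_of_dvd
      intro q hq hqg hqB
      rcases hg q hq hqg with h | h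
      · exact h2B (h ▸ hqB)
      · exact hpB (h ▸ hqB)
    have hA : orderOf g ∣ 2 ^ a * p := hcop.dvd_of_dvd_mul_right hdvd
    have hmod : s ≡ 1 [MOD orderOf g] := hs1.of_dvd hA
    have := (pow_eq_pow_iff_modEq (x := g)).2 hmod
    rwa [pow_one] at this
  · intro g hodd hpg
    have hdvd : orderOf g ∣ 2 ^ a * p * B := hNeq ▸ orderOf_dvd_natCard g
    have hc2 : Nat.Coprime (orderOf g) 2 := by
      rw [Nat.coprime_comm]
      exact (Nat.Prime.coprime_iff_not_dvd Nat.prime_two).2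
        (fun h => (Nat.not_even_iff_odd.2 hodd) (even_iff_two_dvd.2 h))
    have hcp : Nat.Coprime (orderOf g) p := by
      rw [Nat.coprime_comm]
      exact (Nat.Prime.coprime_iff_not_dvd hp).2 hpg
    have hcA : Nat.Coprime (orderOf g) (2 ^ a * p) :=
      Nat.Coprime.mul_right (Nat.Coprime.pow_right a hc2) hcp
    have hB : orderOf g ∣ B := hcA.dvd_of_dvd_mul_left hdvd
    have hmod : s ≡ 2 [MOD orderOf g] := hs2.of_dvd hB
    exact (pow_eq_pow_iff_modEq (x := g)).2 hmod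

end Cfsg.Agent.Lib.Helper32.PT
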