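import Mathlib
import Cfsg.Prelude.Def_RootSubgroups
import Cfsg.Prelude.Def_QuasithinSetup
import Cfsg.Agent.Lib.Helper55.Basic

/-!
# S5048 piece RS-ZLE (helper32, for helper42): a subgroup whose commutators with a generating set
lie in `O_2(G)` is contained in `O_{2,Z}(G)`.
-/

set_option autoImplicit false

namespace Cfsg.Agent.Lib.Helper32.RS

open Cfsg

variable {G : Type*} [Group G]

/-- PIECE RS-ZLE: a subgroup whose commutators with `D` lie in `O_2(G)` is in `O_{2,Z}(G)`. -/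
theorem le_twoZCore {D : Set G} (hgen : Subgroup.closure D = ⊤) (N : Subgroup G)
    (h : ∀ d ∈ D, ∀ n ∈ N, d * n * d⁻¹ * n⁻¹ ∈ pCore 2 G) : N ≤ twoZCore G := by
  intro n hn
  have hO : (pCore 2 G).Normal := inferInstance
  have key : ∀ g : G, g * n * g⁻¹ * n⁻¹ ∈ pCore 2 G := by
    intro g
    have hg : g ∈ Subgroup.closure D := by rw [hgen]; trivial
    induction hg using Subgroup.closure_induction with
    | mem x hx => exact h x hx n hn
    | one =>
      have e : (1 : G) * n * (1 : G)⁻¹ * n⁻¹ = 1 := by group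
      rw [e]; exact Subgroup.one_mem _
    | mul x y hx hy ihx ihy =>
      have e : x * y * n * (x * y)⁻¹ * n⁻¹ =
          x * (y * n * y⁻¹ * n⁻¹) * x⁻¹ * (x * n * x⁻¹ * n⁻¹) := by group
      rw [e]
      exact (pCore 2 G).mul_mem (hO.conj_mem _ ihy x) ihx
    | inv x hx ihx =>
      have e : x⁻¹ * n * x⁻¹⁻¹ * n⁻¹ = x⁻¹ * (x * n * x⁻¹ * n⁻¹)⁻¹ * x⁻¹⁻¹ := by group
      rw [e]
      exact hO.conj_mem _ ((pCore 2 G).inv_mem ihx) x⁻¹
  show n ∈ (Subgroup.center (G ⧸ pCore 2 G)).comap (QuotientGroup.mk' (pCore 2 G))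
  rw [Subgroup.mem_comap, Subgroup.mem_center_iff]
  intro q
  obtain ⟨g, rfl⟩ := QuotientGroup.mk_surjective q
  show (QuotientGroup.mk g : G ⧸ pCore 2 G) * QuotientGroup.mk n =
    QuotientGroup.mk n * QuotientGroup.mk g
  rw [← QuotientGroup.mk_mul, ← QuotientGroup.mk_mul, QuotientGroup.eq]
  have e : (g * n)⁻¹ * (n * g) = n⁻¹ * (g⁻¹ * n * g⁻¹⁻¹ * n⁻¹) * n⁻¹⁻¹ := by group
  rw [e]
  exact hO.conj_mem _ (key g⁻¹) n⁻¹

end Cfsg.Agent.Lib.Helper32.RS
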