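import Mathlib
import Cfsg.Prelude.Def_RootSubgroups
import Cfsg.Prelude.Def_QuasithinSetup
import Cfsg.Agent.Lib.Helper55.Basic

/-!
# S5048 piece RS-ZSOLV (helper32, for helper42): `O_{2,Z}(G)` is solvable.
-/

set_option autoImplicit false

namespace Cfsg.Agent.Lib.Helper32.RS

open Cfsg

variable {G : Type*} [Group G]

/-- PIECE RS-ZSOLV: `O_{2,Z}(G)` is solvable. -/
theorem twoZCore_isSolvable [Finite G] : Group.IsSolvable ↥(twoZCore G) := by
  have hO : (pCore 2 G).Normal := inferInstance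
  have : Fact (Nat.Prime 2) := ⟨Nat.prime_two⟩
  have hOp : IsPGroup 2 (pCore 2 G) := Cfsg.Agent.Lib.Helper55.pCore_isPGroup
  have hOZ : pCore 2 G ≤ twoZCore G := by
    intro x hx
    show x ∈ (Subgroup.center (G ⧸ pCore 2 G)).comap (QuotientGroup.mk' (pCore 2 G))
    rw [Subgroup.mem_comap]
    have h1 : (QuotientGroup.mk' (pCore 2 G)) x = 1 := (QuotientGroup.eq_one_iff x).mpr hx
    rw [h1]; exact Subgroup.one_mem _
  have hOnil : Group.IsNilpotent ↥(pCore 2 G) := hOp.isNilpotent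
  have hOsol : Group.IsSolvable ↥(pCore 2 G) := inferInstance
  let f : ↥(pCore 2 G) →* ↥(twoZCore G) := Subgroup.inclusion hOZ
  let g : ↥(twoZCore G) →* ↥(Subgroup.center (G ⧸ pCore 2 G)) :=
    ((QuotientGroup.mk' (pCore 2 G)).comp (twoZCore G).subtype).codRestrict _ (fun z => z.2)
  have hcs : Group.IsSolvable ↥(Subgroup.center (G ⧸ pCore 2 G)) :=
    Group.isSolvable_of_comm (fun a b => Subtype.ext (Subgroup.mem_center_iff.mp b.2 a.1))
  refine Group.isSolvable_of_ker_le_range f g ?_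
  intro z hz
  rw [MonoidHom.mem_ker] at hz
  have h1 : (QuotientGroup.mk' (pCore 2 G)) (z : G) = 1 := congrArg Subtype.val hz
  have h2 : (z : G) ∈ pCore 2 G := (QuotientGroup.eq_one_iff _).mp h1
  exact ⟨⟨(z : G), h2⟩, Subtype.ext rfl⟩

end Cfsg.Agent.Lib.Helper32.RS
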