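import Mathlib
import Cfsg.Prelude.Def_GeometricClasses
import Cfsg.Prelude.Def_LieClassical

/-! Project SPP (helper71), piece Q2 (helper32): over the field with two elements the stabiliser
of a non-degenerate decomposition into planes fixes a quadratic form with polar form `f`. -/

set_option autoImplicit false
set_option linter.unusedSectionVars false

namespace Cfsg.Agent.Lib.Helper32.SPPQ2

open Matrix Cfsg.Geo

variable {n : ℕ} {F : Type*} [Field F] [Fintype F]

/-! ### the field with two elements -/

omit [Fintype F] in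
theorem f2_zero_or_one [Fintype F] (hq : Fintype.card F = 2) (c : F) : c = 0 ∨ c = 1 := by
  classical
  have hS : ({0, 1} : Finset F) = Finset.univ := by
    apply Finset.eq_univ_of_card
    rw [Finset.card_pair zero_ne_one, hq]
  have hc : c ∈ ({0, 1} : Finset F) := by rw [hS]; exact Finset.mem_univ c
  simpa using hc

theorem f2_two (hq : Fintype.card F = 2) : (1 + 1 : F) = 0 := by
  rcases f2_zero_or_one hq (1 + 1 : F) with h | h
  · exact h
  · exfalso
    have : (1 : F) = 0 := by
      have h2 : (1 : F) + 1 - 1 = 1 - 1 := by rw [h]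
      simp at h2
    exact one_ne_zero this

theorem f2_add_self (hq : Fintype.card F = 2) (a : F) : a + a = 0 := by
  have : a + a = (1 + 1) * a := by ring
  rw [this, f2_two hq, zero_mul]

theorem f2_vadd_self (hq : Fintype.card F = 2) (v : Fin n → F) : v + v = 0 := by
  funext i
  exact f2_add_self hq (v i)

/-! ### components -/

theorem ex_comp {t : ℕ} (D : Fin t → Submodule F (Fin n → F)) (htop : iSup D = ⊤)
    (v : Fin n → F) : ∃ μ : Fin t → (Fin n → F), (∀ i, μ i ∈ D i) ∧ ∑ i, μ i = v := by
  have hv : v ∈ ⨆ i ∈ (Finset.univ : Finset (Fin t)), D i := by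
    simp [htop]
  obtain ⟨μ, hμ⟩ := (Submodule.mem_iSup_finset_iff_exists_sum D v).mp hv
  exact ⟨fun i => (μ i : Fin n → F), fun i => (μ i).2, hμ⟩

theorem uniq_comp {t : ℕ} (D : Fin t → Submodule F (Fin n → F)) (hind : iSupIndep D)
    (v w : Fin t → (Fin n → F)) (hv : ∀ i, v i ∈ D i) (hw : ∀ i, w i ∈ D i)
    (h : ∑ i, v i = ∑ i, w i) : v = w := by
  funext i
  exact (iSupIndep_iff_finsetSum_eq_imp_eq D).mp hind Finset.univ v w
    (fun i _ => ⟨hv i, hw i⟩) h i (Finset.mem_univ i)

/-- the components of `v` in the decomposition `D` -/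
noncomputable def comp {t : ℕ} (D : Fin t → Submodule F (Fin n → F)) (htop : iSup D = ⊤)
    (v : Fin n → F) : Fin t → (Fin n → F) := Classical.choose (ex_comp D htop v)

theorem comp_mem {t : ℕ} (D : Fin t → Submodule F (Fin n → F)) (htop : iSup D = ⊤)
    (v : Fin n → F) (i : Fin t) : comp D htop v i ∈ D i :=
  (Classical.choose_spec (ex_comp D htop v)).1 i

theorem comp_sum {t : ℕ} (D : Fin t → Submodule F (Fin n → F)) (htop : iSup D = ⊤)
    (v : Fin n → F) : ∑ i, comp D htop v i = v :=
  (Classical.choose_spec (ex_comp D htop v)).2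

theorem comp_eq {t : ℕ} (D : Fin t → Submodule F (Fin n → F)) (htop : iSup D = ⊤)
    (hind : iSupIndep D) (v : Fin n → F) (w : Fin t → (Fin n → F)) (hw : ∀ i, w i ∈ D i)
    (hs : ∑ i, w i = v) : comp D htop v = w :=
  uniq_comp D hind _ _ (comp_mem D htop v) hw ((comp_sum D htop v).trans hs.symm)

open Classical in
/-- indicator of being non-zero -/
noncomputable def ind (x : Fin n → F) : F := if x = 0 then 0 else 1

theorem ind_zero : ind (0 : Fin n → F) = 0 := by
  unfold ind
  rw [if_pos rfl]

theorem ind_ne {x : Fin n → F} (hx : x ≠ 0) : ind x = 1 := by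
  unfold ind
  rw [if_neg hx]

/-- the quadratic form -/
noncomputable def Qf {t : ℕ} (D : Fin t → Submodule F (Fin n → F)) (htop : iSup D = ⊤)
    (v : Fin n → F) : F := ∑ i, ind (comp D htop v i)

/-! ### bilinearity helpers -/

theorem f_zero_left (f : (Fin n → F) → (Fin n → F) → F) (hf : IsBilinearForm f)
    (v : Fin n → F) : f 0 v = 0 := by
  have h := hf.smul_left 0 (0 : Fin n → F) v
  rw [zero_smul, zero_mul] at h
  exact h

theorem f_zero_right (f : (Fin n → F) → (Fin n → F) → F) (hf : IsBilinearForm f)
    (v : Fin n → F) : f v 0 = 0 := by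
  have h := hf.smul_right 0 v (0 : Fin n → F)
  rw [zero_smul, zero_mul] at h
  exact h

theorem f_sum_left (f : (Fin n → F) → (Fin n → F) → F) (hf : IsBilinearForm f) {ι : Type*}
    (s : Finset ι) (x : ι → (Fin n → F)) (w : Fin n → F) :
    f (∑ i ∈ s, x i) w = ∑ i ∈ s, f (x i) w := by
  classical
  induction s using Finset.induction_on with
  | empty => simp [f_zero_left f hf]
  | insert a s ha ih => rw [Finset.sum_insert ha, Finset.sum_insert ha, hf.add_left, ih]

theorem f_sum_right (f : (Fin n → F) → (Fin n → F) → F) (hf : IsBilinearForm f) {ι : Type*}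
    (s : Finset ι) (x : ι → (Fin n → F)) (w : Fin n → F) :
    f w (∑ i ∈ s, x i) = ∑ i ∈ s, f w (x i) := by
  classical
  induction s using Finset.induction_on with
  | empty => simp [f_zero_right f hf]
  | insert a s ha ih => rw [Finset.sum_insert ha, Finset.sum_insert ha, hf.add_right, ih]

/-! ### the key fact in a plane -/

theorem plane (hq : Fintype.card F = 2) (f : (Fin n → F) → (Fin n → F) → F)
    (hf : IsSymplecticForm f) (W : Submodule F (Fin n → F)) (hW : Module.finrank F W = 2)
    (hnd : IsNondegenerateOn f W) (u v : Fin n → F) (hu : u ∈ W) (hv : v ∈ W) :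
    ind (u + v) + ind u + ind v = f u v := by
  classical
  by_cases hu0 : u = 0
  · subst hu0
    rw [zero_add, ind_zero, add_zero, f2_add_self hq, f_zero_left f hf.bilinear]
  by_cases hv0 : v = 0
  · subst hv0
    rw [add_zero, ind_zero, add_zero, f2_add_self hq, f_zero_right f hf.bilinear]
  by_cases huv : u = v
  · subst huv
    rw [f2_vadd_self hq, ind_zero, zero_add, f2_add_self hq, hf.alternating]
  have hne : u + v ≠ 0 := by
    intro h
    apply huv
    have h2 : u + v + v = 0 + v := by rw [h]
    rw [add_assoc, f2_vadd_self hq, add_zero, zero_add] at h2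
    exact h2
  rw [ind_ne hne, ind_ne hu0, ind_ne hv0, f2_two hq, zero_add]
  rcases f2_zero_or_one hq (f u v) with h0 | h1
  · exfalso
    obtain ⟨x, hxW, hx⟩ := (hnd u hu hu0).2
    -- the four elements of `W`
    have hcard : Fintype.card W = 4 := by
      rw [Module.card_eq_pow_finrank (K := F) (V := W), hq, hW]
      norm_num
    let a0 : W := 0
    let a1 : W := ⟨u, hu⟩
    let a2 : W := ⟨v, hv⟩
    let a3 : W := ⟨u + v, W.add_mem hu hv⟩
    have h01 : a0 ≠ a1 := fun h => hu0 (congrArg Subtype.val h).symm
    have h02 : a0 ≠ a2 := fun h => hv0 (congrArg Subtype.val h).symm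
    have h03 : a0 ≠ a3 := fun h => hne (congrArg Subtype.val h).symm
    have h12 : a1 ≠ a2 := fun h => huv (congrArg Subtype.val h)
    have h13 : a1 ≠ a3 := by
      intro h
      have h' : u = u + v := congrArg Subtype.val h
      apply hv0
      have h2 : u + v = u + 0 := by rw [add_zero]; exact h'.symm
      exact add_left_cancel h2
    have h23 : a2 ≠ a3 := by
      intro h
      have h' : v = u + v := congrArg Subtype.val h
      apply hu0
      have h2 : u + v = 0 + v := by rw [zero_add]; exact h'.symm
      exact add_right_cancel h2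
    have hS : ({a0, a1, a2, a3} : Finset W) = Finset.univ := by
      apply Finset.eq_univ_of_card
      rw [hcard]
      rw [Finset.card_insert_of_notMem, Finset.card_insert_of_notMem,
        Finset.card_insert_of_notMem, Finset.card_singleton]
      · simpa using h23
      · simp only [Finset.mem_insert, Finset.mem_singleton, not_or]
        exact ⟨h12, h13⟩
      · simp only [Finset.mem_insert, Finset.mem_singleton, not_or]
        exact ⟨h01, h02, h03⟩
    have hx4 : (⟨x, hxW⟩ : W) ∈ ({a0, a1, a2, a3} : Finset W) := by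
      rw [hS]; exact Finset.mem_univ _
    simp only [Finset.mem_insert, Finset.mem_singleton] at hx4
    rcases hx4 with h | h | h | h
    · have hx0 : x = 0 := congrArg Subtype.val h
      exact hx (by rw [hx0, f_zero_right f hf.bilinear])
    · have hx0 : x = u := congrArg Subtype.val h
      exact hx (by rw [hx0, hf.alternating])
    · have hx0 : x = v := congrArg Subtype.val h
      exact hx (by rw [hx0, h0])
    · have hx0 : x = u + v := congrArg Subtype.val h
      exact hx (by rw [hx0, hf.bilinear.add_right, hf.alternating, h0, add_zero])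
  · exact h1.symm

/-! ### the polar form -/

theorem comp_add {t : ℕ} (D : Fin t → Submodule F (Fin n → F)) (htop : iSup D = ⊤)
    (hind : iSupIndep D) (u v : Fin n → F) :
    comp D htop (u + v) = fun i => comp D htop u i + comp D htop v i := by
  apply comp_eq D htop hind
  · intro i
    exact (D i).add_mem (comp_mem D htop u i) (comp_mem D htop v i)
  · rw [Finset.sum_add_distrib, comp_sum, comp_sum]

theorem comp_zero {t : ℕ} (D : Fin t → Submodule F (Fin n → F)) (htop : iSup D = ⊤)
    (hind : iSupIndep D) : comp D htop 0 = fun _ => 0 := by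
  apply comp_eq D htop hind
  · intro i
    exact (D i).zero_mem
  · simp

theorem polar_eq (hq : Fintype.card F = 2) (f : (Fin n → F) → (Fin n → F) → F)
    (hf : IsSymplecticForm f) {t : ℕ} (D : Fin t → Submodule F (Fin n → F))
    (hD : IsNondegenerateMDecomposition f 2 D) (u v : Fin n → F) :
    QuadraticMap.polar (Qf D hD.decomp.iSup_eq_top) u v = f u v := by
  have htop := hD.decomp.iSup_eq_top
  have hind := hD.decomp.indep
  have h1 : QuadraticMap.polar (Qf D htop) u v = Qf D htop (u + v) - Qf D htop u - Qf D htop v :=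
    rfl
  rw [h1]
  unfold Qf
  rw [comp_add D htop hind, ← Finset.sum_sub_distrib, ← Finset.sum_sub_distrib]
  have h2 : ∀ i : Fin t,
      ind (comp D htop u i + comp D htop v i) - ind (comp D htop u i) - ind (comp D htop v i) =
        f (comp D htop u i) (comp D htop v i) := by
    intro i
    rw [← plane hq f hf (D i) (hD.decomp.finrank_eq i) (hD.nondegenerate i) _ _
      (comp_mem D htop u i) (comp_mem D htop v i)]
    have ha := f2_add_self hq (ind (comp D htop u i))
    have hb := f2_add_self hq (ind (comp D htop v i))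
    linear_combination (-1 : F) * ha - hb
  rw [Finset.sum_congr rfl (fun i _ => h2 i)]
  conv_rhs => rw [← comp_sum D htop u, ← comp_sum D htop v]
  rw [f_sum_left f hf.bilinear]
  apply Finset.sum_congr rfl
  intro i _
  rw [f_sum_right f hf.bilinear]
  symm
  apply Finset.sum_eq_single i
  · intro j _ hji
    exact hD.orthogonal i j (Ne.symm hji) _ (comp_mem D htop u i) _ (comp_mem D htop v j)
  · intro h
    exact absurd (Finset.mem_univ i) h

/-! ### invariance -/

theorem mulVec_eq_zero_iff (h : GL (Fin n) F) (x : Fin n → F) :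
    (h : Matrix (Fin n) (Fin n) F) *ᵥ x = 0 ↔ x = 0 := by
  constructor
  · intro hx
    have h1 : ((h⁻¹ : GL (Fin n) F) : Matrix (Fin n) (Fin n) F) *ᵥ
        ((h : Matrix (Fin n) (Fin n) F) *ᵥ x) = x := by
      rw [Matrix.mulVec_mulVec, ← Units.val_mul, inv_mul_cancel, Units.val_one, Matrix.one_mulVec]
    rw [hx, Matrix.mulVec_zero] at h1
    exact h1.symm
  · intro hx
    rw [hx, Matrix.mulVec_zero]

theorem ind_mulVec (h : GL (Fin n) F) (x : Fin n → F) :
    ind ((h : Matrix (Fin n) (Fin n) F) *ᵥ x) = ind x := by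
  by_cases hx : x = 0
  · rw [hx, Matrix.mulVec_zero]
  · rw [ind_ne hx, ind_ne (fun h0 => hx ((mulVec_eq_zero_iff h x).mp h0))]

theorem Qf_mulVec {t : ℕ} (D : Fin t → Submodule F (Fin n → F)) (htop : iSup D = ⊤)
    (hind : iSupIndep D) (h : GL (Fin n) F) (σ : Equiv.Perm (Fin t))
    (hσ : ∀ i, (D i).map (Matrix.toLin' (h : Matrix (Fin n) (Fin n) F)) = D (σ i))
    (v : Fin n → F) :
    Qf D htop ((h : Matrix (Fin n) (Fin n) F) *ᵥ v) = Qf D htop v := by
  have hc : comp D htop ((h : Matrix (Fin n) (Fin n) F) *ᵥ v) =
      fun j => (h : Matrix (Fin n) (Fin n) F) *ᵥ comp D htop v (σ.symm j) := by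
    apply comp_eq D htop hind
    · intro j
      have h1 : Matrix.toLin' (h : Matrix (Fin n) (Fin n) F) (comp D htop v (σ.symm j)) ∈
          (D (σ.symm j)).map (Matrix.toLin' (h : Matrix (Fin n) (Fin n) F)) :=
        Submodule.mem_map_of_mem (comp_mem D htop v (σ.symm j))
      rw [hσ, Equiv.apply_symm_apply, Matrix.toLin'_apply] at h1
      exact h1
    · rw [Equiv.sum_comp σ.symm (fun i => (h : Matrix (Fin n) (Fin n) F) *ᵥ comp D htop v i),
        ← Matrix.mulVec_sum, comp_sum]
  unfold Qf
  rw [hc]
  simp only [ind_mulVec]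
  exact Equiv.sum_comp σ.symm (fun i => ind (comp D htop v i))

/-- Q2: over the field with two elements the stabiliser of a non-degenerate decomposition into
planes fixes a quadratic form with polar form `f`. -/
theorem Q2 (hq : Fintype.card F = 2) (f : (Fin n → F) → (Fin n → F) → F)
    (hf : IsSymplecticForm f) (H : Subgroup (GL (Fin n) F)) {t : ℕ}
    (D : Fin t → Submodule F (Fin n → F)) (hD : IsNondegenerateMDecomposition f 2 D)
    (hHD : H ≤ decompositionStabilizer D) :
    ∃ Q : (Fin n → F) → F, IsNondegenerateQuadraticForm Q ∧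
      (∀ u v : Fin n → F, QuadraticMap.polar Q u v = f u v) ∧ H ≤ quadSimilarityGroup Q := by
  have htop := hD.decomp.iSup_eq_top
  have hind := hD.decomp.indep
  have hpol : QuadraticMap.polar (Qf D htop) = f := by
    funext u v
    exact polar_eq hq f hf D hD u v
  refine ⟨Qf D htop, ⟨?_, ?_, ?_⟩, fun u v => polar_eq hq f hf D hD u v, ?_⟩
  · intro c v
    rcases f2_zero_or_one hq c with hc | hc
    · subst hc
      rw [zero_smul]
      have h0 : Qf D htop 0 = 0 := by
        unfold Qf
        rw [comp_zero D htop hind]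
        simp [ind_zero]
      rw [h0]
      ring
    · subst hc
      rw [one_smul]
      ring
  · rw [hpol]
    exact hf.bilinear
  · rw [hpol]
    exact hf.nondegenerate
  · intro h hh
    obtain ⟨σ, hσ⟩ := hHD hh
    refine ⟨1, fun v => ?_⟩
    rw [Units.val_one, one_mul]
    exact Qf_mulVec D htop hind h σ hσ v

end Cfsg.Agent.Lib.Helper32.SPPQ2
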