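import Mathlib
import Cfsg.Prelude.Def_GeometricClasses
import Cfsg.Prelude.Def_LieClassical
import Cfsg.Agent.Lib.Helper71.Asch0
import Cfsg.Agent.Lib.Helper71.Asch5
import Cfsg.Agent.Lib.Helper71.Asch8

/-!
# Project SPG (helper71), sub-project TIF, piece T1d (helper32)

The tensor factors `Ps i` are pairwise distinct: a factor spans `P * iota i (M_m(F)) * Q`, which
is not commutative for `m ≥ 2`.
-/

set_option autoImplicit false

namespace Cfsg.Agent.Lib.Helper32.TIFT1d

open Matrix Cfsg.Geo Cfsg.Agent.Lib.Helper71.Asch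

variable {n : ℕ} {F : Type*} [Field F] [Fintype F]

omit [Fintype F] in
/-- If the elements of `S` commute pairwise, so do the elements of its span. -/
theorem t1d_span_comm (S : Subgroup (GL (Fin n) F))
    (hS : ∀ x ∈ S, ∀ y ∈ S, x * y = y * x) :
    ∀ X ∈ Submodule.span F (matrixSet S), ∀ Y ∈ Submodule.span F (matrixSet S),
      X * Y = Y * X := by
  have h1 : ∀ y ∈ S, ∀ X ∈ Submodule.span F (matrixSet S),
      X * (y : Matrix (Fin n) (Fin n) F) = (y : Matrix (Fin n) (Fin n) F) * X := by
    intro y hy X hX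
    induction hX using Submodule.span_induction with
    | mem X h =>
      obtain ⟨x, hx, rfl⟩ := h
      have h2 := hS x hx y hy
      have h3 := congrArg (fun g : GL (Fin n) F => (g : Matrix (Fin n) (Fin n) F)) h2
      simpa using h3
    | zero => rw [zero_mul, mul_zero]
    | add X1 X2 _ _ ih1 ih2 => rw [add_mul, mul_add, ih1, ih2]
    | smul c X _ ih => rw [smul_mul_assoc, mul_smul_comm, ih]
  intro X hX Y hY
  induction hY using Submodule.span_induction with
  | mem Y h =>
    obtain ⟨y, hy, rfl⟩ := h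
    exact h1 y hy X hX
  | zero => rw [zero_mul, mul_zero]
  | add Y1 Y2 _ _ ih1 ih2 => rw [add_mul, mul_add, ih1, ih2]
  | smul c Y _ ih => rw [smul_mul_assoc, mul_smul_comm, ih]

/-- T1d: the factors are pairwise distinct. -/
theorem T1d {m k : ℕ} (hm : 2 ≤ m) (P : Matrix (Fin n) (Fin k → Fin m) F)
    (Q : Matrix (Fin k → Fin m) (Fin n) F) (hPQ : P * Q = 1) (hQP : Q * P = 1)
    (Ps : Fin k → Subgroup (GL (Fin n) F))
    (hcomm : ∀ i j, i ≠ j → ∀ x ∈ Ps i, ∀ y ∈ Ps j, x * y = y * x)
    (hsP : ∀ i (X : Matrix (Fin n) (Fin n) F), X ∈ Submodule.span F (matrixSet (Ps i)) ↔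
      ∃ A : Matrix (Fin m) (Fin m) F, X = P * iota i A * Q) :
    Function.Injective Ps := by
  intro i j hij
  by_contra hne
  have hS : ∀ x ∈ Ps i, ∀ y ∈ Ps i, x * y = y * x := by
    intro x hx y hy
    exact hcomm i j hne x hx y (hij ▸ hy)
  have hspan := t1d_span_comm (Ps i) hS
  have hAB : ∀ A B : Matrix (Fin m) (Fin m) F, A * B = B * A := by
    intro A B
    have hX : P * iota i A * Q ∈ Submodule.span F (matrixSet (Ps i)) := (hsP i _).2 ⟨A, rfl⟩
    have hY : P * iota i B * Q ∈ Submodule.span F (matrixSet (Ps i)) := (hsP i _).2 ⟨B, rfl⟩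
    have h1 := hspan _ hX _ hY
    have hprod : ∀ C D : Matrix (Fin m) (Fin m) F,
        P * iota i C * Q * (P * iota i D * Q) = P * iota i (C * D) * Q := by
      intro C D
      calc P * iota i C * Q * (P * iota i D * Q)
          = P * (iota i C * ((Q * P) * iota i D)) * Q := by simp only [Matrix.mul_assoc]
        _ = P * iota i (C * D) * Q := by rw [hQP, Matrix.one_mul, iota_mul]
    rw [hprod, hprod] at h1
    have hcancel : ∀ M : Matrix (Fin k → Fin m) (Fin k → Fin m) F, Q * (P * M * Q) * P = M := by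
      intro M
      calc Q * (P * M * Q) * P = (Q * P) * M * (Q * P) := by simp only [Matrix.mul_assoc]
        _ = M := by rw [hQP, Matrix.one_mul, Matrix.mul_one]
    have h2 : iota i (A * B) = iota i (B * A) := by
      rw [← hcancel (iota i (A * B)), h1, hcancel]
    exact iota_injective i h2
  let i0 : Fin m := ⟨0, by omega⟩
  let i1 : Fin m := ⟨1, by omega⟩
  have h01 : i0 ≠ i1 := by
    intro h
    have := congrArg Fin.val h
    simp [i0, i1] at this
  have h3 := hAB (Matrix.of fun a b => if a = i0 ∧ b = i1 then (1 : F) else 0)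
    (Matrix.of fun a b => if a = i1 ∧ b = i0 then (1 : F) else 0)
  have h4 := congrFun (congrFun h3 i0) i0
  rw [Matrix.mul_apply, Matrix.mul_apply] at h4
  simp [h01] at h4

end Cfsg.Agent.Lib.Helper32.TIFT1d
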