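import Cfsg.Agent.Lib.Helper32.Trans
import Cfsg.Agent.Lib.Helper32.Fix

set_option autoImplicit false
open Cfsg

namespace Cfsg.Agent.Lib.Helper32

theorem minSimple_centralizer_singleton_ne_top {G : Type*} [Group G]
    (hG : IsMinSimpleOddOrder G) {e : G} (he : e ≠ 1) :
    Subgroup.centralizer ({e} : Set G) ≠ ⊤ := by
  intro h
  have hs : IsSimpleGroup G := hG.2.1
  have hec : e ∈ Subgroup.center G := by
    rw [Subgroup.mem_center_iff]
    intro g
    have hg : g ∈ Subgroup.centralizer ({e} : Set G) := h ▸ Subgroup.mem_top g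
    exact ((Subgroup.mem_centralizer_iff.mp hg) e rfl).symm
  have hn : (Subgroup.center G).Normal := inferInstance
  rcases hn.eq_bot_or_eq_top with h1 | h1
  · rw [h1, Subgroup.mem_bot] at hec
    exact he hec
  · exact hG.2.2.1 (Subgroup.center_eq_top_iff.mp h1)

/-- A subgroup of rank more than `k` contains an elementary abelian subgroup of order `p ^ (k + 1)`. -/
theorem exists_elemAb_of_not_rankLE {G : Type*} [Group G] [Finite G] (X : Subgroup G) (k : ℕ)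
    (h : ¬ RankLE k ↥X) :
    ∃ (p : ℕ) (E : Subgroup G), p.Prime ∧ E ≤ X ∧ (∀ a ∈ E, ∀ b ∈ E, a * b = b * a) ∧
      (∀ a ∈ E, a ^ p = 1) ∧ Nat.card E = p ^ (k + 1) := by
  unfold RankLE PRankLE at h
  push Not at h
  obtain ⟨p, hp, E', hE'c, hE'p, hE'card⟩ := h
  have hfp : Fact p.Prime := ⟨hp⟩
  have hpg : IsPGroup p E' := by
    intro g
    refine ⟨1, ?_⟩
    rw [pow_one]
    apply Subtype.ext
    exact hE'p g.1 g.2
  obtain ⟨m, hm⟩ := IsPGroup.iff_card.mp hpg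
  have hkm : k + 1 ≤ m := by
    rw [hm] at hE'card
    have := (Nat.pow_lt_pow_iff_right hp.one_lt).mp hE'card
    omega
  obtain ⟨K, hK⟩ := Sylow.exists_subgroup_card_pow_prime (G := E') p
    (hm ▸ Nat.pow_dvd_pow p hkm)
  refine ⟨p, (K.map E'.subtype).map X.subtype, hp, ?_, ?_, ?_, ?_⟩
  · rintro x ⟨y, -, rfl⟩
    exact y.2
  · rintro a ⟨a', ⟨a'', -, rfl⟩, rfl⟩ b ⟨b', ⟨b'', -, rfl⟩, rfl⟩
    have h1 : a'' * b'' = b'' * a'' := hE'c.is_comm.comm a'' b''
    have h2 := congrArg (fun z : E' => ((z : X) : G)) h1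
    simpa using h2
  · rintro a ⟨a', ⟨a'', -, rfl⟩, rfl⟩
    have h1 := hE'p a''.1 a''.2
    have h2 := congrArg (fun z : X => (z : G)) h1
    simpa using h2
  · rw [← Nat.card_congr (((K.map E'.subtype)).equivMapOfInjective X.subtype X.subtype_injective).toEquiv,
      ← Nat.card_congr (K.equivMapOfInjective E'.subtype E'.subtype_injective).toEquiv, hK]

/-- B&G Theorem 7.4. -/
theorem trans74 {G : Type*} [Group G] [Finite G] (hG : IsMinSimpleOddOrder G)
    (A : Subgroup G) (hA : TransitivityHypothesis A)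
    (hZ : ¬ RankLE 1 ↥(A ⊓ Subgroup.centralizer (A : Set G)))
    (q : ℕ) (hq : q.Prime) (hqA : ¬ q ∣ Nat.card A)
    (hqC : q ∣ Nat.card (Subgroup.centralizer (A : Set G))) :
    ∀ Q₁ ∈ maxInvSubgroups ⊤ A {q}, ∀ Q₂ ∈ maxInvSubgroups ⊤ A {q},
      ∃ k ∈ piCoreOf (primesNotDvd (Nat.card A)) (Subgroup.centralizer (A : Set G)),
        Q₂ = cj k Q₁ := by
  have hfq : Fact q.Prime := ⟨hq⟩
  obtain ⟨p, E, hp, hEX, hEc, hEp, hEcard⟩ := exists_elemAb_of_not_rankLE _ 1 hZ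
  have hfp : Fact p.Prime := ⟨hp⟩
  have hEA : E ≤ A := hEX.trans inf_le_left
  have hEZ : E ≤ Subgroup.centralizer (A : Set G) := hEX.trans inf_le_right
  have hpA : p ∣ Nat.card A := by
    have h1 : Nat.card E ∣ Nat.card A := Subgroup.card_dvd_of_le hEA
    rw [hEcard] at h1
    exact (dvd_pow_self p (by norm_num)).trans h1
  have hpq : p ≠ q := fun h => hqA (h ▸ hpA)
  -- a nontrivial q-subgroup centralized by A
  obtain ⟨Q₀, hQ₀⟩ := sylSet_nonempty q (Subgroup.centralizer (A : Set G))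
  have hQ₀ne : Q₀ ≠ ⊥ := by
    intro h
    have h1 := hQ₀.2
    rw [h, Subgroup.card_bot] at h1
    have h2 : 0 < (Nat.card (Subgroup.centralizer (A : Set G))).factorization q :=
      hq.factorization_pos_of_dvd Nat.card_pos.ne' hqC
    have h3 : 1 < q ^ (Nat.card (Subgroup.centralizer (A : Set G))).factorization q :=
      Nat.one_lt_pow h2.ne' hq.one_lt
    omega
  have hAQ₀ : A ≤ Subgroup.normalizer (Q₀ : Set G) := by
    rw [Subgroup.le_normalizer_iff]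
    intro a ha x hx
    have h1 : a * x = x * a := (Subgroup.mem_centralizer_iff.mp (hQ₀.1 hx)) a ha
    have h2 : a * x * a⁻¹ = x := by rw [h1]; group
    rw [h2]; exact hx
  obtain ⟨Qs, hQs, hQ₀Qs⟩ := exists_maxInv_ge (A := A) (π := {q})
    ⟨le_top, primes_of_isPGroup (isPGroup_of_mem_sylSet hQ₀), hAQ₀⟩
  have key : ∀ Q ∈ maxInvSubgroups ⊤ A {q},
      ∃ k ∈ piCoreOf (primesNotDvd (Nat.card A)) (Subgroup.centralizer (A : Set G)),
        Qs = cj k Q := by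
    intro Q hQ
    have hQne : Q ≠ ⊥ := by
      intro h
      have h1 : Qs = Q := hQ.2 Qs hQs.1 (h ▸ bot_le)
      exact hQ₀ne (le_bot_iff.mp (h ▸ h1 ▸ hQ₀Qs))
    obtain ⟨x, hxE, hx1, hxQ⟩ := exists_fixed_of_rank_two hpq E ⊥ Q hEc hEp bot_le
      (by rw [Subgroup.card_bot, hEcard, mul_one]) (isPGroup_of_primes hQ.1.2.1) hQne
      (hEA.trans hQ.1.2.2)
    have hx1' : x ≠ 1 := fun h => hx1 (h ▸ Subgroup.one_mem _)
    have hAH : A ≤ Subgroup.centralizer ({x} : Set G) := by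
      intro a ha
      refine Subgroup.mem_centralizer_iff.mpr ?_
      intro h hh
      rw [Set.mem_singleton_iff] at hh
      subst hh
      exact ((Subgroup.mem_centralizer_iff.mp (hEZ hxE)) a ha).symm
    have hQ₀H : Q₀ ≤ Subgroup.centralizer ({x} : Set G) :=
      hQ₀.1.trans (Subgroup.centralizer_le (Set.singleton_subset_iff.mpr (hEA hxE)))
    exact trans72_aux hG A hA q hq hqA _ Q Qs hQ hQs le_rfl
      ⟨Subgroup.centralizer ({x} : Set G), minSimple_centralizer_singleton_ne_top hG hx1', hAH,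
        by rwa [inf_comm], fun h => hQ₀ne (le_bot_iff.mp (h ▸ le_inf hQ₀H hQ₀Qs))⟩
  intro Q₁ h₁ Q₂ h₂
  obtain ⟨k₁, hk₁, hk₁Q⟩ := key Q₁ h₁
  obtain ⟨k₂, hk₂, hk₂Q⟩ := key Q₂ h₂
  refine ⟨k₂⁻¹ * k₁, Subgroup.mul_mem _ (Subgroup.inv_mem _ hk₂) hk₁, ?_⟩
  rw [cj_mul, ← hk₁Q, hk₂Q, cj_inv_cj]

/-- For an elementary abelian `E` of order `p ^ 3` normalizing a nontrivial `q`-group `Q`, some
subgroup `B` of `E` of order at least `p ^ 2` has all its non-identity elements fixing a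
non-identity element of `Q`. -/
theorem exists_plane_fixing {G : Type*} [Group G] [Finite G] {p q : ℕ} [hp : Fact p.Prime]
    [hq : Fact q.Prime] (hpq : p ≠ q) (E Q : Subgroup G)
    (hEc : ∀ a ∈ E, ∀ b ∈ E, a * b = b * a) (hEp : ∀ a ∈ E, a ^ p = 1)
    (hEcard : Nat.card E = p ^ 3) (hQ : IsPGroup q Q) (hQ1 : Q ≠ ⊥)
    (hEQ : E ≤ Subgroup.normalizer (Q : Set G)) :
    ∃ B : Subgroup G, B ≤ E ∧ p ^ 2 ≤ Nat.card B ∧
      ∀ b ∈ B, b ≠ 1 → Q ⊓ Subgroup.centralizer ({b} : Set G) ≠ ⊥ := by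
  have hcentE : ∀ x ∈ E, E ≤ Subgroup.centralizer ({x} : Set G) := by
    intro x hx y hy
    refine Subgroup.mem_centralizer_iff.mpr ?_
    intro h hh
    rw [Set.mem_singleton_iff] at hh
    subst hh
    exact hEc h hx y hy
  obtain ⟨e₁, he₁E, he₁1, hR⟩ := exists_fixed_of_rank_two hpq E ⊥ Q hEc hEp bot_le
    (by
      rw [Subgroup.card_bot, hEcard, mul_one]
      exact Nat.pow_le_pow_right hp.out.pos (by norm_num)) hQ hQ1 hEQ
  have he₁1' : e₁ ≠ 1 := fun h => he₁1 (h ▸ Subgroup.one_mem _)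
  set R : Subgroup G := Q ⊓ Subgroup.centralizer ({e₁} : Set G) with hRdef
  have hRq : IsPGroup q R := hQ.to_le inf_le_left
  have hER : E ≤ Subgroup.normalizer (R : Set G) :=
    le_trans (le_inf hEQ ((hcentE e₁ he₁E).trans Subgroup.le_normalizer))
      Subgroup.inf_normalizer_le_normalizer_inf
  have hord : orderOf e₁ = p := by
    rcases (Nat.dvd_prime hp.out).mp (orderOf_dvd_of_pow_eq_one (hEp e₁ he₁E)) with h | h
    · exact absurd (orderOf_eq_one_iff.mp h) he₁1'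
    · exact h
  have hzE : Subgroup.zpowers e₁ ≤ E := by
    rw [Subgroup.zpowers_le]; exact he₁E
  obtain ⟨e₂, he₂E, he₂Z, hC⟩ := exists_fixed_of_rank_two hpq E (Subgroup.zpowers e₁) R hEc hEp hzE
    (by rw [Nat.card_zpowers, hord, hEcard]; exact le_of_eq (by ring)) hRq hR hER
  set C : Subgroup G := R ⊓ Subgroup.centralizer ({e₂} : Set G) with hCdef
  refine ⟨E ⊓ Subgroup.centralizer (C : Set G), inf_le_left, ?_, ?_⟩
  · have he₁B : e₁ ∈ E ⊓ Subgroup.centralizer (C : Set G) := by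
      refine ⟨he₁E, Subgroup.mem_centralizer_iff.mpr ?_⟩
      intro c hc
      exact ((Subgroup.mem_centralizer_iff.mp hc.1.2) e₁ rfl).symm
    have he₂B : e₂ ∈ E ⊓ Subgroup.centralizer (C : Set G) := by
      refine ⟨he₂E, Subgroup.mem_centralizer_iff.mpr ?_⟩
      intro c hc
      exact ((Subgroup.mem_centralizer_iff.mp hc.2) e₂ rfl).symm
    have hzB : Subgroup.zpowers e₁ ≤ E ⊓ Subgroup.centralizer (C : Set G) := by
      rw [Subgroup.zpowers_le]; exact he₁B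
    have hlt := card_lt_of_le_of_not_mem hzB he₂B he₂Z
    rw [Nat.card_zpowers, hord] at hlt
    have hdvd : Nat.card ↥(E ⊓ Subgroup.centralizer (C : Set G)) ∣ p ^ 3 :=
      hEcard ▸ Subgroup.card_dvd_of_le inf_le_left
    obtain ⟨j, -, hj⟩ := (Nat.dvd_prime_pow hp.out).mp hdvd
    rw [hj] at hlt ⊢
    have h1 : 1 < j := by
      have h2 : p ^ 1 < p ^ j := by rwa [pow_one]
      exact (Nat.pow_lt_pow_iff_right hp.out.one_lt).mp h2
    exact Nat.pow_le_pow_right hp.out.pos h1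
  · intro b hb _ hbot
    apply hC
    rw [eq_bot_iff, ← hbot]
    intro c hc
    refine ⟨hc.1.1, Subgroup.mem_centralizer_iff.mpr ?_⟩
    intro h hh
    rw [Set.mem_singleton_iff] at hh
    subst hh
    exact ((Subgroup.mem_centralizer_iff.mp hb.2) c hc).symm

/-- B&G Theorem 7.3. -/
theorem trans73 {G : Type*} [Group G] [Finite G] (hG : IsMinSimpleOddOrder G)
    (A : Subgroup G) (hA : TransitivityHypothesis A)
    (hZ : ¬ RankLE 2 ↥(A ⊓ Subgroup.centralizer (A : Set G)))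
    (q : ℕ) (hq : q.Prime) (hqA : ¬ q ∣ Nat.card A) :
    ∀ Q₁ ∈ maxInvSubgroups ⊤ A {q}, ∀ Q₂ ∈ maxInvSubgroups ⊤ A {q},
      ∃ k ∈ piCoreOf (primesNotDvd (Nat.card A)) (Subgroup.centralizer (A : Set G)),
        Q₂ = cj k Q₁ := by
  have hfq : Fact q.Prime := ⟨hq⟩
  obtain ⟨p, E, hp, hEX, hEc, hEp, hEcard0⟩ := exists_elemAb_of_not_rankLE _ 2 hZ
  have hEcard : Nat.card E = p ^ 3 := hEcard0
  have hfp : Fact p.Prime := ⟨hp⟩
  have hEA : E ≤ A := hEX.trans inf_le_left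
  have hEZ : E ≤ Subgroup.centralizer (A : Set G) := hEX.trans inf_le_right
  have hpA : p ∣ Nat.card A := by
    have h1 : Nat.card E ∣ Nat.card A := Subgroup.card_dvd_of_le hEA
    rw [hEcard] at h1
    exact (dvd_pow_self p (by norm_num)).trans h1
  have hpq : p ≠ q := fun h => hqA (h ▸ hpA)
  intro Q₁ h₁ Q₂ h₂
  by_cases hQ₁ : Q₁ = ⊥
  · have h1 : Q₂ = Q₁ := h₁.2 Q₂ h₂.1 (hQ₁ ▸ bot_le)
    exact ⟨1, Subgroup.one_mem _, by rw [cj_one, h1]⟩
  by_cases hQ₂ : Q₂ = ⊥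
  · have h1 : Q₁ = Q₂ := h₂.2 Q₁ h₁.1 (hQ₂ ▸ bot_le)
    exact ⟨1, Subgroup.one_mem _, by rw [cj_one, h1]⟩
  obtain ⟨B₁, hB₁E, hB₁card, hB₁⟩ := exists_plane_fixing hpq E Q₁ hEc hEp hEcard
    (isPGroup_of_primes h₁.1.2.1) hQ₁ (hEA.trans h₁.1.2.2)
  obtain ⟨B₂, hB₂E, hB₂card, hB₂⟩ := exists_plane_fixing hpq E Q₂ hEc hEp hEcard
    (isPGroup_of_primes h₂.1.2.1) hQ₂ (hEA.trans h₂.1.2.2)
  -- B₁ ∩ B₂ is nontrivial
  have hppos : 0 < p := hp.pos
  have hrel : ∀ B : Subgroup G, B ≤ E → p ^ 2 ≤ Nat.card B → B.relIndex E ≤ p := by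
    intro B hBE hBcard
    have h1 := card_mul_relIndex_of_le hBE
    rw [hEcard] at h1
    have h2 : p ^ 2 * B.relIndex E ≤ p ^ 2 * p := by
      calc p ^ 2 * B.relIndex E ≤ Nat.card B * B.relIndex E := Nat.mul_le_mul_right _ hBcard
        _ = p ^ 3 := h1
        _ = p ^ 2 * p := by ring
    exact Nat.le_of_mul_le_mul_left h2 (by positivity)
  have hne : B₁ ⊓ B₂ ≠ ⊥ := by
    intro hbot
    have h1 := card_mul_relIndex_of_le (inf_le_left.trans hB₁E : B₁ ⊓ B₂ ≤ E)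
    rw [hbot, Subgroup.card_bot, one_mul, hEcard] at h1
    have h2 : (B₁ ⊓ B₂).relIndex E ≤ B₁.relIndex E * B₂.relIndex E := Subgroup.relIndex_inf_le
    rw [hbot, h1] at h2
    have h3 : B₁.relIndex E * B₂.relIndex E ≤ p * p :=
      Nat.mul_le_mul (hrel B₁ hB₁E hB₁card) (hrel B₂ hB₂E hB₂card)
    have h4 : p ^ 3 = p * p * p := by ring
    have h5 : p * p * 2 ≤ p * p * p := Nat.mul_le_mul_left _ hp.two_le
    have h6 : 0 < p * p := Nat.mul_pos hppos hppos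
    omega
  obtain ⟨⟨b, hb⟩, hb1⟩ := (Subgroup.ne_bot_iff_exists_ne_one).mp hne
  have hb1' : b ≠ 1 := fun h => hb1 (Subtype.ext h)
  have hbE : b ∈ E := hB₁E hb.1
  have hAH : A ≤ Subgroup.centralizer ({b} : Set G) := by
    intro a ha
    refine Subgroup.mem_centralizer_iff.mpr ?_
    intro h hh
    rw [Set.mem_singleton_iff] at hh
    subst hh
    exact ((Subgroup.mem_centralizer_iff.mp (hEZ hbE)) a ha).symm
  exact trans72_aux hG A hA q hq hqA _ Q₁ Q₂ h₁ h₂ le_rfl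
    ⟨Subgroup.centralizer ({b} : Set G), minSimple_centralizer_singleton_ne_top hG hb1', hAH,
      by rw [inf_comm]; exact hB₁ b hb.1 hb1', by rw [inf_comm]; exact hB₂ b hb.2 hb1'⟩

end Cfsg.Agent.Lib.Helper32
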