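import Cfsg.Agent.Lib.Helper32.Trans3

set_option autoImplicit false
open Cfsg
open scoped commutatorElement

namespace Cfsg.Agent.Lib.Helper32

theorem sup_decomp_normal {G : Type*} [Group G] (K N : Subgroup G)
    (hN : N ≤ Subgroup.normalizer (K : Set G)) :
    ∀ x ∈ K ⊔ N, ∃ k ∈ K, ∃ n ∈ N, x = k * n := by
  intro x hx
  rw [Subgroup.sup_eq_closure_mul] at hx
  induction hx using Subgroup.closure_induction with
  | mem y hy =>
    obtain ⟨a, ha, b, hb, rfl⟩ := Set.mem_mul.mp hy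
    exact ⟨a, ha, b, hb, rfl⟩
  | one => exact ⟨1, K.one_mem, 1, N.one_mem, by simp⟩
  | mul y z _ _ hy hz =>
    obtain ⟨a, ha, b, hb, rfl⟩ := hy
    obtain ⟨a', ha', b', hb', rfl⟩ := hz
    have h1 : b * a' * b⁻¹ ∈ K := (Subgroup.le_normalizer_iff.mp hN) b hb a' ha'
    exact ⟨a * (b * a' * b⁻¹), K.mul_mem ha h1, b * b', N.mul_mem hb hb', by group⟩
  | inv y _ hy =>
    obtain ⟨a, ha, b, hb, rfl⟩ := hy
    have h1 : b⁻¹ * a⁻¹ * b⁻¹⁻¹ ∈ K :=
      (Subgroup.le_normalizer_iff.mp hN) b⁻¹ (N.inv_mem hb) a⁻¹ (K.inv_mem ha)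
    exact ⟨b⁻¹ * a⁻¹ * b⁻¹⁻¹, h1, b⁻¹, N.inv_mem hb, by group⟩

theorem commutator_sup_le {G : Type*} [Group G] (K N : Subgroup G)
    (hN : N ≤ Subgroup.normalizer (K : Set G)) :
    ⁅K ⊔ N, K ⊔ N⁆ ≤ K ⊔ ⁅N, N⁆ := by
  rw [Subgroup.commutator_le]
  intro x hx y hy
  obtain ⟨k₁, hk₁, n₁, hn₁, rfl⟩ := sup_decomp_normal K N hN x hx
  obtain ⟨k₂, hk₂, n₂, hn₂, rfl⟩ := sup_decomp_normal K N hN y hy
  have hnorm := Subgroup.le_normalizer_iff.mp hN
  have e : ⁅k₁ * n₁, k₂ * n₂⁆ = k₁ * (n₁ * k₂ * n₁⁻¹) *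
      ((n₁ * n₂ * n₁⁻¹) * k₁⁻¹ * (n₁ * n₂ * n₁⁻¹)⁻¹) *
      (⁅n₁, n₂⁆ * k₂⁻¹ * ⁅n₁, n₂⁆⁻¹) * ⁅n₁, n₂⁆ := by
    simp only [commutatorElement_def]; group
  rw [e]
  have hc : ⁅n₁, n₂⁆ ∈ N := by
    rw [commutatorElement_def]
    exact N.mul_mem (N.mul_mem (N.mul_mem hn₁ hn₂) (N.inv_mem hn₁)) (N.inv_mem hn₂)
  have h1 : n₁ * k₂ * n₁⁻¹ ∈ K := hnorm n₁ hn₁ k₂ hk₂
  have h2 : (n₁ * n₂ * n₁⁻¹) * k₁⁻¹ * (n₁ * n₂ * n₁⁻¹)⁻¹ ∈ K :=
    hnorm _ (N.mul_mem (N.mul_mem hn₁ hn₂) (N.inv_mem hn₁)) _ (K.inv_mem hk₁)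
  have h3 : ⁅n₁, n₂⁆ * k₂⁻¹ * ⁅n₁, n₂⁆⁻¹ ∈ K := hnorm _ hc _ (K.inv_mem hk₂)
  exact Subgroup.mul_mem _
    (Subgroup.mem_sup_left (K.mul_mem (K.mul_mem (K.mul_mem hk₁ h1) h2) h3))
    (Subgroup.mem_sup_right (Subgroup.commutator_mem_commutator hn₁ hn₂))

theorem mem_commutator_of_coprime {G : Type*} [Group G] (N : Subgroup G) {x k n : G}
    (hx : x ∈ N) (hk : k ∈ N) (hn : n ∈ ⁅N, N⁆) (hxkn : x = k * n)
    (hcop : (orderOf x).Coprime (orderOf k)) : x ∈ ⁅N, N⁆ := by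
  rw [← Subgroup.map_subtype_commutator] at hn ⊢
  obtain ⟨m, hm, rfl⟩ := hn
  refine ⟨⟨x, hx⟩, ?_, rfl⟩
  rw [SetLike.mem_coe, ← Abelianization.ker_of, MonoidHom.mem_ker] at hm ⊢
  have h1 : Abelianization.of (⟨x, hx⟩ : N) = Abelianization.of (⟨k, hk⟩ : N) := by
    have : (⟨x, hx⟩ : N) = ⟨k, hk⟩ * m := Subtype.ext hxkn
    rw [this, map_mul, hm, mul_one]
  have h2 : orderOf (Abelianization.of (⟨x, hx⟩ : N)) ∣ orderOf x := by
    have := orderOf_map_dvd Abelianization.of (⟨x, hx⟩ : N)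
    rwa [Subgroup.orderOf_mk] at this
  have h3 : orderOf (Abelianization.of (⟨x, hx⟩ : N)) ∣ orderOf k := by
    rw [h1]
    have := orderOf_map_dvd Abelianization.of (⟨k, hk⟩ : N)
    rwa [Subgroup.orderOf_mk] at this
  have h4 := Nat.dvd_gcd h2 h3
  rw [Nat.Coprime] at hcop
  rw [hcop] at h4
  exact orderOf_eq_one_iff.mp (Nat.dvd_one.mp h4)

/-- B&G Theorem 7.5. -/
theorem trans75 {G : Type*} [Group G] [Finite G] (hG : IsMinSimpleOddOrder G)
    (A : Subgroup G) (hA : TransitivityHypothesis A) (q : ℕ) (hq : q.Prime)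
    (hqA : ¬ q ∣ Nat.card A)
    (P : Subgroup G) (hP : P ≠ ⊤) (hPπ : ∀ r : ℕ, r.Prime → r ∣ Nat.card P → r ∣ Nat.card A)
    (hAP : A ≤ P) (hsn : (A.subgroupOf P).IsSubnormal)
    (htr : ∀ Q₁ ∈ maxInvSubgroups ⊤ A {q}, ∀ Q₂ ∈ maxInvSubgroups ⊤ A {q},
      ∃ k ∈ piCoreOf (primesNotDvd (Nat.card A)) (Subgroup.centralizer (A : Set G)),
        Q₂ = cj k Q₁) :
    piCoreOf (primesNotDvd (Nat.card A)) (Subgroup.centralizer (A : Set G)) ⊓
        Subgroup.centralizer (P : Set G) =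
        piCoreOf (primesNotDvd (Nat.card A)) (Subgroup.centralizer (P : Set G)) ∧
      (∀ Q₁ ∈ maxInvSubgroups ⊤ P {q}, ∀ Q₂ ∈ maxInvSubgroups ⊤ P {q},
        ∃ k ∈ piCoreOf (primesNotDvd (Nat.card A)) (Subgroup.centralizer (P : Set G)),
          Q₂ = cj k Q₁) ∧
      maxInvSubgroups ⊤ P {q} ⊆ maxInvSubgroups ⊤ A {q} ∧
      ∀ Q ∈ maxInvSubgroups ⊤ P {q},
        P ⊓ ⁅Subgroup.normalizer (P : Set G), Subgroup.normalizer (P : Set G)⁆ ≤
          ⁅Subgroup.normalizer (Q : Set G), Subgroup.normalizer (Q : Set G)⁆ ∧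
        Subgroup.normalizer (P : Set G) =
          piCoreOf (primesNotDvd (Nat.card A)) (Subgroup.centralizer (P : Set G)) ⊔
            (Subgroup.normalizer (P : Set G) ⊓ Subgroup.normalizer (Q : Set G)) := by
  have hmap : (A.subgroupOf P).map P.subtype = A := Subgroup.map_subgroupOf_eq_of_le hAP
  have hchain := trans_chain hG A hA q hq hqA P hP hPπ (A.subgroupOf P) hsn
  rw [hmap] at hchain
  obtain ⟨hsub, htrP⟩ := hchain le_rfl htr
  set KP := piCoreOf (primesNotDvd (Nat.card A)) (Subgroup.centralizer (P : Set G)) with hKP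
  have hKPC : KP ≤ Subgroup.centralizer (P : Set G) := piCoreOf_le _ _
  have hKPN : KP ≤ Subgroup.normalizer (P : Set G) :=
    hKPC.trans (Subgroup.centralizer_le_normalizer _)
  have hNK : Subgroup.normalizer (P : Set G) ≤ Subgroup.normalizer (KP : Set G) :=
    (normalizer_le_normalizer_centralizer P).trans (normalizer_le_normalizer_piCoreOf _ _)
  refine ⟨le_antisymm (core_inf_centralizer_le _ A P hAP) (le_inf ?_ hKPC), htrP, hsub, ?_⟩
  · have h1 : KP ⊓ Subgroup.centralizer (A : Set G) ≤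
        piCoreOf (primesNotDvd (Nat.card A)) (Subgroup.centralizer (A : Set G)) :=
      centralizer_inf_le_core hG A hA KP (piCoreOf_primes _ _)
    exact (le_inf le_rfl
      (hKPC.trans (Subgroup.centralizer_le (SetLike.coe_subset_coe.mpr hAP)))).trans h1
  · intro Q hQ
    have hfr : Subgroup.normalizer (P : Set G) =
        KP ⊔ (Subgroup.normalizer (P : Set G) ⊓ Subgroup.normalizer (Q : Set G)) := by
      apply le_antisymm
      · intro g hg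
        have hgQ : cj g Q ∈ maxInvSubgroups ⊤ P {q} := cj_mem_maxInv_of_normalizer hg hQ
        obtain ⟨k, hk, hkQ⟩ := htrP Q hQ (cj g Q) hgQ
        have h1 : cj (k⁻¹ * g) Q = Q := by
          rw [cj_mul, hkQ, cj_inv_cj]
        have h2 : k⁻¹ * g ∈ Subgroup.normalizer (Q : Set G) := cj_eq_self_iff.mp h1
        have h3 : k⁻¹ * g ∈ Subgroup.normalizer (P : Set G) :=
          Subgroup.mul_mem _ (Subgroup.inv_mem _ (hKPN hk)) hg
        have h4 : g = k * (k⁻¹ * g) := by group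
        rw [h4]
        exact Subgroup.mul_mem _ (Subgroup.mem_sup_left hk) (Subgroup.mem_sup_right ⟨h3, h2⟩)
      · exact sup_le hKPN inf_le_left
    refine ⟨?_, hfr⟩
    set N₁ := Subgroup.normalizer (P : Set G) ⊓ Subgroup.normalizer (Q : Set G) with hN₁
    have hN₁K : N₁ ≤ Subgroup.normalizer (KP : Set G) := inf_le_left.trans hNK
    have hcomm : ⁅Subgroup.normalizer (P : Set G), Subgroup.normalizer (P : Set G)⁆ ≤
        KP ⊔ ⁅N₁, N₁⁆ := by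
      have h := commutator_sup_le KP N₁ hN₁K
      rwa [← hfr] at h
    intro x hx
    obtain ⟨k, hk, n, hn, hxkn⟩ := sup_decomp_normal KP ⁅N₁, N₁⁆
      ((Subgroup.commutator_le_self N₁).trans hN₁K) x (hcomm hx.2)
    have hPN₁ : P ≤ N₁ := le_inf Subgroup.le_normalizer hQ.1.2.2
    have hkN₁ : k ∈ N₁ := by
      have : k = x * n⁻¹ := by rw [hxkn]; group
      rw [this]
      exact N₁.mul_mem (hPN₁ hx.1) (N₁.inv_mem (Subgroup.commutator_le_self N₁ hn))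
    have hcop : (orderOf x).Coprime (orderOf k) := by
      apply Nat.coprime_of_dvd
      intro r hr hrx hrk
      have h1 : r ∣ Nat.card A := hPπ r hr (hrx.trans (orderOf_dvd_card_of_mem P hx.1))
      exact (piCoreOf_primes _ _ r hr (hrk.trans (orderOf_dvd_card_of_mem KP hk))).2 h1
    have := mem_commutator_of_coprime N₁ (hPN₁ hx.1) hkN₁ hn hxkn hcop
    exact Subgroup.commutator_mono inf_le_right inf_le_right this

end Cfsg.Agent.Lib.Helper32
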