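import Cfsg.Agent.Lib.Helper34.Puig3
import Cfsg.Agent.Lib.Helper32.ThTrans2
import Cfsg.Agent.Lib.Helper32.PConstr3

set_option autoImplicit false

namespace Cfsg.Agent.Lib.Helper32

open Cfsg Cfsg.Agent.Lib.Helper34

universe u

section Uniq1

variable {G : Type u} [Group G] [Finite G]

omit [Finite G] in
/-- proper subgroups of a minimal simple group are solvable -/
theorem minSimple_solvable (hG : IsMinSimpleOddOrder G) {H : Subgroup G} (hH : H ≠ ⊤) :
    Group.IsSolvable ↥H := hG.2.2.2 H hH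

omit [Finite G] in
theorem minSimple_odd_sub (hG : IsMinSimpleOddOrder G) (H : Subgroup G) : Odd (Nat.card ↥H) :=
  Odd.of_dvd_nat hG.1 (Subgroup.card_subgroup_dvd_card H)

theorem exists_coatom_ge {H : Subgroup G} (hH : H ≠ ⊤) :
    ∃ L : Subgroup G, IsCoatom L ∧ H ≤ L := by
  rcases eq_top_or_exists_le_coatom H with h | h
  · exact absurd h hH
  · exact h

omit [Finite G] in
theorem normalizer_eq_of_coatom (hG : IsMinSimpleOddOrder G) {M D : Subgroup G} (hM : IsCoatom M)
    (hD1 : D ≠ ⊥) (hDM : D ≤ M) (hMD : M ≤ Subgroup.normalizer (D : Set G)) :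
    Subgroup.normalizer (D : Set G) = M := by
  have hDtop : D ≠ ⊤ := fun h => hM.1 (top_le_iff.mp (h ▸ hDM))
  have hne := minSimple_normalizer_ne_top hG hD1 hDtop
  exact (hM.le_iff_eq hne).mp hMD

omit [Finite G] in
theorem coatom_eq_of_le {H M : Subgroup G} (hH : IsCoatom H) (hM : IsCoatom M) (h : H ≤ M) :
    H = M := ((hH.le_iff_eq hM.1).mp h).symm

/-! ### Sylow subgroups of a subgroup, as subgroups of `G` -/

theorem exists_sylow_of_mem_sylSet {p : ℕ} [Fact p.Prime] {H R : Subgroup G}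
    (hR : R ∈ sylSet p H) : ∃ S : Sylow p ↥H, (S : Subgroup ↥H).map H.subtype = R := by
  have c : Nat.card (R.subgroupOf H) = p ^ (Nat.card H).factorization p := by
    rw [Nat.card_congr (Subgroup.subgroupOfEquivOfLe hR.1).toEquiv]; exact hR.2
  refine ⟨Sylow.ofCard _ c, ?_⟩
  show (R.subgroupOf H).map H.subtype = R
  exact Subgroup.map_subgroupOf_eq_of_le hR.1

theorem mem_sylSet_of_sylow {p : ℕ} [Fact p.Prime] {H : Subgroup G} (S : Sylow p ↥H) :
    (S : Subgroup ↥H).map H.subtype ∈ sylSet p H := by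
  refine ⟨?_, ?_⟩
  · rintro x ⟨y, -, rfl⟩; exact y.2
  · rw [← Nat.card_congr ((S : Subgroup ↥H).equivMapOfInjective H.subtype
      H.subtype_injective).toEquiv]
    exact S.card_eq_multiplicity

omit [Finite G] in
theorem mem_normalizer_map_subtype {H : Subgroup G} {N : Subgroup ↥H} {y : ↥H}
    (hy : y ∈ Subgroup.normalizer (N : Set ↥H)) :
    (y : G) ∈ Subgroup.normalizer ((N.map H.subtype : Subgroup G) : Set G) := by
  rw [Subgroup.mem_normalizer_iff] at hy ⊢
  intro h
  constructor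
  · rintro ⟨n, hn, rfl⟩
    exact ⟨y * n * y⁻¹, (hy n).mp hn, rfl⟩
  · rintro ⟨n, hn, hne⟩
    refine ⟨y⁻¹ * n * y, ?_, ?_⟩
    · have h1 : y * (y⁻¹ * n * y) * y⁻¹ = n := by group
      have h3 : n ∈ N := hn
      rw [← h1] at h3
      exact (hy _).mpr h3
    · have h2 : (n : G) = (y : G) * h * (y : G)⁻¹ := hne
      show (y : G)⁻¹ * (n : G) * (y : G) = h
      rw [h2]; group

omit [Finite G] in
theorem le_normalizer_map_subtype (H : Subgroup G) (N : Subgroup ↥H) [hn : N.Normal] :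
    H ≤ Subgroup.normalizer ((N.map H.subtype : Subgroup G) : Set G) := by
  intro x hx
  have h1 : (⟨x, hx⟩ : ↥H) ∈ Subgroup.normalizer (N : Set ↥H) := by
    rw [Subgroup.normalizer_eq_top_iff.mpr hn]; trivial
  exact mem_normalizer_map_subtype h1

/-- a Sylow subgroup whose normalizer is inside `M` is a Sylow subgroup of every overgroup -/
theorem mem_sylSet_of_normalizer_le {p : ℕ} [Fact p.Prime] {M P H : Subgroup G}
    (hP : P ∈ sylSet p M) (hN : Subgroup.normalizer (P : Set G) ≤ M) (hPH : P ≤ H) :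
    P ∈ sylSet p H := by
  have hPp : IsPGroup p P := isPGroup_of_mem_sylSet hP
  obtain ⟨S, hS, hPS⟩ := exists_sylSet_ge hPp hPH
  have hSp : IsPGroup p S := isPGroup_of_mem_sylSet hS
  by_cases hne : P = S
  · rw [hne]; exact hS
  · exfalso
    obtain ⟨y, hyS, hyP, hyN⟩ := exists_normalizing_not_mem hSp hPS hne
    set Q : Subgroup G := S ⊓ Subgroup.normalizer (P : Set G) with hQ
    have hQp : IsPGroup p Q := hSp.to_le inf_le_left
    have hQM : Q ≤ M := inf_le_right.trans hN
    have hPQ : P ≤ Q := le_inf hPS Subgroup.le_normalizer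
    have hQP : Q = P := sylSet_eq_of_le hP hQp hQM hPQ
    exact hyP (hQP ▸ (⟨hyS, hyN⟩ : y ∈ Q))

/-! ### The subgroup `Z(L(S))` -/

omit [Finite G] in
theorem relZ_le (S : Subgroup G) : relZ S ≤ S := inf_le_left.trans (relL_le S)

theorem relZ_ne_bot {p : ℕ} [Fact p.Prime] {S : Subgroup G} (hS : IsPGroup p S) (hS1 : S ≠ ⊥) :
    relZ S ≠ ⊥ := by
  have hL : relL S ≠ ⊥ := by
    intro h
    have h1 := inf_centralizer_relL_le p S hS
    rw [h] at h1
    apply hS1
    rw [eq_bot_iff]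
    intro x hx
    apply h1
    refine Subgroup.mem_inf.mpr ⟨hx, ?_⟩
    rw [Subgroup.mem_centralizer_iff]
    intro y hy
    rw [Subgroup.mem_bot.mp hy]; simp
  have : Nontrivial ↥(relL S) := (Subgroup.nontrivial_iff_ne_bot _).mpr hL
  have hLp : IsPGroup p ↥(relL S) := hS.to_le (relL_le S)
  have hc := hLp.bot_lt_center
  obtain ⟨z, hz, hz1⟩ := SetLike.exists_of_lt hc
  intro hbot
  apply hz1
  have hzZ : (z : G) ∈ relZ S := by
    refine Subgroup.mem_inf.mpr ⟨z.2, ?_⟩
    rw [Subgroup.mem_centralizer_iff]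
    intro y hy
    have h2 := Subgroup.mem_center_iff.mp hz ⟨y, hy⟩
    exact congrArg Subtype.val h2
  rw [hbot] at hzZ
  rw [Subgroup.mem_bot]
  exact Subtype.ext (Subgroup.mem_bot.mp hzZ)

omit [Finite G] in
theorem normalizer_le_normalizer_relZ (S : Subgroup G) :
    Subgroup.normalizer (S : Set G) ≤ Subgroup.normalizer (relZ S : Set G) := by
  intro g hg
  rw [Subgroup.mem_normalizer_iff_map_conj_eq]
  exact map_conj_inf_centralizer (relL S) g (relL_map_conj S hg)

/-- `Z(L(R))` is normal in `H` when `O_{p'}(H) = 1` and `R` is a Sylow `p`-subgroup of `H`. -/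
theorem le_normalizer_relZ_of_core_bot {p : ℕ} [Fact p.Prime] (hp : p ≠ 2) {H R : Subgroup G}
    (hs : Group.IsSolvable ↥H) (hodd : Odd (Nat.card ↥H)) (hO : pPrimeCoreOf p H = ⊥)
    (hR : R ∈ sylSet p H) : H ≤ Subgroup.normalizer (relZ R : Set G) := by
  obtain ⟨S, rfl⟩ := exists_sylow_of_mem_sylSet hR
  have hO' : pPrimeCore p ↥H = ⊥ := by
    unfold pPrimeCoreOf at hO
    exact (Subgroup.map_eq_bot_iff_of_injective _ H.subtype_injective).mp hO
  have := relZ_normal hodd p hp hO' S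
  have hmap := map_relZ H.subtype (H := (S : Subgroup ↥H))
    (fun a _ b _ h => H.subtype_injective h)
  rw [← hmap]
  exact le_normalizer_map_subtype H _

/-- Puig's factorization `H = O_{p'}(H) N_H(Z(L(R)))`, relative form. -/
theorem puig_fact_rel {p : ℕ} [Fact p.Prime] (hp : p ≠ 2) {H R : Subgroup G}
    (hs : Group.IsSolvable ↥H) (hodd : Odd (Nat.card ↥H)) (hR : R ∈ sylSet p H) :
    H ≤ pPrimeCoreOf p H ⊔ (H ⊓ Subgroup.normalizer (relZ R : Set G)) := by
  obtain ⟨S, rfl⟩ := exists_sylow_of_mem_sylSet hR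
  have key := puig_factorization hodd p hp S
  have hmap := map_relZ H.subtype (H := (S : Subgroup ↥H))
    (fun a _ b _ h => H.subtype_injective h)
  intro x hx
  have hx' : (⟨x, hx⟩ : ↥H) ∈
      pPrimeCore p ↥H ⊔ Subgroup.normalizer (relZ (S : Subgroup ↥H) : Set ↥H) := by
    rw [key]; trivial
  have h2 : x ∈ (pPrimeCore p ↥H ⊔
      Subgroup.normalizer (relZ (S : Subgroup ↥H) : Set ↥H)).map H.subtype :=
    ⟨⟨x, hx⟩, hx', rfl⟩
  rw [Subgroup.map_sup] at h2
  have h3 : (Subgroup.normalizer (relZ (S : Subgroup ↥H) : Set ↥H)).map H.subtype ≤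
      H ⊓ Subgroup.normalizer (relZ ((S : Subgroup ↥H).map H.subtype) : Set G) := by
    rintro _ ⟨y, hy, rfl⟩
    refine Subgroup.mem_inf.mpr ⟨y.2, ?_⟩
    rw [← hmap]
    exact mem_normalizer_map_subtype hy
  exact (sup_le_sup (le_refl (pPrimeCoreOf p H)) h3) h2

/-- **Lemma X**, relative form with the fullness hypothesis inside `X` only (`p` odd). -/
theorem inv_le_pPrimeCoreOf_loc {p : ℕ} [Fact p.Prime] (hp2 : p ≠ 2) {X A K : Subgroup G}
    (hc : IsPConstrained p ↥X) (hAX : A ≤ X) (hKX : K ≤ X) (hA : IsPGroup p A)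
    (hfull : ∀ x ∈ X, x ∈ Subgroup.centralizer (A : Set G) → x ^ p = 1 → x ∈ A)
    (hK : (Nat.card K).Coprime p) (hAK : A ≤ Subgroup.normalizer (K : Set G)) :
    K ≤ pPrimeCoreOf p X := by
  have key : K.subgroupOf X ≤ pPrimeCore p ↥X := by
    apply inv_le_pPrimeCore_exp hp2 hc (A := A.subgroupOf X) (K := K.subgroupOf X)
    · exact hA.comap_subtype
    · intro x hx hxp
      rw [Subgroup.mem_subgroupOf]
      apply hfull _ x.2
      · rw [Subgroup.mem_centralizer_iff]
        intro a ha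
        have h1 := Subgroup.mem_centralizer_iff.mp hx ⟨a, hAX ha⟩ (Subgroup.mem_subgroupOf.mpr ha)
        exact congrArg Subtype.val h1
      · have h2 := congrArg Subtype.val hxp
        simpa using h2
    · rw [Nat.card_congr (Subgroup.subgroupOfEquivOfLe hKX).toEquiv]
      exact hK
    · rw [Subgroup.le_normalizer_iff]
      intro a ha k hk
      rw [Subgroup.mem_subgroupOf] at ha hk ⊢
      exact (Subgroup.le_normalizer_iff.mp hAK) _ ha _ hk
  intro k hk
  exact ⟨⟨k, hKX hk⟩, key (Subgroup.mem_subgroupOf.mpr hk), rfl⟩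

/-- elements of order `p` centralizing a Sylow `p`-subgroup of `M` inside `M` lie in it -/
theorem sylow_full {p : ℕ} [Fact p.Prime] {M P : Subgroup G} (hP : P ∈ sylSet p M) :
    ∀ x ∈ M, x ∈ Subgroup.centralizer (P : Set G) → x ^ p = 1 → x ∈ P := by
  intro x hxM hx hxp
  have hPp : IsPGroup p P := isPGroup_of_mem_sylSet hP
  have hzp : IsPGroup p (Subgroup.zpowers x) :=
    isPGroup_zpowers_of_pow (k := 1) (by rw [pow_one]; exact hxp)
  have hzN : Subgroup.zpowers x ≤ Subgroup.normalizer (P : Set G) := by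
    rw [Subgroup.zpowers_le]; exact Subgroup.centralizer_le_normalizer _ hx
  have hSp : IsPGroup p (P ⊔ Subgroup.zpowers x : Subgroup G) :=
    IsPGroup.to_sup_of_normal_left' hPp hzp hzN
  have hSM : P ⊔ Subgroup.zpowers x ≤ M := sup_le hP.1 (by rw [Subgroup.zpowers_le]; exact hxM)
  have h := sylSet_eq_of_le hP hSp hSM le_sup_left
  rw [← h]
  exact Subgroup.mem_sup_right (Subgroup.mem_zpowers x)

end Uniq1

end Cfsg.Agent.Lib.Helper32
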